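import Mathlib
import Cfsg.Prelude.Def_JComponents
import Cfsg.Agent.H14.Thompson
import Cfsg.Agent.Helper55.Basic

/-! Elementary facts on the Thompson subgroup `J(T)` (elementary abelian version, `p = 2`) of a
subgroup `T` of a finite group `G`, in terms of subgroups of `G`, and on
`maxElemAbelianOrder T`. -/

set_option autoImplicit false
open Cfsg

namespace Cfsg.Agent.Helper55.ThJ

universe u

variable {G : Type u} [Group G] [Finite G]

/-- the generators of `J(T)`, as subgroups of `G` -/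
def gens (T : Subgroup G) : Set (Subgroup G) :=
  {A | A ≤ T ∧ IsElementaryAbelian 2 A ∧ Nat.card A = maxElemAbelianOrder T}

theorem a_eq (T : Subgroup G) {A' : Subgroup ↥T}
    (hA' : A' ∈ maxElementaryAbelianSubgroups 2 ↥T) : maxElemAbelianOrder T = Nat.card A' := by
  unfold maxElemAbelianOrder
  have himg : (fun A : Subgroup ↥T => Nat.card ↥A) '' maxElementaryAbelianSubgroups 2 ↥T =
      {Nat.card A'} := by
    ext n
    constructor
    · rintro ⟨B', hB', rfl⟩
      exact le_antisymm (hA'.2 B' hB'.1) (hB'.2 A' hA'.1)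
    · intro hn
      exact ⟨A', hA', (Set.mem_singleton_iff.mp hn).symm⟩
  rw [himg, csSup_singleton]

theorem card_le_a (T : Subgroup G) {B : Subgroup G} (hBT : B ≤ T)
    (hB : IsElementaryAbelian 2 B) : Nat.card B ≤ maxElemAbelianOrder T := by
  obtain ⟨A', hA'⟩ := Cfsg.Agent.H14.maxElementaryAbelian_nonempty (G := ↥T) 2
  rw [a_eq T hA']
  have h1 := hA'.2 (B.subgroupOf T)
    (Cfsg.Agent.H14.elemAb_comap' hB T.subtype T.subtype_injective)
  rw [Nat.card_congr (Subgroup.subgroupOfEquivOfLe hBT).toEquiv] at h1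
  exact h1

theorem gens_nonempty (T : Subgroup G) : ∃ A : Subgroup G, A ∈ gens T := by
  obtain ⟨A', hA'⟩ := Cfsg.Agent.H14.maxElementaryAbelian_nonempty (G := ↥T) 2
  refine ⟨A'.map T.subtype, Subgroup.map_subtype_le _, Cfsg.Agent.H14.elemAb_map' hA'.1 _, ?_⟩
  rw [Subgroup.card_subtype, a_eq T hA']

theorem J_spec (T : Subgroup G) : thompsonSubgroupOf 2 T = sSup (gens T) := by
  apply le_antisymm
  · unfold thompsonSubgroupOf thompsonSubgroup
    rw [Subgroup.map_le_iff_le_comap]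
    apply sSup_le
    intro B' hB'
    rw [← Subgroup.map_le_iff_le_comap]
    refine le_sSup ⟨Subgroup.map_subtype_le _, Cfsg.Agent.H14.elemAb_map' hB'.1 _, ?_⟩
    rw [Subgroup.card_subtype, a_eq T hB']
  · apply sSup_le
    rintro A ⟨hAT, hA, hcard⟩
    have h1 : A.subgroupOf T ∈ maxElementaryAbelianSubgroups 2 ↥T := by
      refine ⟨Cfsg.Agent.H14.elemAb_comap' hA T.subtype T.subtype_injective, ?_⟩
      intro B' hB'
      rw [Nat.card_congr (Subgroup.subgroupOfEquivOfLe hAT).toEquiv, hcard]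
      have h2 := card_le_a T (Subgroup.map_subtype_le B') (Cfsg.Agent.H14.elemAb_map' hB' _)
      rw [Subgroup.card_subtype] at h2
      exact h2
    have h2 : A.subgroupOf T ≤ thompsonSubgroup 2 ↥T := le_sSup h1
    have h3 := Subgroup.map_mono (f := T.subtype) h2
    rw [Subgroup.map_subgroupOf_eq_of_le hAT] at h3
    exact h3

theorem J_le (T : Subgroup G) : thompsonSubgroupOf 2 T ≤ T :=
  Cfsg.Agent.H14.thompsonSubgroupOf_le 2 T

theorem gen_le_J {T A : Subgroup G} (hA : A ∈ gens T) : A ≤ thompsonSubgroupOf 2 T := by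
  rw [J_spec]
  exact le_sSup hA

theorem a_le_of_J_le {T T₁ : Subgroup G} (h : thompsonSubgroupOf 2 T ≤ T₁) :
    maxElemAbelianOrder T ≤ maxElemAbelianOrder T₁ := by
  obtain ⟨A, hA⟩ := gens_nonempty T
  have h1 := card_le_a T₁ ((gen_le_J hA).trans h) hA.2.1
  rw [hA.2.2] at h1
  exact h1

theorem a_mono {T T₁ : Subgroup G} (h : T ≤ T₁) :
    maxElemAbelianOrder T ≤ maxElemAbelianOrder T₁ :=
  a_le_of_J_le ((J_le T).trans h)

theorem J_le_J_of {T T₁ : Subgroup G} (h : thompsonSubgroupOf 2 T ≤ T₁)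
    (ha : maxElemAbelianOrder T₁ ≤ maxElemAbelianOrder T) :
    thompsonSubgroupOf 2 T ≤ thompsonSubgroupOf 2 T₁ := by
  rw [J_spec T]
  apply sSup_le
  intro A hA
  refine gen_le_J ⟨(gen_le_J hA).trans h, hA.2.1, ?_⟩
  rw [hA.2.2]
  exact le_antisymm (a_le_of_J_le h) ha

/-- if `J(T₀) ≤ Q ≤ T₀` then `J(Q) = J(T₀)` -/
theorem J_eq_of_between {T₀ Q : Subgroup G} (h1 : thompsonSubgroupOf 2 T₀ ≤ Q) (h2 : Q ≤ T₀) :
    thompsonSubgroupOf 2 Q = thompsonSubgroupOf 2 T₀ := by
  have ha : maxElemAbelianOrder Q = maxElemAbelianOrder T₀ :=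
    le_antisymm (a_mono h2) (a_le_of_J_le h1)
  apply le_antisymm
  · exact J_le_J_of ((J_le Q).trans h2) ha.ge
  · exact J_le_J_of h1 ha.le

/-- `N_G(T) ≤ N_G(J(T))` -/
theorem normalizer_le (T : Subgroup G) :
    Subgroup.normalizer (T : Set G) ≤ Subgroup.normalizer (thompsonSubgroupOf 2 T : Set G) := by
  intro g hg
  rw [Subgroup.mem_normalizer_iff_map_conj_eq] at hg ⊢
  have h1 := Cfsg.Agent.H14.thompsonSubgroupOf_conj 2 g T
  have hg' : T.map (MulAut.conj g).toMonoidHom = T := hg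
  rw [hg'] at h1
  exact h1

/-- a nontrivial `2`-subgroup has a nontrivial Thompson subgroup -/
theorem J_ne_bot {T : Subgroup G} (hT : IsPGroup 2 ↥T) (hT1 : T ≠ ⊥) :
    thompsonSubgroupOf 2 T ≠ ⊥ := by
  have : Fact (Nat.Prime 2) := ⟨Nat.prime_two⟩
  intro hbot
  obtain ⟨A, hA⟩ := gens_nonempty T
  have hA1 : A = ⊥ := by
    rw [eq_bot_iff, ← hbot]
    exact gen_le_J hA
  -- an element of order 2 of T
  have h2 : 2 ∣ Nat.card T := dvd_card_of_isPGroup_ne_bot hT hT1
  obtain ⟨x, hx⟩ := exists_prime_orderOf_dvd_card' 2 h2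
  have hB : IsElementaryAbelian 2 (Subgroup.zpowers (x : G)) := by
    refine ⟨inferInstance, ?_⟩
    intro y hy
    obtain ⟨k, rfl⟩ := Subgroup.mem_zpowers_iff.mp hy
    have hx2 : (x : G) ^ 2 = 1 := by
      have := pow_orderOf_eq_one x
      rw [hx] at this
      exact_mod_cast congrArg Subtype.val this
    rw [← zpow_natCast, ← zpow_mul, mul_comm, zpow_mul, zpow_natCast, hx2, one_zpow]
  have hBT : Subgroup.zpowers (x : G) ≤ T := by
    rw [Subgroup.zpowers_le]
    exact x.2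
  have h3 := card_le_a T hBT hB
  rw [← hA.2.2, hA1, Subgroup.card_bot] at h3
  have h4 : Nat.card (Subgroup.zpowers (x : G)) = 2 := by
    rw [Nat.card_zpowers, Subgroup.orderOf_coe, hx]
  omega

end Cfsg.Agent.Helper55.ThJ
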