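import Mathlib
import Cfsg.Prelude.Def_JComponents
import Cfsg.Agent.Helper55.ThJ
import Cfsg.Agent.Helper55.CharP

/-! The elementary part of S2948 (KS 12.1.7-type): for `T` a maximal straddling 2-subgroup of
`M ⊇ N_G(J(S))`, a 2-local `L ≰ M` and a Sylow 2-subgroup `T₀ ⊇ J(T)` of `L`:
`J(T) = J(T₀)`, `T₀` straddles `M`, `L` is in the family of `T₀`; and if `T ≤ L` then `L` is in
the family of `T`.  (Only the existence of a `J(T)`-component in `L` is missing for S2948.) -/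

set_option autoImplicit false
open Cfsg

namespace Cfsg.Agent.Helper55.J48

open Cfsg.Agent.Helper55 Cfsg.Agent.Helper55.ThJ

universe u

variable {G : Type u} [Group G] [Finite G]

/-- a 2-subgroup of `M` lies in an `M`-conjugate of a Sylow 2-subgroup `S ≤ M` -/
theorem exists_sylow_conj (S : Sylow 2 G) (M : Subgroup G) (hSM : (S : Subgroup G) ≤ M)
    (T : Subgroup G) (hT2 : IsPGroup 2 ↥T) (hTM : T ≤ M) :
    ∃ m ∈ M, T ≤ ((m • S : Sylow 2 G) : Subgroup G) := by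
  have : Fact (Nat.Prime 2) := ⟨Nat.prime_two⟩
  obtain ⟨Q, hQ⟩ := (hT2.comap_subtype (K := M)).exists_le_sylow
  obtain ⟨m, hm⟩ := MulAction.exists_smul_eq ↥M (S.subtype hSM) Q
  rw [Sylow.smul_subtype] at hm
  refine ⟨m, m.2, ?_⟩
  intro x hx
  have h1 : (⟨x, hTM hx⟩ : ↥M) ∈ (Q : Subgroup ↥M) := hQ hx
  rw [← hm, Sylow.coe_subtype, Subgroup.mem_subgroupOf] at h1
  exact h1

/-- the normalizer of a conjugate -/
theorem normalizer_conj_le (J : Subgroup G) (m : G) {M : Subgroup G} (hm : m ∈ M)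
    (h : Subgroup.normalizer (J : Set G) ≤ M) :
    Subgroup.normalizer ((J.map (MulAut.conj m).toMonoidHom : Subgroup G) : Set G) ≤ M := by
  intro x hx
  have hmem : ∀ y : G, y ∈ J.map (MulAut.conj m).toMonoidHom ↔ m⁻¹ * y * m ∈ J := by
    intro y
    rw [Subgroup.mem_map_equiv, MulAut.conj_symm_apply]
  have h1 : m⁻¹ * x * m ∈ Subgroup.normalizer (J : Set G) := by
    rw [Subgroup.mem_normalizer_iff]
    intro y
    have h2 := (Subgroup.mem_normalizer_iff.mp hx) (m * y * m⁻¹)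
    rw [hmem, hmem] at h2
    have e1 : m⁻¹ * (m * y * m⁻¹) * m = y := by group
    have e2 : m⁻¹ * (x * (m * y * m⁻¹) * x⁻¹) * m = m⁻¹ * x * m * y * (m⁻¹ * x * m)⁻¹ := by
      group
    rw [e1, e2] at h2
    exact h2
  have h3 := M.mul_mem (M.mul_mem hm (h h1)) (M.inv_mem hm)
  have e3 : m * (m⁻¹ * x * m) * m⁻¹ = x := by group
  rw [e3] at h3
  exact h3

/-- `O₂(L)` lies in every Sylow 2-subgroup of `L` -/
theorem pCoreOf_le_of_sylowIn {T₀ L : Subgroup G} (h : IsSylowTwoIn T₀ L) :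
    pCoreOf 2 L ≤ T₀ := by
  have : Fact (Nat.Prime 2) := ⟨Nat.prime_two⟩
  obtain ⟨hT₀L, hT₀2, hodd⟩ := h
  have h2 : IsPGroup 2 ↥(T₀.subgroupOf L) := hT₀2.comap_subtype
  have h3 : ¬ 2 ∣ (T₀.subgroupOf L).index := by
    intro hdvd
    have : Even (T₀.relIndex L) := even_iff_two_dvd.mpr hdvd
    exact (Nat.not_even_iff_odd.mpr hodd) this
  have h4 : pCore 2 ↥L ≤ T₀.subgroupOf L := by
    have h5 := pCore_le_sylow (h2.toSylow h3)
    rw [IsPGroup.toSylow_coe] at h5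
    exact h5
  have h6 := Subgroup.map_mono (f := L.subtype) h4
  rw [Subgroup.map_subgroupOf_eq_of_le hT₀L] at h6
  exact h6

omit [Finite G] in
theorem le_normalizer_pCoreOf (L : Subgroup G) :
    L ≤ Subgroup.normalizer (pCoreOf 2 L : Set G) := by
  have h1 := Subgroup.le_normalizer_map (H := pCore 2 ↥L) L.subtype
  have h2 : Subgroup.normalizer ((pCore 2 ↥L : Subgroup ↥L) : Set ↥L) = ⊤ :=
    Subgroup.normalizer_eq_top_iff.mpr (pCore_normal' 2 ↥L)
  rw [h2, ← MonoidHom.range_eq_map, Subgroup.range_subtype] at h1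
  exact h1

omit [Finite G] in
/-- characteristic 2 type: `C_G(O₂(L)) ≤ O₂(L)` for a 2-local `L` -/
theorem centralizer_pCoreOf_le (hL : IsCharacteristicTwoType G) {L : Subgroup G}
    (hL2 : IsTwoLocal L) :
    Subgroup.centralizer (pCoreOf 2 L : Set G) ≤ pCoreOf 2 L := by
  obtain ⟨P, hP, hP1, rfl⟩ := hL2
  have hchar := hL.2 P hP hP1
  have hPQ : P ≤ pCoreOf 2 (Subgroup.normalizer (P : Set G)) := by
    have h1 : P.subgroupOf (Subgroup.normalizer (P : Set G)) ≤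
        pCore 2 ↥(Subgroup.normalizer (P : Set G)) :=
      le_pCore Subgroup.normal_in_normalizer hP.comap_subtype
    have h2 := Subgroup.map_mono (f := (Subgroup.normalizer (P : Set G)).subtype) h1
    rw [Subgroup.map_subgroupOf_eq_of_le Subgroup.le_normalizer] at h2
    exact h2
  intro x hx
  have hxL : x ∈ Subgroup.normalizer (P : Set G) := by
    apply Subgroup.centralizer_le_normalizer
    exact Subgroup.centralizer_le (SetLike.coe_subset_coe.mpr hPQ) hx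
  have hxc : (⟨x, hxL⟩ : ↥(Subgroup.normalizer (P : Set G))) ∈
      Subgroup.centralizer (pCore 2 ↥(Subgroup.normalizer (P : Set G)) :
        Set ↥(Subgroup.normalizer (P : Set G))) := by
    rw [Subgroup.mem_centralizer_iff]
    intro y hy
    apply Subtype.ext
    have h3 : (y : G) ∈ pCoreOf 2 (Subgroup.normalizer (P : Set G)) := ⟨y, hy, rfl⟩
    exact (Subgroup.mem_centralizer_iff.mp hx) (y : G) h3
  exact ⟨⟨x, hxL⟩, hchar hxc, rfl⟩

/-- every 2-subgroup of `L` lies in a Sylow 2-subgroup of `L` -/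
theorem exists_sylowIn {T L : Subgroup G} (hT2 : IsPGroup 2 ↥T) (hTL : T ≤ L) :
    ∃ T₂ : Subgroup G, IsSylowTwoIn T₂ L ∧ T ≤ T₂ := by
  have : Fact (Nat.Prime 2) := ⟨Nat.prime_two⟩
  obtain ⟨Q, hQ⟩ := (hT2.comap_subtype (K := L)).exists_le_sylow
  refine ⟨(Q : Subgroup ↥L).map L.subtype, ⟨Subgroup.map_subtype_le _, Q.isPGroup'.map _, ?_⟩, ?_⟩
  · have h1 : ((Q : Subgroup ↥L).map L.subtype).subgroupOf L = Q :=
      Subgroup.comap_map_eq_self_of_injective L.subtype_injective _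
    have h2 : ((Q : Subgroup ↥L).map L.subtype).relIndex L = (Q : Subgroup ↥L).index := by
      unfold Subgroup.relIndex
      rw [h1]
    rw [h2, ← Nat.not_even_iff_odd, even_iff_two_dvd]
    exact Q.not_dvd_index
  · have hQ' : T.subgroupOf L ≤ (Q : Subgroup ↥L) := hQ
    have h1 := Subgroup.map_mono (f := L.subtype) hQ'
    rw [Subgroup.map_subgroupOf_eq_of_le hTL] at h1
    exact h1

/-- The elementary part of S2948. -/
theorem elem (hL : IsCharacteristicTwoType G) (S : Sylow 2 G) (M : Subgroup G)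
    (hMJ : Subgroup.normalizer (thompsonSubgroupOf 2 (S : Subgroup G) : Set G) ≤ M)
    (T : Subgroup G) (hT : T ∈ maxStraddlingTwoSubgroups M)
    (L : Subgroup G) (hL2 : IsTwoLocal L) (hLM : ¬ L ≤ M) (T₀ : Subgroup G)
    (hT₀ : IsSylowTwoIn T₀ L) (hJT₀ : thompsonSubgroupOf 2 T ≤ T₀) :
    thompsonSubgroupOf 2 T = thompsonSubgroupOf 2 T₀ ∧ T₀ ∈ straddlingTwoSubgroups M ∧
      L ∈ jOvergroups T₀ ∧ (T ≤ L → L ∈ jOvergroups T) := by
  have : Fact (Nat.Prime 2) := ⟨Nat.prime_two⟩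
  obtain ⟨⟨hT2, hT1, hTM, -⟩, hmax⟩ := hT
  have hJ2 : IsPGroup 2 ↥(thompsonSubgroupOf 2 T) := hT2.to_le (J_le T)
  have hJ1 : thompsonSubgroupOf 2 T ≠ ⊥ := J_ne_bot hT2 hT1
  -- (i) `N_G(J(T)) ≤ M`
  have hSM : (S : Subgroup G) ≤ M :=
    (Subgroup.le_normalizer.trans (normalizer_le (S : Subgroup G))).trans hMJ
  obtain ⟨m, hmM, hTS'⟩ := exists_sylow_conj S M hSM T hT2 hTM
  have hMJ' : Subgroup.normalizer
      (thompsonSubgroupOf 2 ((m • S : Sylow 2 G) : Subgroup G) : Set G) ≤ M := by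
    have h1 := Cfsg.Agent.H14.thompsonSubgroupOf_conj 2 m (S : Subgroup G)
    have h2 : ((m • S : Sylow 2 G) : Subgroup G) =
        (S : Subgroup G).map (MulAut.conj m).toMonoidHom := by
      rw [Sylow.coe_subgroup_smul]
      rfl
    rw [h2, ← h1]
    exact normalizer_conj_le _ m hmM hMJ
  have hS'M : ((m • S : Sylow 2 G) : Subgroup G) ≤ M :=
    (Subgroup.le_normalizer.trans (normalizer_le _)).trans hMJ'
  have hNJ : Subgroup.normalizer (thompsonSubgroupOf 2 T : Set G) ≤ M := by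
    by_cases hTS : T = ((m • S : Sylow 2 G) : Subgroup G)
    · rw [hTS]
      exact hMJ'
    · by_contra hcon
      have hTT₁ : T ≤ ((m • S : Sylow 2 G) : Subgroup G) ⊓ Subgroup.normalizer (T : Set G) :=
        le_inf hTS' Subgroup.le_normalizer
      have hT₁ne : ((m • S : Sylow 2 G) : Subgroup G) ⊓ Subgroup.normalizer (T : Set G) ≠ ⊥ := by
        intro hb
        apply hT1
        rw [eq_bot_iff, ← hb]
        exact hTT₁
      have hT₁str : ((m • S : Sylow 2 G) : Subgroup G) ⊓ Subgroup.normalizer (T : Set G) ∈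
          straddlingTwoSubgroups M :=
        ⟨(m • S : Sylow 2 G).isPGroup'.to_le inf_le_left, hT₁ne, inf_le_left.trans hS'M,
          Subgroup.normalizer (thompsonSubgroupOf 2 T : Set G), ⟨_, hJ2, hJ1, rfl⟩,
          inf_le_right.trans (normalizer_le T), hcon⟩
      obtain ⟨ha, hrest⟩ := hmax _ hT₁str
      have haeq := le_antisymm ha (a_mono hTT₁)
      obtain ⟨hJc, hTc⟩ := hrest haeq
      have hJJ := J_le_J_of ((J_le T).trans hTT₁) ha
      have hJeq := le_antisymm hJc (Subgroup.card_le_of_le hJJ)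
      have hTeq := Subgroup.eq_of_le_of_card_ge hTT₁ (hTc hJeq)
      exact hTS (eq_of_normalizer_inf_le (m • S : Sylow 2 G).isPGroup' hTS' hTeq.ge)
  -- (ii), (iii)
  have key : ∀ T₀ : Subgroup G, IsSylowTwoIn T₀ L → thompsonSubgroupOf 2 T ≤ T₀ →
      thompsonSubgroupOf 2 T = thompsonSubgroupOf 2 T₀ ∧ T₀ ∈ straddlingTwoSubgroups M ∧
        L ∈ jOvergroups T₀ ∧ maxElemAbelianOrder T₀ = maxElemAbelianOrder T := by
    intro T₀ hT₀ hJ
    obtain ⟨hT₀L, hT₀2, hodd⟩ := hT₀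
    have hJT₁ : thompsonSubgroupOf 2 T ≤
        T₀ ⊓ Subgroup.normalizer (thompsonSubgroupOf 2 T : Set G) :=
      le_inf hJ Subgroup.le_normalizer
    have hT₁ne : T₀ ⊓ Subgroup.normalizer (thompsonSubgroupOf 2 T : Set G) ≠ ⊥ := by
      intro hb
      apply hJ1
      rw [eq_bot_iff, ← hb]
      exact hJT₁
    have hT₁str : T₀ ⊓ Subgroup.normalizer (thompsonSubgroupOf 2 T : Set G) ∈
        straddlingTwoSubgroups M :=
      ⟨hT₀2.to_le inf_le_left, hT₁ne, inf_le_right.trans hNJ, L, hL2,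
        inf_le_left.trans hT₀L, hLM⟩
    obtain ⟨ha, hrest⟩ := hmax _ hT₁str
    have haeq := le_antisymm ha (a_le_of_J_le hJT₁)
    have hJJ := J_le_J_of hJT₁ ha
    have hJeq := Subgroup.eq_of_le_of_card_ge hJJ (hrest haeq).1
    have hT₁T₀ : T₀ ⊓ Subgroup.normalizer (thompsonSubgroupOf 2 T : Set G) = T₀ := by
      apply eq_of_normalizer_inf_le hT₀2 inf_le_left
      refine le_inf inf_le_left ?_
      have h1 := normalizer_le (T₀ ⊓ Subgroup.normalizer (thompsonSubgroupOf 2 T : Set G))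
      rw [← hJeq] at h1
      exact inf_le_right.trans h1
    rw [hT₁T₀] at hJeq hT₁str haeq
    refine ⟨hJeq, hT₁str, ⟨⟨hT₀L, hT₀2, hodd⟩, ?_, centralizer_pCoreOf_le hL hL2⟩, haeq⟩
    intro hle
    apply hLM
    have hQT₀ : pCoreOf 2 L ≤ T₀ := pCoreOf_le_of_sylowIn ⟨hT₀L, hT₀2, hodd⟩
    have h1 := J_eq_of_between hle hQT₀
    have h2 := (le_normalizer_pCoreOf L).trans (normalizer_le (pCoreOf 2 L))
    rw [h1, ← hJeq] at h2
    exact h2.trans hNJ
  obtain ⟨h1, h2, h3, -⟩ := key T₀ hT₀ hJT₀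
  refine ⟨h1, h2, h3, ?_⟩
  intro hTL
  obtain ⟨T₂, hT₂, hTT₂⟩ := exists_sylowIn hT2 hTL
  obtain ⟨hJ, hstr, -, ha⟩ := key T₂ hT₂ ((J_le T).trans hTT₂)
  obtain ⟨-, hTc⟩ := (hmax _ hstr).2 ha
  have hTeq : T = T₂ := Subgroup.eq_of_le_of_card_ge hTT₂ (hTc (by rw [hJ]))
  rw [← hTeq] at hT₂
  exact (key T hT₂ (J_le T)).2.2.1

end Cfsg.Agent.Helper55.J48
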