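import Mathlib
import Cfsg.Prelude.Def_JComponents
import Cfsg.Agent.Helper55.J48
import Cfsg.Agent.S2942

/-! Elementary parts of S2950 (KS 12.3.5-type): existence of a maximal 2-local `L ⊇ ⟨K, T⟩` in
which `K` is subnormal and `T` is Sylow; and for every maximal 2-local `L' ⊇ ⟨K, J(T)⟩` a
Sylow 2-subgroup `T'` of `L'` with `J(T') = J(T)`, `L'` in the family of `T'`, `K` subnormal
in `L'`. -/

set_option autoImplicit false
open Cfsg

namespace Cfsg.Agent.Helper55.Uq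

open Cfsg.Agent.Helper55 Cfsg.Agent.Helper55.ThJ Cfsg.Agent.Helper55.J48

universe u

variable {G : Type u} [Group G] [Finite G]

/-- `O₂(X)` is a 2-group -/
theorem pCoreOf_isPGroup (X : Subgroup G) : IsPGroup 2 ↥(pCoreOf 2 X) := by
  have : Fact (Nat.Prime 2) := ⟨Nat.prime_two⟩
  exact (isPGroup_pCore 2 ↥X).map X.subtype

omit [Finite G] in
/-- `X` normalizes `O₂(X)` -/
theorem le_normalizer_pCoreOf' (X : Subgroup G) :
    X ≤ Subgroup.normalizer (pCoreOf 2 X : Set G) := le_normalizer_pCoreOf X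

/-- every 2-local lies in a maximal 2-local -/
theorem exists_maximalTwoLocal {L₀ : Subgroup G} (h : IsTwoLocal L₀) :
    ∃ L : Subgroup G, IsMaximalTwoLocal L ∧ L₀ ≤ L := by
  classical
  have hfin : Set.Finite {L : Subgroup G | IsTwoLocal L ∧ L₀ ≤ L} := Set.toFinite _
  obtain ⟨L, hLmem, hLmax⟩ := hfin.exists_maximal ⟨L₀, h, le_refl _⟩
  refine ⟨L, ⟨hLmem.1, ?_⟩, hLmem.2⟩
  intro N hN hLN
  exact le_antisymm (hLmax ⟨hN, hLmem.2.trans hLN⟩ hLN) hLN

omit [Finite G] in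
/-- `IsJComponent` only depends on `J(T)` -/
theorem isJComponent_congr {T T' K : Subgroup G}
    (h : thompsonSubgroupOf 2 T = thompsonSubgroupOf 2 T') (hK : IsJComponent T K) :
    IsJComponent T' K := by
  unfold IsJComponent at hK ⊢
  rw [← h]
  exact hK

/-- Existence half of S2950. -/
theorem exists_max (hL : IsCharacteristicTwoType G)
    (hN : ∀ N : Subgroup G, IsTwoLocal N → Group.IsSolvable ↥N)
    (hZ : ∀ S : Sylow 2 G, Subgroup.centralizer (omegaCenterOf (S : Subgroup G) : Set G) ≤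
      Subgroup.normalizer ((S : Subgroup G) : Set G))
    (S : Sylow 2 G) (M : Subgroup G)
    (hMJ : Subgroup.normalizer (thompsonSubgroupOf 2 (S : Subgroup G) : Set G) ≤ M)
    (T : Subgroup G) (hT : T ∈ maxStraddlingTwoSubgroups M)
    (K : Subgroup G) (hK : K ∈ jComponentsOutside M T) :
    ∃ L : Subgroup G, IsMaximalTwoLocal L ∧ K ⊔ T ≤ L ∧ ¬ L ≤ M ∧ L ∈ jOvergroups T ∧
      (K.subgroupOf L).IsSubnormal := by
  obtain ⟨hK0, hKM, hO⟩ := hK
  have hloc : IsTwoLocal (Subgroup.normalizer (pCoreOf 2 (K ⊔ T) : Set G)) :=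
    ⟨pCoreOf 2 (K ⊔ T), pCoreOf_isPGroup _, hO, rfl⟩
  obtain ⟨L, hLmax, hL₀⟩ := exists_maximalTwoLocal hloc
  have hXL : K ⊔ T ≤ L := (le_normalizer_pCoreOf (K ⊔ T)).trans hL₀
  have hKL : K ≤ L := le_sup_left.trans hXL
  have hTL : T ≤ L := le_sup_right.trans hXL
  have hLM : ¬ L ≤ M := fun h => hKM (hKL.trans h)
  obtain ⟨T₂, hT₂, hTT₂⟩ := exists_sylowIn hT.1.1 hTL
  have hov : L ∈ jOvergroups T :=
    (elem hL S M hMJ T hT L hLmax.1 hLM T₂ hT₂ ((J_le T).trans hTT₂)).2.2.2 hTL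
  exact ⟨L, hLmax, hXL, hLM, hov,
    Cfsg.Agent.S2942.result hL hN hZ T hT.1.1 hT.1.2.1 L hov K hK0.1 hKL⟩

/-- Step (0) of the uniqueness half of S2950: any 2-local `L' ⊇ ⟨K, J(T)⟩`. -/
theorem overgroup_facts (hL : IsCharacteristicTwoType G)
    (hN : ∀ N : Subgroup G, IsTwoLocal N → Group.IsSolvable ↥N)
    (hZ : ∀ S : Sylow 2 G, Subgroup.centralizer (omegaCenterOf (S : Subgroup G) : Set G) ≤
      Subgroup.normalizer ((S : Subgroup G) : Set G))
    (S : Sylow 2 G) (M : Subgroup G)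
    (hMJ : Subgroup.normalizer (thompsonSubgroupOf 2 (S : Subgroup G) : Set G) ≤ M)
    (T : Subgroup G) (hT : T ∈ maxStraddlingTwoSubgroups M)
    (K : Subgroup G) (hK : IsJComponent T K) (hKM : ¬ K ≤ M)
    (L' : Subgroup G) (hL' : IsTwoLocal L') (hKL : K ⊔ thompsonSubgroupOf 2 T ≤ L') :
    ∃ T' : Subgroup G, thompsonSubgroupOf 2 T ≤ T' ∧
      thompsonSubgroupOf 2 T = thompsonSubgroupOf 2 T' ∧ T' ∈ straddlingTwoSubgroups M ∧
      L' ∈ jOvergroups T' ∧ IsJComponent T' K ∧ (K.subgroupOf L').IsSubnormal := by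
  have hKL' : K ≤ L' := le_sup_left.trans hKL
  have hJL' : thompsonSubgroupOf 2 T ≤ L' := le_sup_right.trans hKL
  have hLM : ¬ L' ≤ M := fun h => hKM (hKL'.trans h)
  have hJ2 : IsPGroup 2 ↥(thompsonSubgroupOf 2 T) := hT.1.1.to_le (J_le T)
  obtain ⟨T', hT', hJT'⟩ := exists_sylowIn hJ2 hJL'
  obtain ⟨h1, h2, h3, -⟩ := elem hL S M hMJ T hT L' hL' hLM T' hT' hJT'
  have hK' : IsJComponent T' K := isJComponent_congr h1 hK
  exact ⟨T', hJT', h1, h2, h3, hK',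
    Cfsg.Agent.S2942.result hL hN hZ T' h2.1 h2.2.1 L' h3 K hK' hKL'⟩

end Cfsg.Agent.Helper55.Uq
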