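import Cfsg.Agent.H58.UqDefs
import Cfsg.Agent.Helper55.J48

/-! UQ-MAXL and UQ-SYLEX (S2950, helper58's project UQ). -/

set_option autoImplicit false
open Cfsg

namespace Cfsg.Agent.Helper55.Uq

open Cfsg.Agent.H58.Uq

universe u

/-- MAXL: every 2-local subgroup lies in a maximal 2-local subgroup. -/
theorem maxL : StMaxL.{u} := by
  intro G _ _ L₀ h
  classical
  have hfin : Set.Finite {L : Subgroup G | IsTwoLocal L ∧ L₀ ≤ L} := Set.toFinite _
  obtain ⟨L, hLmem, hLmax⟩ := hfin.exists_maximal ⟨L₀, h, le_refl _⟩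
  refine ⟨L, ⟨hLmem.1, ?_⟩, hLmem.2⟩
  intro N hN hLN
  exact le_antisymm (hLmax ⟨hN, hLmem.2.trans hLN⟩ hLN) hLN

/-- SYLEX: a 2-subgroup of `N` lies in a Sylow 2-subgroup of `N`. -/
theorem sylEx : StSylEx.{u} := by
  intro G _ _ P N hP hPN
  obtain ⟨S, hS, hPS⟩ := Cfsg.Agent.Helper55.J48.exists_sylowIn hP hPN
  exact ⟨S, hPS, hS⟩

example : Cfsg.Agent.H58.Uq.StMaxL.{u} := maxL
example : Cfsg.Agent.H58.Uq.StSylEx.{u} := sylEx

end Cfsg.Agent.Helper55.Uq
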