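import Mathlib
import Cfsg.Agent.H63.BG11Main
import Cfsg.Agent.H31.T2
import Cfsg.Agent.S1395
import Cfsg.Agent.S0025
import Cfsg.Agent.H72.Subn
import Cfsg.Agent.H31.BG8a
import Cfsg.Agent.H58.BG10FG
import Cfsg.Agent.H70.BG10D
import Cfsg.Agent.H29.BG117Defs

set_option autoImplicit false

/-!
# Bender–Glauberman §11/§12: CLAIM D (helper55, for helper29's 11.7 project)

`M` a maximal subgroup, `t ∉ σ(M)`, `Z ≤ M` elementary abelian of order `t²` with `C_G(Z) ≤ M`.
Then `M_σ ∩ C_G(Z) = 1`.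
-/

namespace Cfsg.Agent.Helper55.BG117

open Cfsg Subgroup Cfsg.Agent.H58.BG10 Cfsg.Agent.H63.BG11

universe u

variable {G : Type u} [Group G]

/-- A `q`-subgroup of index prime to `q`, normalized by `A`, is a maximal `A`-invariant
`q`-subgroup. -/
theorem mem_maxInv_of_sylow [Finite G] {q : ℕ} [Fact q.Prime] {A Q : Subgroup G}
    (hQp : IsPGroup q Q) (hQi : ¬ q ∣ Q.index) (hAQ : A ≤ normalizer (Q : Set G)) :
    Q ∈ maxInvSubgroups ⊤ A {q} := by
  have hqpr : q.Prime := Fact.out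
  refine ⟨⟨le_top, ?_, hAQ⟩, ?_⟩
  · intro r hr hrd
    obtain ⟨b, hb⟩ := IsPGroup.iff_card.1 hQp
    rw [hb] at hrd
    exact (Nat.prime_dvd_prime_iff_eq hr hqpr).1 (hr.dvd_of_dvd_pow hrd)
  · rintro R ⟨-, hRπ, -⟩ hQR
    have hRp : IsPGroup q R := by
      apply IsPGroup.of_card (n := (Nat.card R).primeFactorsList.length)
      exact Nat.eq_prime_pow_of_unique_prime_dvd Nat.card_pos.ne'
        (fun {d} hd hdd => hRπ d hd hdd)
    exact Cfsg.Agent.H98.BG11.eq_of_le_of_pgroup hRp hQi hQR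

/-- For `q ∈ σ(M)`, every `q`-subgroup of `M` of index prime to `q` (in `G`) has its normalizer
inside `M`. -/
theorem normalizer_le_of_sigma [Finite G] {M : Subgroup G} {q : ℕ} [Fact q.Prime]
    (hqσ : q ∈ sigma M) {Q : Subgroup G} (hQM : Q ≤ M) (hQp : IsPGroup q Q)
    (hQi : ¬ q ∣ Q.index) : normalizer (Q : Set G) ≤ M := by
  obtain ⟨-, -, P, hPN⟩ := hqσ
  obtain ⟨S, hS⟩ := (hQp.comap_subtype (K := M)).exists_le_sylow
  obtain ⟨m, hm⟩ := MulAction.exists_smul_eq M P S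
  have hQeq : Q = ((P : Subgroup M).map M.subtype).map (MulAut.conj (m : G)).toMonoidHom := by
    symm
    apply Cfsg.Agent.H98.BG11.eq_of_le_of_pgroup ((P.isPGroup'.map _).map _) hQi
    intro x hx
    have h1 : (⟨x, hQM hx⟩ : M) ∈ (S : Subgroup M) :=
      hS (show (⟨x, hQM hx⟩ : M) ∈ Q.comap M.subtype from hx)
    rw [← hm, Sylow.coe_subgroup_smul, Subgroup.mem_smul_pointwise_iff_exists] at h1
    obtain ⟨y, hy, hyx⟩ := h1
    refine ⟨(y : G), ⟨y, hy, rfl⟩, ?_⟩
    have h2 := congrArg Subtype.val hyx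
    simpa [MulAut.smul_def] using h2
  intro n hn
  -- m⁻¹ n m normalizes P.map
  have h1 : (m : G)⁻¹ * n * m ∈
      normalizer (((P : Subgroup M).map M.subtype : Subgroup G) : Set G) := by
    rw [Subgroup.mem_normalizer_iff] at hn ⊢
    intro x
    have key : ∀ y : G, y ∈ (P : Subgroup M).map M.subtype ↔ (m : G) * y * (m : G)⁻¹ ∈ Q := by
      intro y
      rw [hQeq]
      constructor
      · intro hy
        exact ⟨y, hy, rfl⟩
      · rintro ⟨z, hz, hzy⟩
        have : z = y := by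
          have h3 : (m : G) * z * (m : G)⁻¹ = (m : G) * y * (m : G)⁻¹ := hzy
          have h4 : z = (m : G)⁻¹ * ((m : G) * z * (m : G)⁻¹) * (m : G) := by group
          rw [h4, h3]; group
        rw [← this]; exact hz
    rw [key x, key ((m : G)⁻¹ * n * m * x * ((m : G)⁻¹ * n * m)⁻¹), hn ((m : G) * x * (m : G)⁻¹)]
    have e : (m : G) * ((m : G)⁻¹ * n * m * x * ((m : G)⁻¹ * n * m)⁻¹) * (m : G)⁻¹
        = n * ((m : G) * x * (m : G)⁻¹) * n⁻¹ := by group
    rw [e]
  have h2 := hPN h1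
  have e : n = (m : G) * ((m : G)⁻¹ * n * m) * (m : G)⁻¹ := by group
  rw [e]
  exact M.mul_mem (M.mul_mem m.2 h2) (M.inv_mem m.2)

/-- **CLAIM D** (helper29, board post 4207). -/
theorem claimD [Finite G] (hG : IsMinSimpleOddOrder G) (M : Subgroup G) (hM : IsCoatom M)
    (t : ℕ) [Fact t.Prime] (ht : t ∉ sigma M) (Z : Subgroup G) (hZM : Z ≤ M)
    (hZe : IsElementaryAbelian t Z) (hZc : Nat.card Z = t ^ 2)
    (hC : centralizer (Z : Set G) ≤ M) :
    sigmaCore M ⊓ centralizer (Z : Set G) = ⊥ := by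
  have htp : t.Prime := Fact.out
  have rk2 : PRankLE t 2 M := by
    by_contra h
    exact ht (alpha_subset_sigma hG (st1403 hG) hM ⟨htp, h⟩)
  have rk1 : ¬ PRankLE t 1 M := by
    intro h
    have hcomm : IsMulCommutative (Z.subgroupOf M) := by
      refine ⟨⟨fun a b => ?_⟩⟩
      have ha : (a : M).1 ∈ Z := a.2
      have hb : (b : M).1 ∈ Z := b.2
      have h1 := hZe.1.is_comm.comm (⟨_, ha⟩ : Z) ⟨_, hb⟩
      have h2 : ((a : M) : G) * ((b : M) : G) = ((b : M) : G) * ((a : M) : G) :=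
        congrArg Subtype.val h1
      apply Subtype.ext
      apply Subtype.ext
      exact h2
    have hexp : ∀ a ∈ Z.subgroupOf M, a ^ t = 1 := by
      intro a ha
      apply Subtype.ext
      have := hZe.2 (a : G) ha
      simpa using this
    have h1 := h (Z.subgroupOf M) hcomm hexp
    have h2 : Nat.card (Z.subgroupOf M) = Nat.card Z :=
      Nat.card_congr (Subgroup.subgroupOfEquivOfLe hZM).toEquiv
    rw [h2, hZc, pow_one] at h1
    have : t < t ^ 2 := by
      have := htp.one_lt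
      nlinarith
    omega
  have hmax : ∀ B : Subgroup G, IsElementaryAbelian t B → Z ≤ B → B = Z :=
    (st1408 hG M hM t ht rk2 rk1).2 Z hZM hZe hZc
  have homega : ∀ x ∈ centralizer (Z : Set G), x ^ t = 1 ↔ x ∈ Z := by
    intro x hx
    constructor
    · intro hxp
      have hcomm : ∀ b ∈ Z, x * b = b * x := fun b hb => (hx b hb).symm
      have h1 := Cfsg.Agent.H70.BG10.sup_zpowers_elementary hZe hcomm hxp
      have h2 := hmax _ h1 le_sup_left
      rw [← h2]
      exact le_sup_right (a := Z) (mem_zpowers x)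
    · intro hxZ
      exact hZe.2 x hxZ
  have htG : t ∣ Nat.card G := by
    have h1 : Nat.card Z ∣ Nat.card G := Subgroup.card_subgroup_dvd_card Z
    rw [hZc] at h1
    exact (dvd_pow_self t two_ne_zero).trans h1
  have hZp : IsPGroup t Z := IsPGroup.of_card hZc
  have hTH : TransitivityHypothesis Z :=
    Cfsg.Agent.S1396.result hG t htG Z hZp hZe.1
      (Or.inl ⟨homega, fun H hH => st1410 hG t H hH⟩)
  by_contra hne
  have hcard : Nat.card ↥(sigmaCore M ⊓ centralizer (Z : Set G)) ≠ 1 :=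
    fun h => hne (Subgroup.card_eq_one.1 h)
  obtain ⟨q, hq, hqd⟩ := Nat.exists_prime_and_dvd hcard
  haveI : Fact q.Prime := ⟨hq⟩
  obtain ⟨⟨hσM, hσdvd, -⟩, ⟨-, hσidx⟩, -⟩ := st1350 hG M hM
  have hqσM : q ∣ Nat.card (sigmaCore M) := hqd.trans (Subgroup.card_dvd_of_le inf_le_left)
  have hqC : q ∣ Nat.card (centralizer (Z : Set G)) :=
    hqd.trans (Subgroup.card_dvd_of_le inf_le_right)
  have hqσ : q ∈ sigma M := hσdvd q hq hqσM
  have hqt : q ≠ t := fun h => ht (h ▸ hqσ)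
  have hqZ : ¬ q ∣ Nat.card Z := by
    rw [hZc]
    intro h
    exact hqt ((Nat.prime_dvd_prime_iff_eq hq htp).1 (hq.dvd_of_dvd_pow h))
  have hZle : Z ≤ centralizer (Z : Set G) := by
    intro x hx y hy
    have h1 := hZe.1.is_comm.comm (⟨y, hy⟩ : Z) ⟨x, hx⟩
    exact congrArg Subtype.val h1
  have hZrk : ¬ RankLE 1 ↥(Z ⊓ centralizer (Z : Set G)) := by
    intro h
    have hinf : Z ⊓ centralizer (Z : Set G) = Z := inf_eq_left.2 hZle
    have hcomm : IsMulCommutative (⊤ : Subgroup ↥(Z ⊓ centralizer (Z : Set G))) := by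
      refine ⟨⟨fun a b => ?_⟩⟩
      have ha : ((a : ↥(Z ⊓ centralizer (Z : Set G))) : G) ∈ Z := a.1.2.1
      have hb : ((b : ↥(Z ⊓ centralizer (Z : Set G))) : G) ∈ Z := b.1.2.1
      have h1 := hZe.1.is_comm.comm (⟨_, ha⟩ : Z) ⟨_, hb⟩
      have h2 : ((a : ↥(Z ⊓ centralizer (Z : Set G))) : G) *
          ((b : ↥(Z ⊓ centralizer (Z : Set G))) : G) =
          ((b : ↥(Z ⊓ centralizer (Z : Set G))) : G) *
          ((a : ↥(Z ⊓ centralizer (Z : Set G))) : G) := congrArg Subtype.val h1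
      apply Subtype.ext
      apply Subtype.ext
      exact h2
    have hexp : ∀ a ∈ (⊤ : Subgroup ↥(Z ⊓ centralizer (Z : Set G))), a ^ t = 1 := by
      intro a _
      apply Subtype.ext
      have := hZe.2 (a : G) a.2.1
      simpa using this
    have h1 := h t htp ⊤ hcomm hexp
    rw [Subgroup.card_top, hinf, hZc, pow_one] at h1
    have : t < t ^ 2 := by
      have := htp.one_lt
      nlinarith
    omega
  have htr := Cfsg.Agent.H31.T2.trans_of_rank_two hG hTH hZrk hq hqZ hqC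
  obtain ⟨S, hZS⟩ := hZp.exists_le_sylow
  have hStop : (S : Subgroup G) ≠ ⊤ := Cfsg.Agent.H31.BG8.not_isPGroup_top hG S.isPGroup'
  have hSπ : ∀ r : ℕ, r.Prime → r ∣ Nat.card (S : Subgroup G) → r ∣ Nat.card Z := by
    intro r hr hd
    obtain ⟨n, hn⟩ := IsPGroup.iff_card.mp S.isPGroup'
    rw [hn] at hd
    have hrt : r = t := (Nat.prime_dvd_prime_iff_eq hr htp).mp (hr.dvd_of_dvd_pow hd)
    rw [hrt, hZc]
    exact dvd_pow_self t two_ne_zero
  have hsn : (Z.subgroupOf (S : Subgroup G)).IsSubnormal :=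
    Cfsg.Agent.H72.isSubnormal_of_isPGroup t S.isPGroup' _
  obtain ⟨-, -, hc, hd⟩ :=
    Cfsg.Agent.S1395.result hG Z hTH q hq hqZ (S : Subgroup G) hStop hSπ hZS hsn htr
  have hbot : (⊥ : Subgroup G) ∈ invSubgroups ⊤ (S : Subgroup G) {q} := by
    refine ⟨le_top, ?_, ?_⟩
    · intro r hr hdvd
      rw [Subgroup.card_bot] at hdvd
      exact absurd (Nat.dvd_one.mp hdvd) hr.ne_one
    · intro x _
      rw [Subgroup.mem_normalizer_iff]
      intro y
      simp
  obtain ⟨Q', hQ', -⟩ := Cfsg.Agent.Lib.Helper30.exists_le_maxInvSubgroups hbot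
  have hQ'Z : Q' ∈ maxInvSubgroups ⊤ Z {q} := hc hQ'
  -- a `Z`-invariant Sylow `q`-subgroup of `M_σ`
  have hcop : (Nat.card Z).Coprime (Nat.card (sigmaCore M)) := by
    rw [hZc]
    apply Nat.Coprime.pow_left
    rw [Nat.Prime.coprime_iff_not_dvd htp]
    intro h
    exact ht (hσdvd t htp h)
  have hsolvZ : Group.IsSolvable Z := by
    have := hZp.isNilpotent
    infer_instance
  have hMnorm : M ≤ normalizer (sigmaCore M : Set G) :=
    Cfsg.Agent.H98.BG11.le_normalizer_map_subtype M (piCore (sigma M) M)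
  have hbotN : Z ≤ normalizer (((⊥ : Subgroup G)) : Set G) := by
    intro x _
    rw [Subgroup.mem_normalizer_iff]
    intro y
    simp
  obtain ⟨P₁, -, hZP₁⟩ := Cfsg.Agent.S0025.result Z (sigmaCore M) (hZM.trans hMnorm) hcop
    (Or.inl hsolvZ) q ⊥ bot_le IsPGroup.of_bot hbotN
  obtain ⟨Q₁, hQ₁⟩ : ∃ Q₁ : Subgroup G,
      Q₁ = (P₁ : Subgroup (sigmaCore M)).map (sigmaCore M).subtype := ⟨_, rfl⟩
  rw [← hQ₁] at hZP₁
  have hQ₁p : IsPGroup q Q₁ := by rw [hQ₁]; exact P₁.isPGroup'.map _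
  have hQ₁i : ¬ q ∣ Q₁.index := by
    rw [hQ₁, Subgroup.index_map_subtype]
    intro h
    rcases (Nat.Prime.dvd_mul hq).1 h with h | h
    · exact P₁.not_dvd_index h
    · exact hσidx q hq hqσ h
  have hQ₁M : Q₁ ≤ M := by
    rw [hQ₁]
    exact (Subgroup.map_subtype_le _).trans hσM
  obtain ⟨k, hk, hkQ⟩ := htr Q₁ (mem_maxInv_of_sylow hQ₁p hQ₁i hZP₁) Q' hQ'Z
  have hkM : k ∈ M := hC (Subgroup.map_subtype_le _ hk)
  have hQ'M : Q' ≤ M := by
    rw [hkQ]
    rintro _ ⟨y, hy, rfl⟩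
    exact M.mul_mem (M.mul_mem hkM (hQ₁M hy)) (M.inv_mem hkM)
  have hQ'p : IsPGroup q Q' := by rw [hkQ]; exact hQ₁p.map _
  have hQ'i : ¬ q ∣ Q'.index := by
    rw [hkQ, Subgroup.index_map_of_bijective (f := (MulAut.conj k).toMonoidHom)
      (MulAut.conj k).bijective]
    exact hQ₁i
  have hNQ' : normalizer (Q' : Set G) ≤ M := normalizer_le_of_sigma hqσ hQ'M hQ'p hQ'i
  have hSM : (S : Subgroup G) ≤ M := hQ'.1.2.2.trans hNQ'
  have hNS : normalizer ((S : Subgroup G) : Set G) ≤ M := by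
    rw [(hd Q' hQ').2]
    apply sup_le
    · exact (Subgroup.map_subtype_le _).trans ((Subgroup.centralizer_le hZS).trans hC)
    · exact inf_le_right.trans hNQ'
  apply ht
  refine ⟨htp, ?_, S.subtype hSM, ?_⟩
  · have h1 : Nat.card Z ∣ Nat.card M := Subgroup.card_dvd_of_le hZM
    rw [hZc] at h1
    exact (dvd_pow_self t two_ne_zero).trans h1
  · have h1 : ((S.subtype hSM : Sylow t M) : Subgroup M).map M.subtype = (S : Subgroup G) := by
      rw [Sylow.coe_subtype, Subgroup.subgroupOf_map_subtype]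
      exact inf_eq_left.2 hSM
    rw [h1]
    exact hNS

/-- Piece D of helper29's BG117 project, in the exact posted form. -/
theorem stClaimD [Finite G] (hG : IsMinSimpleOddOrder G) : Cfsg.Agent.H29.BG117.StClaimD G :=
  fun M hM t _ ht Z hZM hZe hZc hC => claimD hG M hM t ht Z hZM hZe hZc hC

example [Finite G] (hG : IsMinSimpleOddOrder G) : Cfsg.Agent.H29.BG117.StClaimD.{u} G :=
  stClaimD hG

end Cfsg.Agent.Helper55.BG117
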