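import Mathlib
import Cfsg.Prelude.Def_Blocks
import Cfsg.Agent.S0907
import Cfsg.Agent.S4710
import Cfsg.Agent.S0145
import Cfsg.Agent.H83.Basic
import Cfsg.Agent.H81.BlockDeg
import Cfsg.Agent.H4.PSection2
import Cfsg.Agent.H4.Irr
import Cfsg.Agent.H81.Reg
import Cfsg.Agent.H82.Irr

/-!
# Groups of order `p^a q^b r^c` with `a ≤ 2`: characters of prime power degree

Helper for S4500.  The principal `p`-block has defect `≤ 2`, so all its characters have height
zero (Brauer–Feit, S4710), i.e. degree prime to `p`; weak block orthogonality (S0907) at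
`x = 1` and a `p`-singular `y` then gives `1 + ∑ χ(1) conj χ(y) = 0`, and reduction modulo `r`
produces a nonprincipal character of degree prime to `p` and `r`.
-/

namespace Cfsg.Agent.Helper55

open Cfsg
open scoped ComplexConjugate

universe u

variable {G : Type u} [Group G] [Finite G]

/-- If a set `S` of irreducible characters containing the principal character satisfies
`∑_{χ ∈ S} χ(1) conj χ(y) = 0`, then for each prime `ℓ` some nonprincipal member of `S`
has degree prime to `ℓ`. -/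
theorem exists_nonprincipal_not_dvd (S : Set (IrrCharacter G))
    (h1 : Cfsg.Agent.H83.trivChar G ∈ S) (y : G)
    (hsum : ∑ᶠ χ ∈ S, (χ : G → ℂ) 1 * conj ((χ : G → ℂ) y) = 0) (ℓ : ℕ) (hℓ : ℓ.Prime) :
    ∃ χ ∈ S, (χ : G → ℂ) ≠ (fun _ => 1) ∧ ¬ ℓ ∣ charDegree (χ : G → ℂ) := by
  classical
  by_contra hcon
  push Not at hcon
  haveI : Finite (IrrCharacter G) := Cfsg.Agent.H4.finite_irr G
  have hSfin : S.Finite := Set.toFinite S
  rw [finsum_mem_eq_finite_toFinset_sum _ hSfin] at hsum
  have hmem : Cfsg.Agent.H83.trivChar G ∈ hSfin.toFinset := by simpa using h1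
  rw [← Finset.add_sum_erase _ _ hmem] at hsum
  have key : ∀ χ ∈ hSfin.toFinset.erase (Cfsg.Agent.H83.trivChar G),
      ∃ z : AlgInt, (χ : G → ℂ) 1 * conj ((χ : G → ℂ) y) = (ℓ : ℂ) * (z : ℂ) := by
    intro χ hχ
    have hχ' := Finset.mem_erase.mp hχ
    have hne : (χ : G → ℂ) ≠ (fun _ => 1) := by
      intro h
      exact hχ'.1 (Subtype.ext h)
    obtain ⟨k, hk⟩ := hcon χ (by simpa using hχ'.2) hne
    have hint : IsIntegral ℤ (conj ((χ : G → ℂ) y)) :=
      map_isIntegral_int (starRingEnd ℂ) (Cfsg.Agent.H82.irr_isIntegral χ y)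
    refine ⟨(k : AlgInt) * ⟨conj ((χ : G → ℂ) y), hint⟩, ?_⟩
    rw [Cfsg.Agent.H82.irr_one_eq_charDegree, hk]
    push_cast
    ring
  choose! z hz using key
  rw [Finset.sum_congr rfl hz, ← Finset.mul_sum] at hsum
  have h11 : (Cfsg.Agent.H83.trivChar G : G → ℂ) 1 *
      conj ((Cfsg.Agent.H83.trivChar G : G → ℂ) y) = 1 := by
    simp [Cfsg.Agent.H83.trivChar]
  rw [h11] at hsum
  have hunit : (ℓ : AlgInt) *
      (-(∑ χ ∈ hSfin.toFinset.erase (Cfsg.Agent.H83.trivChar G), z χ)) = 1 := by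
    apply Subtype.ext
    push_cast
    linear_combination -hsum
  exact (Cfsg.Agent.H4.natCast_mem_nonunits_algInt hℓ) (IsUnit.of_mul_eq_one _ hunit)

theorem factorization_pqr_le (p q r a b c : ℕ) (hp : p.Prime) (hq : q.Prime) (hr : r.Prime)
    (hpq : p ≠ q) (hpr : p ≠ r) : (p ^ a * q ^ b * r ^ c).factorization p = a := by
  have h1 : p ^ a ≠ 0 := pow_ne_zero _ hp.ne_zero
  have h2 : q ^ b ≠ 0 := pow_ne_zero _ hq.ne_zero
  have h3 : r ^ c ≠ 0 := pow_ne_zero _ hr.ne_zero
  rw [Nat.factorization_mul (mul_ne_zero h1 h2) h3, Nat.factorization_mul h1 h2,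
    Nat.factorization_pow, Nat.factorization_pow, Nat.factorization_pow,
    hp.factorization, hq.factorization, hr.factorization]
  simp [hpq.symm, hpr.symm]

/-- A nontrivial group of order `p^a q^b r^c` with `a ≤ 2` has a nonprincipal irreducible
character of `q`-power degree. -/
theorem exists_prime_power_degree [Nontrivial G] (p q r a b c : ℕ) (hp : p.Prime) (hq : q.Prime)
    (hr : r.Prime) (hpq : p ≠ q) (hpr : p ≠ r) (ha : a ≤ 2)
    (hG : Nat.card G = p ^ a * q ^ b * r ^ c) :
    ∃ χ : IrrCharacter G, (χ : G → ℂ) ≠ (fun _ => 1) ∧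
      ∃ k : ℕ, charDegree (χ : G → ℂ) = q ^ k := by
  have step : ∃ (S : Set (IrrCharacter G)) (y : G), Cfsg.Agent.H83.trivChar G ∈ S ∧
      (∑ᶠ χ ∈ S, (χ : G → ℂ) 1 * conj ((χ : G → ℂ) y) = 0) ∧
      ∀ χ ∈ S, ¬ p ∣ charDegree (χ : G → ℂ) := by
    by_cases hpG : p ∣ Nat.card G
    · haveI : Fact p.Prime := ⟨hp⟩
      obtain ⟨M, hM⟩ := Cfsg.Agent.H4.exists_isPModular hp
      obtain ⟨y, hy⟩ := exists_prime_orderOf_dvd_card' p hpG
      have hmem : Cfsg.Agent.H83.trivChar G ∈ principalBlock M G :=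
        Cfsg.Agent.H81.mem_blockOf_self hM (Cfsg.Agent.H83.trivChar G)
      have hB : IsPBlock M (principalBlock M G) := ⟨Cfsg.Agent.H83.trivChar G, rfl⟩
      refine ⟨principalBlock M G, y, hmem, ?_, ?_⟩
      · exact Cfsg.Agent.S0907.result p M hM _ hB 1 y
          (by rw [orderOf_one]; exact hp.one_lt.ne' ∘ Nat.dvd_one.mp) (by rw [hy])
      · intro χ hχ
        have hsInf : sInf ((fun ψ : IrrCharacter G =>
            (charDegree (ψ : G → ℂ)).factorization p) '' principalBlock M G) = 0 := by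
          apply Nat.sInf_eq_zero.mpr
          left
          refine ⟨Cfsg.Agent.H83.trivChar G, hmem, ?_⟩
          have : charDegree (Cfsg.Agent.H83.trivChar G : G → ℂ) = 1 := by
            simp [charDegree, Cfsg.Agent.H83.trivChar]
          show (charDegree (Cfsg.Agent.H83.trivChar G : G → ℂ)).factorization p = 0
          rw [this]
          simp
        have hd : blockDefect p (principalBlock M G) ≤ 2 := by
          unfold blockDefect
          rw [hsInf, Nat.sub_zero, hG, factorization_pqr_le p q r a b c hp hq hr hpq hpr]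
          exact ha
        have hh := (Cfsg.Agent.S4710.result p M hM _ hB _ rfl).2 χ hχ
        have h0 : blockHeight p (principalBlock M G) (χ : G → ℂ) = 0 := by
          rcases Nat.lt_or_ge (blockDefect p (principalBlock M G)) 2 with h | h
          · exact hh.1 (by omega)
          · have := hh.2 h
            omega
        unfold blockHeight at h0
        rw [hsInf, Nat.sub_zero] at h0
        rcases (Nat.factorization_eq_zero_iff _ _).mp h0 with h | h | h
        · exact absurd hp h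
        · exact h
        · exact absurd h (Cfsg.Agent.H82.charDegree_pos χ).ne'
    · obtain ⟨y, hy⟩ := exists_ne (1 : G)
      refine ⟨Set.univ, y, Set.mem_univ _, ?_, ?_⟩
      · rw [finsum_mem_univ]
        exact (Cfsg.Agent.S0145.result (1 : G) y).2
          (fun h => hy (isConj_one_right.mp h))
      · intro χ _ hdvd
        exact hpG (hdvd.trans (Cfsg.Agent.H81.irr_charDegree_dvd χ))
  obtain ⟨S, y, h1, hsum, hS⟩ := step
  obtain ⟨χ, hχS, hne, hr'⟩ := exists_nonprincipal_not_dvd S h1 y hsum r hr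
  refine ⟨χ, hne, ?_⟩
  have hdvd := Cfsg.Agent.H81.irr_charDegree_dvd χ
  rw [hG] at hdvd
  have hcp : (charDegree (χ : G → ℂ)).Coprime (p ^ a) :=
    Nat.Coprime.pow_right _ ((Nat.Prime.coprime_iff_not_dvd hp).mpr (hS χ hχS)).symm
  have hcr : (charDegree (χ : G → ℂ)).Coprime (r ^ c) :=
    Nat.Coprime.pow_right _ ((Nat.Prime.coprime_iff_not_dvd hr).mpr hr').symm
  have h2 : charDegree (χ : G → ℂ) ∣ q ^ b :=
    hcp.dvd_of_dvd_mul_left (hcr.dvd_of_dvd_mul_right hdvd)
  obtain ⟨k, -, hk⟩ := (Nat.dvd_prime_pow hq).mp h2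
  exact ⟨k, hk⟩

end Cfsg.Agent.Helper55
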