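import Mathlib
import Cfsg.Agent.H58.BG127Defs
import Cfsg.Agent.H63.Sig
import Cfsg.Agent.Lib.Helper30.Generation

set_option autoImplicit false

/-!
# Bender–Glauberman Corollary 12.7 (S1419), piece LINE (helper55, for helper58)

`A₀ = C_A(M_σ)` has order `p`, and every other subgroup `X` of order `p` of `E` has
`C_{M_σ}(X) = 1` and `C_G(X) ⊄ M`.
-/

namespace Cfsg.Agent.Helper55.BG12

open Cfsg Subgroup Cfsg.Agent.H58.BG10 Cfsg.Agent.H58.BG12 Cfsg.Agent.H63.Sig
open scoped Pointwise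

universe u

variable {G : Type u} [Group G]

theorem centralizer_zpowers_eq (a : G) :
    centralizer ((zpowers a : Subgroup G) : Set G) = centralizer ({a} : Set G) := by
  apply le_antisymm
  · apply Subgroup.centralizer_le
    intro y hy
    rw [Set.mem_singleton_iff] at hy
    rw [hy]
    exact mem_zpowers a
  · intro x hx y hy
    obtain ⟨k, rfl⟩ := hy
    have h1 : a * x = x * a := hx a rfl
    exact (Commute.zpow_left (show Commute a x from h1) k).eq

/-- `M ≤ N_G(M_σ)`. -/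
theorem le_normalizer_sigmaCore' (M : Subgroup G) : M ≤ normalizer (sigmaCore M : Set G) := by
  intro m hm
  have hN : (piCore (sigma M) M).Normal := inferInstance
  rw [Subgroup.mem_normalizer_iff]
  intro x
  constructor
  · rintro ⟨n, hn, rfl⟩
    exact ⟨⟨m, hm⟩ * n * ⟨m, hm⟩⁻¹, hN.conj_mem n hn ⟨m, hm⟩, rfl⟩
  · rintro ⟨n, hn, hnx⟩
    refine ⟨⟨m, hm⟩⁻¹ * n * ⟨m, hm⟩, ?_, ?_⟩
    · have h1 := hN.conj_mem n hn ⟨m, hm⟩⁻¹
      rwa [inv_inv] at h1
    · have h1 : (n : G) = m * x * m⁻¹ := hnx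
      show m⁻¹ * (n : G) * m = x
      rw [h1]
      group

theorem nabLine [Finite G] (hG : IsMinSimpleOddOrder G) (h16 : St1416 G) (h17 : St1417 G)
    (h18 : St1418 G) (h350 : St1350 G) (hne : Cfsg.Agent.H29.BG117.StSigNe G) (hX : StNabX G)
    (hL : StLines G) : StNabLine G := by
  intro M E A p _ hN
  have hpp : p.Prime := Fact.out
  have hM := hN.coatom
  have hEM : E ≤ M := hN.compl.1
  have hAM : A ≤ M := hN.le.trans hEM
  obtain ⟨S, x, hAS, hxS, hxM, hxN, -, -⟩ := hX M E A p hN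
  have h16' := h16 M hM p A ⟨hAM, hN.elem, hN.card⟩
  have hxC : x ∉ centralizer (A : Set G) := fun h => hxM (h16'.1 h)
  obtain ⟨Z₁, hZ₁A, hZ₁c, hZ₁x, hlines⟩ :=
    hL p S A x S.isPGroup' hAS hxS hN.elem hN.card hxN hxC
  obtain ⟨⟨-, hXA⟩, -, h18c⟩ := h18 M hM E hN.compl p hN.tau A ⟨hN.le, hN.elem, hN.card⟩
  have h17' := h17 M hM p hN.tau A ⟨hAM, hN.elem, hN.card⟩
  have hσne : sigmaCore M ≠ ⊥ := hne M hM
  obtain ⟨⟨-, hσdvd, -⟩, -, -⟩ := h350 M hM
  have hp1 : 1 < p := hpp.one_lt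
  have hpsq : p < p ^ 2 := by nlinarith
  -- `N_G(M) = M`
  have hMbot : M ≠ ⊥ := by
    intro h
    have hA : A = ⊥ := by rw [eq_bot_iff, ← h]; exact hAM
    have h1 : Nat.card A = 1 := by rw [hA]; exact Subgroup.card_bot
    rw [hN.card] at h1
    omega
  have hNM : normalizer (M : Set G) = M :=
    (hM.le_iff_eq (Cfsg.Agent.Lib.Helper30.minSimple_normalizer_ne_top hG hMbot hM.1)).1
      le_normalizer
  -- (i)
  have hxZ₁ : x ∈ centralizer (Z₁ : Set G) := by
    intro u hu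
    exact (hZ₁x u hu).symm
  have hi : sigmaCore M ⊓ centralizer (Z₁ : Set G) = ⊥ := by
    by_contra h
    exact hxM ((h18c Z₁ hZ₁A hZ₁c h).1 hxZ₁)
  -- nontrivial small powers of `x` are not in `M`
  have hpow : ∀ i : ℕ, 0 < i → i < p → x ^ i ∉ M := by
    intro i hi0 hip hmem
    obtain ⟨n, hn⟩ := S.isPGroup' ⟨x, hxS⟩
    have hxo : x ^ p ^ n = 1 := by simpa using congrArg Subtype.val hn
    have hcop : Nat.gcd i (p ^ n) = 1 := by
      have h1 : Nat.Coprime p i :=
        (Nat.Prime.coprime_iff_not_dvd hpp).2 (Nat.not_dvd_of_pos_of_lt hi0 hip)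
      exact Nat.Coprime.pow_right n h1.symm
    have hb : (1 : ℤ) = (i : ℤ) * Nat.gcdA i (p ^ n) + ((p ^ n : ℕ) : ℤ) * Nat.gcdB i (p ^ n) := by
      have h2 := Nat.gcd_eq_gcd_ab i (p ^ n)
      rw [hcop] at h2
      exact_mod_cast h2
    have hx1 : x = (x ^ i) ^ (Nat.gcdA i (p ^ n)) := by
      have h3 : x = x ^ ((i : ℤ) * Nat.gcdA i (p ^ n) +
          ((p ^ n : ℕ) : ℤ) * Nat.gcdB i (p ^ n)) := by
        rw [← hb, zpow_one]
      rw [zpow_add, zpow_mul, zpow_mul, zpow_natCast, zpow_natCast, hxo, one_zpow, mul_one] at h3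
      exact h3
    apply hxM
    rw [hx1]
    exact M.zpow_mem hmem _
  have hxiN : ∀ i : ℕ, x ^ i ∈ normalizer (A : Set G) := fun i => Subgroup.pow_mem _ hxN i
  -- (ii) the dichotomy
  have hii : ∀ X : Subgroup G, X ≤ A → Nat.card X = p → ∀ i : ℕ, 0 < i → i < p →
      sigmaCore M ⊓ centralizer (X : Set G) ≠ ⊥ →
      sigmaCore M ⊓ centralizer ((MulAut.conj (x ^ i) • X : Subgroup G) : Set G) ≠ ⊥ →
      False := by
    intro X hXA' hXc i hi0 hip h1 h2
    have hYA : MulAut.conj (x ^ i) • X ≤ A := by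
      have h3 := cj_mono (x ^ i) hXA'
      rw [cj_eq_self_of_mem_normalizer (hxiN i)] at h3
      exact h3
    have hYc : Nat.card (MulAut.conj (x ^ i) • X : Subgroup G) = p := by
      rw [card_cj]; exact hXc
    obtain ⟨-, huniq⟩ := h18c X hXA' hXc h1
    obtain ⟨hCY, -⟩ := h18c _ hYA hYc h2
    have hCY' : MulAut.conj (x ^ i) • centralizer (X : Set G) ≤ M := by
      rw [← centralizer_cj]; exact hCY
    have hle : centralizer (X : Set G) ≤ MulAut.conj (x ^ i)⁻¹ • M := le_cj_inv hCY'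
    have heq := huniq _ (isCoatom_cj (x ^ i)⁻¹ hM) hle
    have h4 : (x ^ i)⁻¹ ∈ normalizer (M : Set G) := mem_normalizer_of_cj_eq heq
    rw [hNM] at h4
    exact hpow i hi0 hip (by simpa using M.inv_mem h4)
  -- (iii) some `a ∈ A`, `a ≠ 1`, has fixed points on `M_σ`
  haveI : IsMulCommutative A := hN.elem.1
  have hAnc : ¬ IsCyclic A := by
    intro hcyc
    obtain ⟨g, hg⟩ := IsCyclic.exists_generator (α := A)
    have hgp : g ^ p = 1 := Subtype.ext (by simpa using hN.elem.2 g g.2)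
    have h1 : orderOf g = Nat.card A := orderOf_eq_card_of_forall_mem_zpowers hg
    have h2 : orderOf g ≤ p := orderOf_le_of_pow_eq_one hpp.pos hgp
    rw [h1, hN.card] at h2
    omega
  have hcopA : (Nat.card A).Coprime (Nat.card (sigmaCore M)) := by
    rw [hN.card]
    apply Nat.Coprime.pow_left
    rw [Nat.Prime.coprime_iff_not_dvd hpp]
    intro h
    exact hN.tau.2.1 (hσdvd p hpp h)
  have hgen : Cfsg.Agent.Lib.Helper30.genCent A (sigmaCore M) = sigmaCore M :=
    Cfsg.Agent.Lib.Helper30.genCent_eq hAnc _ (sigmaCore M) rfl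
      (hAM.trans (le_normalizer_sigmaCore' M)) hcopA
  have hex : ∃ a ∈ A, a ≠ 1 ∧ sigmaCore M ⊓ centralizer ({a} : Set G) ≠ ⊥ := by
    by_contra hcon
    push Not at hcon
    apply hσne
    rw [← hgen, eq_bot_iff]
    exact iSup₂_le fun a ha => (hcon a ha.1 ha.2).le
  obtain ⟨a, haA, ha1, haC⟩ := hex
  have hline : ∀ b ∈ A, b ≠ 1 → Nat.card (zpowers b) = p := by
    intro b hb hb1
    rw [Nat.card_zpowers, orderOf_eq_prime (hN.elem.2 b hb) hb1]
  have hXs_le : zpowers a ≤ A := (zpowers_le (H := A)).2 haA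
  have hXs_c : Nat.card (zpowers a) = p := hline a haA ha1
  have hXs_C : sigmaCore M ⊓ centralizer ((zpowers a : Subgroup G) : Set G) ≠ ⊥ := by
    rw [centralizer_zpowers_eq]; exact haC
  have hXs_ne : zpowers a ≠ Z₁ := by
    intro h
    rw [h] at hXs_C
    exact hXs_C hi
  -- the lines other than `Z₁` and `zpowers a` are proper conjugates of `zpowers a`
  have hconj : ∀ Y : Subgroup G, Y ≤ A → Nat.card Y = p → Y ≠ zpowers a → Y ≠ Z₁ →
      ∃ i : ℕ, 0 < i ∧ i < p ∧ Y = MulAut.conj (x ^ i) • (zpowers a : Subgroup G) := by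
    intro Y hYA hYc hYne hYZ
    obtain ⟨i, hip, hYi⟩ := hlines (zpowers a) Y hXs_le hYA hXs_c hYc hXs_ne hYZ
    refine ⟨i, ?_, hip, hYi⟩
    rcases Nat.eq_zero_or_pos i with h0 | h0
    · exfalso
      apply hYne
      rw [hYi, h0, pow_zero, map_conj_eq_smul, cj_one]
    · exact h0
  have hother : ∀ Y : Subgroup G, Y ≤ A → Nat.card Y = p → Y ≠ zpowers a →
      sigmaCore M ⊓ centralizer (Y : Set G) = ⊥ := by
    intro Y hYA hYc hYne
    by_cases hYZ : Y = Z₁
    · rw [hYZ]; exact hi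
    · obtain ⟨i, hi0, hip, hYi⟩ := hconj Y hYA hYc hYne hYZ
      by_contra hcon
      exact hii (zpowers a) hXs_le hXs_c i hi0 hip hXs_C (hYi ▸ hcon)
  have hσC : sigmaCore M ≤ centralizer ((zpowers a : Subgroup G) : Set G) := by
    have h1 : Cfsg.Agent.Lib.Helper30.genCent A (sigmaCore M) ≤
        sigmaCore M ⊓ centralizer ((zpowers a : Subgroup G) : Set G) := by
      apply iSup₂_le
      intro b hb
      by_cases hbz : zpowers b = zpowers a
      · rw [← centralizer_zpowers_eq b, hbz]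
      · have h2 := hother (zpowers b) ((zpowers_le (H := A)).2 hb.1) (hline b hb.1 hb.2) hbz
        rw [centralizer_zpowers_eq] at h2
        rw [h2]
        exact bot_le
    rw [hgen] at h1
    exact h1.trans inf_le_right
  have hA0 : A ⊓ centralizer (sigmaCore M : Set G) = zpowers a := by
    apply le_antisymm
    · intro b hb
      by_contra hbn
      have hb1 : b ≠ 1 := fun h => hbn (h ▸ one_mem _)
      have hbz : zpowers b ≠ zpowers a := fun h => hbn (h ▸ mem_zpowers b)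
      have h0 := hother (zpowers b) ((zpowers_le (H := A)).2 hb.1) (hline b hb.1 hb1) hbz
      apply hσne
      rw [eq_bot_iff, ← h0]
      refine le_inf le_rfl ?_
      rw [centralizer_zpowers_eq]
      intro m hm y hy
      rw [Set.mem_singleton_iff] at hy
      rw [hy]
      exact (hb.2 m hm).symm
    · refine le_inf hXs_le ?_
      intro y hy m hm
      exact (hσC hm y hy).symm
  rw [hA0]
  refine ⟨hXs_c, ?_⟩
  intro X hXE hXc hXne
  have hXA' : X ≤ A := hXA X hXE hXc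
  refine ⟨hother X hXA' hXc hXne, ?_⟩
  intro hCM
  by_cases hXZ : X = Z₁
  · rw [hXZ] at hCM
    exact hxM (hCM hxZ₁)
  · obtain ⟨i, hi0, hip, hXi⟩ := hconj X hXA' hXc hXne hXZ
    have h1 : MulAut.conj (x ^ i) • sigmaCore M ≤ M := by
      refine le_trans ?_ hCM
      rw [hXi, centralizer_cj]
      exact cj_mono _ hσC
    have h2 : sigmaCore M ≤ MulAut.conj (x ^ i)⁻¹ • M := le_cj_inv h1
    have hMs : IsCoatom (MulAut.conj (x ^ i)⁻¹ • M : Subgroup G) := isCoatom_cj _ hM
    have hMsne : MulAut.conj (x ^ i)⁻¹ • M ≠ M := by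
      intro heq
      have h4 : (x ^ i)⁻¹ ∈ normalizer (M : Set G) := mem_normalizer_of_cj_eq heq
      rw [hNM] at h4
      exact hpow i hi0 hip (by simpa using M.inv_mem h4)
    have hAMs : A ≤ MulAut.conj (x ^ i)⁻¹ • M := by
      have h3 := cj_mono (x ^ i)⁻¹ hAM
      rwa [cj_eq_self_of_mem_normalizer (inv_mem (hxiN i))] at h3
    have h5 := h17'.2.2.2.2.1 _ hMs hMsne hAMs
    apply hσne
    rw [eq_bot_iff, ← h5]
    exact le_inf le_rfl h2

example [Finite G] (hG : IsMinSimpleOddOrder G) (h16 : St1416 G) (h17 : St1417 G)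
    (h18 : St1418 G) (h350 : St1350 G) (hne : Cfsg.Agent.H29.BG117.StSigNe G) (hX : StNabX G)
    (hL : StLines G) : Cfsg.Agent.H58.BG12.StNabLine.{u} G :=
  nabLine hG h16 h17 h18 h350 hne hX hL

end Cfsg.Agent.Helper55.BG12
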