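import Mathlib
import Cfsg.Agent.H58.BG127Defs
import Cfsg.Agent.Helper55.BG127Line

set_option autoImplicit false

/-!
# Bender–Glauberman Corollary 12.7, piece (OP) (helper55, for helper58's S1419 project)

Every normal `p`-subgroup of `M` lies in `A₀ = C_A(M_σ)`.
-/

namespace Cfsg.Agent.Helper55.BG12

open Cfsg Subgroup Cfsg.Agent.H58.BG10 Cfsg.Agent.H58.BG12

universe u

variable {G : Type u} [Group G]

/-- Piece (OP) of helper58's S1419 project. -/
theorem nabOp [Finite G] (h18 : St1418 G) (h350 : St1350 G) (h1408 : St1408 G)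
    (hne : Cfsg.Agent.H29.BG117.StSigNe G) (hX : StNabX G) (hPW : StPW G) : StNabOp G := by
  intro M E A p _ hN R hRM hRp hMR
  have hpp : p.Prime := Fact.out
  have hM := hN.coatom
  have hEM : E ≤ M := hN.compl.1
  have hAM : A ≤ M := hN.le.trans hEM
  obtain ⟨S, x, hAS, hxS, hxM, -, hSM, hRS⟩ := hX M E A p hN
  have hRS' : R ≤ (S : Subgroup G) := hRS R hRM hRp hMR
  obtain ⟨-, -, h18c⟩ := h18 M hM E hN.compl p hN.tau A ⟨hN.le, hN.elem, hN.card⟩
  have hσne : sigmaCore M ≠ ⊥ := hne M hM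
  obtain ⟨⟨-, hσdvd, -⟩, -, -⟩ := h350 M hM
  have hAmax := (h1408 M hM p hN.tau.2.1 hN.tau.2.2.1 hN.tau.2.2.2).2 A hAM hN.elem hN.card
  have hMσN := le_normalizer_sigmaCore' M
  have hσM : sigmaCore M ≤ M := Subgroup.map_subtype_le _
  -- (a) `R ≤ C(M_σ)`
  have hint : R ⊓ sigmaCore M = ⊥ := by
    have hp1 : IsPGroup p ↥(R ⊓ sigmaCore M) := hRp.to_le inf_le_left
    obtain ⟨k, hk⟩ := IsPGroup.iff_card.1 hp1
    have hdvd : Nat.card ↥(R ⊓ sigmaCore M) ∣ Nat.card (sigmaCore M) :=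
      Subgroup.card_dvd_of_le inf_le_right
    rcases Nat.eq_zero_or_pos k with h0 | h0
    · rw [h0, pow_zero] at hk
      exact Subgroup.eq_bot_of_card_eq _ hk
    · exfalso
      apply hN.tau.2.1
      apply hσdvd p hpp
      rw [hk] at hdvd
      exact (dvd_pow_self p h0.ne').trans hdvd
  have hRC : R ≤ centralizer (sigmaCore M : Set G) := by
    intro r hr
    rw [Subgroup.mem_centralizer_iff]
    intro s hs
    have hsM : s ∈ M := hσM hs
    have h1 : r * s * r⁻¹ ∈ sigmaCore M :=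
      (Subgroup.mem_normalizer_iff.1 (hMσN (hRM hr)) s).1 hs
    have h2 : s * r⁻¹ * s⁻¹ ∈ R :=
      (Subgroup.mem_normalizer_iff.1 (hMR hsM) r⁻¹).1 (R.inv_mem hr)
    have h3 : r * s * r⁻¹ * s⁻¹ ∈ R ⊓ sigmaCore M := by
      refine ⟨?_, (sigmaCore M).mul_mem h1 ((sigmaCore M).inv_mem hs)⟩
      have h4 : r * s * r⁻¹ * s⁻¹ = r * (s * r⁻¹ * s⁻¹) := by group
      rw [h4]; exact R.mul_mem hr h2
    rw [hint, Subgroup.mem_bot] at h3
    have h5 : s * r = (r * s * r⁻¹ * s⁻¹)⁻¹ * (r * s) := by group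
    rw [h5, h3, inv_one, one_mul]
  -- (b) `R` has exponent `p`
  have hexp : ∀ u ∈ R, u ^ p = 1 := by
    intro u hu
    by_contra hup
    obtain ⟨k, hk⟩ := hRp ⟨u, hu⟩
    have huk : u ^ p ^ k = 1 := by simpa using congrArg Subtype.val hk
    obtain ⟨j, -, hj⟩ := (Nat.dvd_prime_pow hpp).1 (orderOf_dvd_of_pow_eq_one huk)
    have hj2 : 2 ≤ j := by
      by_contra hlt
      push Not at hlt
      apply hup
      have h1 : orderOf u ∣ p := by
        rw [hj]
        calc p ^ j ∣ p ^ 1 := pow_dvd_pow p (by omega)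
          _ = p := pow_one p
      exact orderOf_dvd_iff_pow_eq_one.1 h1
    obtain ⟨i, rfl⟩ : ∃ i, j = i + 2 := ⟨j - 2, by omega⟩
    have hu'R : u ^ p ^ i ∈ R := R.pow_mem hu _
    have hu'S : u ^ p ^ i ∈ (S : Subgroup G) := hRS' hu'R
    have hu'p2 : (u ^ p ^ i) ^ (p ^ 2) = 1 := by
      rw [← pow_mul, ← pow_add, ← hj]; exact pow_orderOf_eq_one u
    have hw1 : (u ^ p ^ i) ^ p ≠ 1 := by
      intro h
      rw [← pow_mul, ← pow_succ] at h
      have h1 := orderOf_dvd_of_pow_eq_one h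
      rw [hj] at h1
      have h2 := (Nat.pow_dvd_pow_iff_le_right hpp.one_lt).1 h1
      omega
    have hu'C := (hSM _ hu'S (hRM hu'R)).1
    have hcomm := hPW p S (hN.nab S) A hAS hN.elem hN.card hAmax _ hu'S hu'C hu'p2 x hxS
    obtain ⟨w, hw⟩ : ∃ w : G, w = (u ^ p ^ i) ^ p := ⟨_, rfl⟩
    rw [← hw] at hcomm hw1
    have hwR : w ∈ R := by rw [hw]; exact R.pow_mem hu'R _
    have hwp : w ^ p = 1 := by rw [hw, ← pow_mul, ← pow_two]; exact hu'p2
    have hwA : w ∈ A := (hSM w (hRS' hwR) (hRM hwR)).2 hwp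
    have hXA : zpowers w ≤ A := (zpowers_le (H := A)).2 hwA
    have hXc : Nat.card (zpowers w) = p := by
      rw [Nat.card_zpowers, orderOf_eq_prime hwp hw1]
    have hXC : sigmaCore M ⊓ centralizer ((zpowers w : Subgroup G) : Set G) ≠ ⊥ := by
      have h1 : sigmaCore M ≤ centralizer ((zpowers w : Subgroup G) : Set G) := by
        rw [Subgroup.le_centralizer_iff]
        exact ((zpowers_le (H := R)).2 hwR).trans hRC
      rw [inf_eq_left.2 h1]; exact hσne
    have hCM := (h18c _ hXA hXc hXC).1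
    apply hxM
    apply hCM
    rw [centralizer_zpowers_eq, Subgroup.mem_centralizer_iff]
    intro y hy
    rw [Set.mem_singleton_iff] at hy
    rw [hy]
    exact hcomm.symm
  intro u hu
  exact ⟨(hSM u (hRS' hu) (hRM hu)).2 (hexp u hu), hRC hu⟩

example [Finite G] (h18 : St1418 G) (h350 : St1350 G) (h1408 : St1408 G)
    (hne : Cfsg.Agent.H29.BG117.StSigNe G) (hX : StNabX G) (hPW : StPW G) :
    ∀ (M E A : Subgroup G) (p : ℕ) [Fact p.Prime], Nab M E A p → ∀ R : Subgroup G, R ≤ M →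
    IsPGroup p R → M ≤ normalizer (R : Set G) →
    R ≤ A ⊓ centralizer (sigmaCore M : Set G) := nabOp h18 h350 h1408 hne hX hPW

end Cfsg.Agent.Helper55.BG12
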