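import Mathlib
import Cfsg.Agent.H38.BG161Defs
import Cfsg.Agent.H92.BG123

set_option autoImplicit false

/-!
# S1421-ALPHA1 (helper55, for helper38's team project S1421)

`StAlpha1`: in the setting `AbS M E S A p`, for a maximal subgroup `M* ⊇ N_G(S)`, a `q`-element
(`q ≠ p`) of `E` not centralizing `A` has `q ∉ σ(M*)`.
-/

namespace Cfsg.Agent.Helper55.BG161

open Cfsg Subgroup Cfsg.Agent.H58.BG10 Cfsg.Agent.H58.BG12 Cfsg.Agent.H38.BG161
open scoped Pointwise

universe u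

variable {G : Type u} [Group G]

/-- A nontrivial Sylow `p`-subgroup `S` of `G` with `N_G(S) ≤ H` puts `p` in `σ(H)`. -/
theorem mem_sigma_of_sylow_le [Finite G] {H S : Subgroup G} {p : ℕ} [Fact p.Prime]
    (hS : ∃ P : Sylow p G, (P : Subgroup G) = S) (hne : S ≠ ⊥)
    (hN : normalizer (S : Set G) ≤ H) : p ∈ sigma H := by
  obtain ⟨P, rfl⟩ := hS
  have hSH : (P : Subgroup G) ≤ H := le_normalizer.trans hN
  refine ⟨Fact.out, ?_, P.subtype hSH, ?_⟩
  · have h1 : Nat.card (P : Subgroup G) ∣ Nat.card H := Subgroup.card_dvd_of_le hSH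
    have h2 : p ∣ Nat.card (P : Subgroup G) := by
      obtain ⟨n, hn⟩ := (P.isPGroup').exists_card_eq
      rw [hn]
      rcases Nat.eq_zero_or_pos n with h0 | h0
      · exfalso
        apply hne
        rw [h0, pow_zero] at hn
        exact (Subgroup.card_eq_one).mp hn
      · exact dvd_pow_self p (Nat.pos_iff_ne_zero.mp h0)
    exact h2.trans h1
  · rw [Sylow.coe_subtype, Subgroup.map_subgroupOf_eq_of_le hSH]
    exact hN

/-- If a Sylow `p`-subgroup of `G` lies in `M` and `M` has `p`-rank at most `k`, then so has every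
subgroup `H` of `G`. -/
theorem pRankLE_of_sylow_le [Finite G] {M S : Subgroup G} (H : Subgroup G) {p k : ℕ}
    [Fact p.Prime] (hS : ∃ P : Sylow p G, (P : Subgroup G) = S) (hSM : S ≤ M)
    (hrk : PRankLE p k M) : PRankLE p k H := by
  obtain ⟨P, rfl⟩ := hS
  intro B hBc hBe
  have hB' : IsPGroup p (B.map H.subtype) := by
    rintro ⟨x, hx⟩
    obtain ⟨b, hb, rfl⟩ := Subgroup.mem_map.mp hx
    refine ⟨1, ?_⟩
    apply Subtype.ext
    have h1 := hBe b hb
    have h2 : ((b : ↥H) : G) ^ p = 1 := by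
      have := congrArg Subtype.val h1
      simpa using this
    simpa using h2
  obtain ⟨Q, hQ⟩ := hB'.exists_le_sylow
  obtain ⟨g, hg⟩ := MulAction.exists_smul_eq G Q P
  have hPQ : (P : Subgroup G) = MulAut.conj g • (Q : Subgroup G) := by
    rw [← hg, Sylow.coe_subgroup_smul]
  have key : ∀ b : B, g * ((b : ↥H) : G) * g⁻¹ ∈ M := by
    intro b
    apply hSM
    rw [hPQ]
    have hbQ : ((b : ↥H) : G) ∈ (Q : Subgroup G) :=
      hQ (Subgroup.mem_map.mpr ⟨(b : ↥H), b.2, rfl⟩)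
    have := Subgroup.smul_mem_pointwise_smul _ (MulAut.conj g) _ hbQ
    simpa [MulAut.smul_def] using this
  let f : ↥B →* ↥M := MonoidHom.mk' (fun b => ⟨g * ((b : ↥H) : G) * g⁻¹, key b⟩) (by
    intro a b
    apply Subtype.ext
    simp only [Subgroup.coe_mul]
    group)
  have hf : Function.Injective f := by
    intro a b hab
    have h1 : g * ((a : ↥H) : G) * g⁻¹ = g * ((b : ↥H) : G) * g⁻¹ := congrArg Subtype.val hab
    have h2 : ((a : ↥H) : G) = ((b : ↥H) : G) := by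
      have := mul_right_cancel h1
      exact mul_left_cancel this
    exact Subtype.ext (Subtype.ext h2)
  have hcomm : IsMulCommutative f.range := by
    refine ⟨⟨fun x y => ?_⟩⟩
    obtain ⟨a, ha⟩ := x.2
    obtain ⟨b, hb⟩ := y.2
    apply Subtype.ext
    simp only [Subgroup.coe_mul]
    rw [← ha, ← hb, ← map_mul, ← map_mul, hBc.is_comm.comm a b]
  have hexp : ∀ x ∈ f.range, x ^ p = 1 := by
    rintro x ⟨b, rfl⟩
    rw [← map_pow]
    have : b ^ p = 1 := by
      apply Subtype.ext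
      simpa using hBe b.1 b.2
    rw [this, map_one]
  have h1 := hrk f.range hcomm hexp
  have h2 : Nat.card f.range = Nat.card B :=
    Nat.card_congr (MonoidHom.ofInjective hf).toEquiv.symm
  rw [h2] at h1
  exact h1

theorem alpha1 [Finite G] (h50 : St1350 G) (h14 : St1414 G) : StAlpha1 G := by
  intro M E S A p _ hAb Mst hMst hNS e q hq hqp heE hek heA hqσ
  obtain ⟨k, hk⟩ := hek
  haveI : Fact q.Prime := ⟨hq⟩
  have hp : p.Prime := Fact.out
  have hSMst : S ≤ Mst := le_normalizer.trans hNS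
  have heN : e ∈ normalizer (S : Set G) := hAb.norm heE
  have heMst : e ∈ Mst := hNS heN
  have hSne : S ≠ ⊥ := by
    intro h
    have hA : A = ⊥ := le_bot_iff.mp (h ▸ hAb.AS)
    have hc := hAb.card
    rw [hA, Subgroup.card_bot] at hc
    have : 1 < p ^ 2 := Nat.one_lt_pow (by norm_num) hp.one_lt
    omega
  have hpσ : p ∈ sigma Mst := mem_sigma_of_sylow_le hAb.syl hSne hNS
  have hSp : IsPGroup p S := by
    obtain ⟨P, hP⟩ := hAb.syl
    rw [← hP]
    exact P.isPGroup'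
  have hSσ : S ≤ sigmaCore Mst :=
    Cfsg.Agent.H92.BG12.le_sigmaCore_of_mem h50 hMst hpσ hSp hSMst
  have heσ : e ∈ sigmaCore Mst := by
    have hz : IsPGroup q (zpowers e) := IsPGroup.of_card (n := k) (by rw [Nat.card_zpowers, hk])
    have : zpowers e ≤ sigmaCore Mst :=
      Cfsg.Agent.H92.BG12.le_sigmaCore_of_mem h50 hMst hqσ hz
        ((Subgroup.zpowers_le).mpr heMst)
    exact this (Subgroup.mem_zpowers e)
  have hrk : PRankLE p 2 Mst :=
    pRankLE_of_sylow_le Mst hAb.syl (hAb.le.trans hAb.compl.1) hAb.tau.2.2.1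
  have hβ : p ∉ beta Mst := fun h => h.1.2 hrk
  have hpd : p ∣ Nat.card Mst := hpσ.2.1
  obtain ⟨P, N, hNn, hNP⟩ := ((h14 Mst hMst).2.2.2.2 p hp hpd hβ).2.1
  -- `N` is a normal `p'`-subgroup of `M*_σ` of `p`-power index
  have hNidx : N.index = Nat.card (P : Subgroup ↥(sigmaCore Mst)) := hNP.symm.index_eq_card
  have hNcard : ¬ p ∣ Nat.card N := by
    rw [← hNP.index_eq_card]
    exact P.not_dvd_index
  obtain ⟨n, hn⟩ := (P.isPGroup').exists_card_eq
  -- `e ∈ N`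
  have he'N : (⟨e, heσ⟩ : ↥(sigmaCore Mst)) ∈ N := by
    have h1 : (⟨e, heσ⟩ : ↥(sigmaCore Mst)) ^ N.index ∈ N := Subgroup.pow_index_mem N _
    have ho : orderOf (⟨e, heσ⟩ : ↥(sigmaCore Mst)) = q ^ k := by
      rw [← hk]
      exact Subgroup.orderOf_mk e heσ
    have hcop : Nat.Coprime N.index (orderOf (⟨e, heσ⟩ : ↥(sigmaCore Mst))) := by
      rw [ho, hNidx, hn]
      exact Nat.Coprime.pow _ _ ((Nat.coprime_primes hp hq).mpr (Ne.symm hqp))
    obtain ⟨m, hm⟩ := exists_pow_eq_self_of_coprime hcop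
    rw [← hm]
    exact pow_mem h1 m
  -- `e` centralizes `S`
  have hcent : ∀ s ∈ S, s * e = e * s := by
    intro s hs
    have hc'N : (⟨e, heσ⟩ : ↥(sigmaCore Mst)) * ⟨s, hSσ hs⟩ * (⟨e, heσ⟩)⁻¹ * (⟨s, hSσ hs⟩)⁻¹ ∈ N := by
      have h1 : (⟨s, hSσ hs⟩ : ↥(sigmaCore Mst)) * (⟨e, heσ⟩)⁻¹ * (⟨s, hSσ hs⟩)⁻¹ ∈ N :=
        hNn.conj_mem _ (inv_mem he'N) _
      have h2 := mul_mem he'N h1
      have h3 : (⟨e, heσ⟩ : ↥(sigmaCore Mst)) * ⟨s, hSσ hs⟩ * (⟨e, heσ⟩)⁻¹ * (⟨s, hSσ hs⟩)⁻¹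
          = ⟨e, heσ⟩ * (⟨s, hSσ hs⟩ * (⟨e, heσ⟩)⁻¹ * (⟨s, hSσ hs⟩)⁻¹) := by group
      rw [h3]
      exact h2
    have hcS : e * s * e⁻¹ * s⁻¹ ∈ S := by
      have h1 : e * s * e⁻¹ ∈ S := (Subgroup.mem_normalizer_iff.mp heN s).mp hs
      exact mul_mem h1 (inv_mem hs)
    obtain ⟨j, hj⟩ := hSp ⟨_, hcS⟩
    have hj' : (e * s * e⁻¹ * s⁻¹) ^ p ^ j = 1 := by
      have := congrArg Subtype.val hj
      simpa using this
    -- the order of the commutator divides `p ^ j` and `#N`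
    have ho1 : orderOf (e * s * e⁻¹ * s⁻¹) ∣ p ^ j := orderOf_dvd_of_pow_eq_one hj'
    have ho2 : orderOf (e * s * e⁻¹ * s⁻¹) ∣ Nat.card N := by
      have h1 : orderOf (⟨_, hc'N⟩ : ↥N) ∣ Nat.card N := orderOf_dvd_natCard _
      have h2 : orderOf (⟨_, hc'N⟩ : ↥N) = orderOf (e * s * e⁻¹ * s⁻¹) := by
        rw [Subgroup.orderOf_mk]
        rw [← Subgroup.orderOf_coe]
        rfl
      rw [h2] at h1
      exact h1
    have ho3 : orderOf (e * s * e⁻¹ * s⁻¹) = 1 := by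
      have hcop : Nat.Coprime (p ^ j) (Nat.card N) :=
        Nat.Coprime.pow_left _ ((Nat.Prime.coprime_iff_not_dvd hp).mpr hNcard)
      exact Nat.eq_one_of_dvd_coprimes hcop ho1 ho2
    have h1 : e * s * e⁻¹ * s⁻¹ = 1 := orderOf_eq_one_iff.mp ho3
    have h2 : e * s * e⁻¹ = s := by
      have := mul_inv_eq_one.mp h1
      exact this
    calc s * e = (e * s * e⁻¹) * e := by rw [h2]
      _ = e * s := by group
  apply heA
  rw [Subgroup.mem_centralizer_iff]
  intro a ha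
  exact hcent a (hAb.AS ha)

example [Finite G] (h50 : St1350 G) (h14 : St1414 G) :
    ∀ (M E S A : Subgroup G) (p : ℕ) [Fact p.Prime], AbS M E S A p →
    ∀ Mst : Subgroup G, IsCoatom Mst → normalizer (S : Set G) ≤ Mst →
    ∀ (e : G) (q : ℕ), q.Prime → q ≠ p → e ∈ E → (∃ k : ℕ, orderOf e = q ^ k) →
      e ∉ centralizer (A : Set G) → q ∉ sigma Mst :=
  alpha1 h50 h14

end Cfsg.Agent.Helper55.BG161
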