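import Mathlib
import Cfsg.Agent.H46.UnivDefs

set_option autoImplicit false

/-!
# Good lists of root indices are preserved by conjugation (piece S2398-MAP)
-/

namespace Cfsg.Agent.Helper55.Univ

open Cfsg.Agent.H46.Univ

variable {G E K ι : Type*} [Group G] [Group E] [Field K]

theorem mem_GX_gen (x : ι → K → G) (L : List ι) (q : ι) (hq : q ∈ L) (t : K) : x q t ∈ GX x L :=
  Subgroup.subset_closure ⟨q, t, hq, rfl⟩

theorem GX_le_of_gen (x : ι → K → G) (L : List ι) (H : Subgroup G)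
    (h : ∀ q ∈ L, ∀ t : K, x q t ∈ H) : GX x L ≤ H := by
  unfold GX
  rw [Subgroup.closure_le]
  rintro g ⟨q, t, hq, rfl⟩
  exact h q hq t

theorem conj_mem_of_gen (x : ι → K → G) (L : List ι) (H : Subgroup G) (n : G)
    (h : ∀ q ∈ L, ∀ t : K, n * x q t * n⁻¹ ∈ H) : ∀ g ∈ GX x L, n * g * n⁻¹ ∈ H := by
  intro g hg
  have hle : GX x L ≤ H.comap (MulAut.conj n).toMonoidHom := by
    apply GX_le_of_gen
    intro q hq t
    rw [Subgroup.mem_comap]
    simpa [MulAut.conj_apply] using h q hq t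
  have h2 := hle hg
  rw [Subgroup.mem_comap] at h2
  simpa [MulAut.conj_apply] using h2

theorem goodL_cons (x : ι → K → G) (T : Set G) (e : ι) (L : List ι) :
    GoodL x T (e :: L) ↔ ((∀ e' ∈ L, ∀ t u : K, x e t * x e' u * (x e t)⁻¹ ∈ GX x L) ∧
    (∀ t : K, x e t ∈ GX x L → t = 0) ∧
    (∀ e' ∈ L, ∃ h ∈ T, ∃ c : K, c - 1 ≠ 0 ∧ (∀ t : K, h * x e t * h⁻¹ = x e t) ∧
      (∀ u : K, h * x e' u * h⁻¹ = x e' (c * u))) ∧
    GoodL x T L) := Iff.rfl

theorem goodL_map (x : ι → K → G) (T : Set G) (n : G) (f : ι → ι) (κ : ι → K) (L : List ι)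
    (hκ : ∀ q ∈ L, κ q ≠ 0)
    (hn : ∀ q ∈ L, ∀ t : K, n * x q t * n⁻¹ = x (f q) (κ q * t))
    (hT : ∀ g ∈ T, n * g * n⁻¹ ∈ T)
    (hL : GoodL x T L) : GoodL x T (L.map f) := by
  induction L with
  | nil => simp [GoodL]
  | cons e L ih =>
    obtain ⟨h1, h2, h3, h4⟩ := (goodL_cons x T e L).1 hL
    have hsub : ∀ q ∈ L, q ∈ e :: L := fun q hq => List.mem_cons_of_mem _ hq
    have he : e ∈ e :: L := List.mem_cons.2 (Or.inl rfl)
    have hκ' : ∀ q ∈ L, κ q ≠ 0 := fun q hq => hκ q (hsub q hq)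
    have hn' : ∀ q ∈ L, ∀ t : K, n * x q t * n⁻¹ = x (f q) (κ q * t) :=
      fun q hq => hn q (hsub q hq)
    have hκe := hκ e he
    have key : ∀ q ∈ e :: L, ∀ t : K, x (f q) t = n * x q (t / κ q) * n⁻¹ := by
      intro q hq t
      rw [hn q hq, mul_div_cancel₀ _ (hκ q hq)]
    have hfwd : ∀ g ∈ GX x L, n * g * n⁻¹ ∈ GX x (L.map f) := by
      apply conj_mem_of_gen
      intro q hq t
      rw [hn' q hq]
      exact mem_GX_gen x _ (f q) (List.mem_map.2 ⟨q, hq, rfl⟩) _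
    have hbwd : ∀ g ∈ GX x (L.map f), n⁻¹ * g * n ∈ GX x L := by
      intro g hg
      have h5 : ∀ q' ∈ L.map f, ∀ t : K, n⁻¹ * x q' t * n⁻¹⁻¹ ∈ GX x L := by
        intro q' hq' t
        obtain ⟨q, hq, rfl⟩ := List.mem_map.1 hq'
        have e1 : x (f q) t = n * x q (t / κ q) * n⁻¹ := key q (hsub q hq) t
        have e2 : n⁻¹ * (n * x q (t / κ q) * n⁻¹) * n⁻¹⁻¹ = x q (t / κ q) := by group
        rw [e1, e2]
        exact mem_GX_gen x _ q hq _
      have h6 := conj_mem_of_gen x (L.map f) (GX x L) n⁻¹ h5 g hg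
      simpa using h6
    rw [List.map_cons, goodL_cons]
    refine ⟨?_, ?_, ?_, ih hκ' hn' h4⟩
    · intro e'' he'' t u
      obtain ⟨e', he', rfl⟩ := List.mem_map.1 he''
      have e1 : x (f e) t = n * x e (t / κ e) * n⁻¹ := key e he t
      have e2 : x (f e') u = n * x e' (u / κ e') * n⁻¹ := key e' (hsub e' he') u
      have h7 := hfwd _ (h1 e' he' (t / κ e) (u / κ e'))
      have e3 : n * x e (t / κ e) * n⁻¹ * (n * x e' (u / κ e') * n⁻¹) *
          (n * x e (t / κ e) * n⁻¹)⁻¹ =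
          n * (x e (t / κ e) * x e' (u / κ e') * (x e (t / κ e))⁻¹) * n⁻¹ := by group
      rw [e1, e2, e3]
      exact h7
    · intro t ht
      have h7 := hbwd _ ht
      have e1 : x (f e) t = n * x e (t / κ e) * n⁻¹ := key e he t
      have e2 : n⁻¹ * (n * x e (t / κ e) * n⁻¹) * n = x e (t / κ e) := by group
      rw [e1, e2] at h7
      have h8 := h2 _ h7
      rcases div_eq_zero_iff.1 h8 with h | h
      · exact h
      · exact absurd h hκe
    · intro e'' he''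
      obtain ⟨e', he', rfl⟩ := List.mem_map.1 he''
      obtain ⟨h, hhT, c, hc, hcomm, hact⟩ := h3 e' he'
      refine ⟨n * h * n⁻¹, hT h hhT, c, hc, ?_, ?_⟩
      · intro t
        have e1 : x (f e) t = n * x e (t / κ e) * n⁻¹ := key e he t
        have e3 : n * h * n⁻¹ * (n * x e (t / κ e) * n⁻¹) * (n * h * n⁻¹)⁻¹ =
            n * (h * x e (t / κ e) * h⁻¹) * n⁻¹ := by group
        rw [e1, e3, hcomm]
      · intro u
        have e1 : x (f e') u = n * x e' (u / κ e') * n⁻¹ := key e' (hsub e' he') u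
        have e3 : n * h * n⁻¹ * (n * x e' (u / κ e') * n⁻¹) * (n * h * n⁻¹)⁻¹ =
            n * (h * x e' (u / κ e') * h⁻¹) * n⁻¹ := by group
        rw [e1, e3, hact, hn' e' he']
        congr 1
        have := hκ' e' he'
        field_simp

end Cfsg.Agent.Helper55.Univ
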