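import Mathlib
import Cfsg.Agent.H38.BG161Defs

set_option autoImplicit false

/-!
# S1360 (B&G Theorem A / Lemma 15.1(c)): the pieces as `Prop`s (helper55)

`M = K U M_σ` the standard factorisation.  `E := U ⊔ K` is a complement of `M_σ` in `M`
(helper31's `compl_UK`), `U ⊴ E`.  The statements below are the `U`-versions of helper38's
S1421 pieces (`Cfsg.Agent.H38.BG161`): hypotheses are only made on the subgroup `U ≤ E`.
-/

namespace Cfsg.Agent.Helper55.BG151

open Cfsg Subgroup Cfsg.Agent.H58.BG10 Cfsg.Agent.H58.BG12 Cfsg.Agent.H38.BG161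

universe u

variable {G : Type u} [Group G]

/-- `U`-regularity: the elements of prime order `q ∈ τ₁(M) ∪ τ₃(M)` of `U` are regular on
`M_σ`. -/
def HypU (M U : Subgroup G) : Prop :=
  ∀ u ∈ U, ∀ q : ℕ, q.Prime → orderOf u = q → q ∈ tau1 M ∪ tau3 M →
    sigmaCore M ⊓ centralizer ({u} : Set G) = ⊥

/-- (USCALAR) `U`-version of `StScalar`: under (I), `HypT2` and `HypU`, if some subgroup of order
`p` of `A` is singular, every element of `U` normalizes every subgroup of order `p` of `A`. -/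
def StUScalar (G : Type u) [Group G] : Prop :=
  ∀ (M E S A : Subgroup G) (p : ℕ) [Fact p.Prime], AbS M E S A p → HypI S A p →
    HypT2 M E A p → ∀ U : Subgroup G, U ≤ E → HypU M U →
    (∃ X : Subgroup G, X ≤ A ∧ Nat.card X = p ∧ sigmaCore M ⊓ centralizer (X : Set G) ≠ ⊥) →
    ∀ e ∈ U, ∀ X : Subgroup G, X ≤ A → Nat.card X = p → e ∈ normalizer (X : Set G)

/-- (UCASEI) `U`-version of `StCaseI`: under (I), if every element of `U` normalizes every
subgroup of order `p` of `A`, then `S` has a `U`-invariant cyclic subgroup of full exponent with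
regular socle. -/
def StUCaseI (G : Type u) [Group G] : Prop :=
  ∀ (M E S A : Subgroup G) (p : ℕ) [Fact p.Prime], AbS M E S A p → HypI S A p →
    ∀ U : Subgroup G, U ≤ E →
    (∀ e ∈ U, ∀ X : Subgroup G, X ≤ A → Nat.card X = p → e ∈ normalizer (X : Set G)) →
    ∃ C : Subgroup G, C ≤ S ∧ U ≤ normalizer (C : Set G) ∧
      Monoid.exponent C = Monoid.exponent S ∧
      ∀ c ∈ C, c ≠ 1 → sigmaCore M ⊓ centralizer ({c} : Set G) = ⊥

/-- (KAPPA) In a standard factorisation, `U` contains every element of prime power order `r ^ k`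
of `U ⊔ K` with `r ∉ κ(M)`; and `τ₂(M) ∩ κ(M) = ∅`. -/
def StKappa (G : Type u) [Group G] : Prop :=
  ∀ (M K U : Subgroup G), IsCoatom M → IsSigmaDecomposition M K U →
    (∀ e ∈ U ⊔ K, ∀ r : ℕ, r.Prime → r ∉ kappa M → (∃ k : ℕ, orderOf e = r ^ k) → e ∈ U) ∧
    ∀ p : ℕ, p ∈ tau2 M → p ∉ kappa M

/-- (EXPINF) If `E₀ ≤ E` has the exponent of `E` and `U ≤ E` contains every element of `E` of
prime power order `r ^ k` with `r ∣ #U`, then `E₀ ⊓ U` has the exponent of `U`. -/
def StExpInf (G : Type u) [Group G] : Prop :=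
  ∀ (E E₀ U : Subgroup G), E₀ ≤ E → U ≤ E → Monoid.exponent E₀ = Monoid.exponent E →
    (∀ e ∈ E, ∀ r : ℕ, r.Prime → r ∣ Nat.card U → (∃ k : ℕ, orderOf e = r ^ k) → e ∈ U) →
    Monoid.exponent (E₀ ⊓ U : Subgroup G) = Monoid.exponent U

end Cfsg.Agent.Helper55.BG151
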