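import Mathlib
import Cfsg.Agent.H46.UnivDefs
import Cfsg.Agent.Helper55.UnivMap

set_option autoImplicit false

/-!
# Injectivity on the subgroup generated by a good list of root subgroups (piece S2398-INJ)
-/

namespace Cfsg.Agent.Helper55.Univ

open Cfsg.Agent.H46.Univ

variable {G E K ι : Type*} [Group G] [Group E] [Field K]

theorem conj_comm_identity (m h a w : E) (hm : h * m = m * h)
    (hz : ∀ g : E, g * (w⁻¹ * (m * a * m⁻¹)) = (w⁻¹ * (m * a * m⁻¹)) * g) :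
    m * (h * a * h⁻¹ * a⁻¹) * m⁻¹ = (h * w * h⁻¹) * w⁻¹ := by
  have h1 : m * (h * a * h⁻¹ * a⁻¹) * m⁻¹ = h * (m * a * m⁻¹) * h⁻¹ * (m * a * m⁻¹)⁻¹ := by
    have hm' : m * h = h * m := hm.symm
    have hcm : Commute h m := hm
    have hm2 : m * h⁻¹ = h⁻¹ * m := (hcm.inv_left.eq).symm
    calc m * (h * a * h⁻¹ * a⁻¹) * m⁻¹ = (m * h) * a * h⁻¹ * a⁻¹ * m⁻¹ := by group
      _ = (h * m) * a * h⁻¹ * a⁻¹ * m⁻¹ := by rw [hm']
      _ = h * (m * a * m⁻¹) * (m * h⁻¹) * a⁻¹ * m⁻¹ := by group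
      _ = h * (m * a * m⁻¹) * (h⁻¹ * m) * a⁻¹ * m⁻¹ := by rw [hm2]
      _ = h * (m * a * m⁻¹) * h⁻¹ * (m * a * m⁻¹)⁻¹ := by group
  rw [h1]
  generalize m * a * m⁻¹ = k at hz ⊢
  have hz' := hz h⁻¹
  calc h * k * h⁻¹ * k⁻¹ = h * w * ((w⁻¹ * k) * h⁻¹) * k⁻¹ := by group
    _ = h * w * (h⁻¹ * (w⁻¹ * k)) * k⁻¹ := by rw [hz']
    _ = h * w * h⁻¹ * w⁻¹ := by group

theorem inj_of_goodL (ρ : E →* G) (hc : ρ.ker ≤ Subgroup.center E)
    (x : ι → K → G) (y : ι → K → E) (T : Set G) (L : List ι)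
    (hTlift : ∀ g ∈ T, ∃ e : E, ρ e = g)
    (hTact : ∀ g ∈ T, ∀ q ∈ L, ∃ χ : K, ∀ t : K, g * x q t * g⁻¹ = x q (χ * t))
    (hmap : ∀ q ∈ L, ∀ t : K, ρ (y q t) = x q t)
    (hadd : ∀ q ∈ L, ∀ t u : K, y q (t + u) = y q t * y q u)
    (htor : ∀ q ∈ L, ∀ (h : E) (χ : K), ρ h ∈ T → (∀ t : K, ρ h * x q t * (ρ h)⁻¹ = x q (χ * t)) →
      ∀ t : K, h * y q t * h⁻¹ = y q (χ * t))
    (hL : GoodL x T L) :
    ∀ g ∈ GX y L, ρ g = 1 → g = 1 := by
  induction L with
  | nil =>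
    intro g hg _
    have hbot : GX y ([] : List ι) = ⊥ := by
      unfold GX
      rw [Subgroup.closure_eq_bot_iff]
      rintro g ⟨q, t, hq, rfl⟩
      simp at hq
    rw [hbot] at hg
    exact Subgroup.mem_bot.1 hg
  | cons e L ih =>
    obtain ⟨h1, h2, h3, h4⟩ := (goodL_cons x T e L).1 hL
    have hsub : ∀ q ∈ L, q ∈ e :: L := fun q hq => List.mem_cons_of_mem _ hq
    have he : e ∈ e :: L := List.mem_cons.2 (Or.inl rfl)
    have IH := ih (fun g hg q hq => hTact g hg q (hsub q hq)) (fun q hq => hmap q (hsub q hq))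
      (fun q hq => hadd q (hsub q hq)) (fun q hq => htor q (hsub q hq)) h4
    have hA : ∀ g ∈ GX x L, ∃ w ∈ GX y L, ρ w = g := by
      intro g hg
      have hle : GX x L ≤ (GX y L).map ρ := by
        apply GX_le_of_gen
        intro q hq t
        exact ⟨y q t, mem_GX_gen y L q hq t, hmap q (hsub q hq) t⟩
      obtain ⟨w, hw, rfl⟩ := hle hg
      exact ⟨w, hw, rfl⟩
    have hA' : ∀ w ∈ GX y L, ρ w ∈ GX x L := by
      intro w hw
      have hle : GX y L ≤ (GX x L).comap ρ := by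
        apply GX_le_of_gen
        intro q hq t
        rw [Subgroup.mem_comap, hmap q (hsub q hq)]
        exact mem_GX_gen x L q hq t
      exact hle hw
    have hy0 : y e 0 = 1 := by
      have h5 := hadd e he 0 0
      rw [add_zero] at h5
      simpa using h5
    have hyneg : ∀ t, (y e t)⁻¹ = y e (-t) := by
      intro t
      have h5 := hadd e he t (-t)
      rw [add_neg_cancel, hy0] at h5
      exact inv_eq_of_mul_eq_one_right h5.symm
    have hB : ∀ t : K, ∀ w ∈ GX y L, y e t * w * (y e t)⁻¹ ∈ GX y L := by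
      intro t
      apply conj_mem_of_gen
      intro e' he' u
      obtain ⟨h, hhT, c, hc1, hcomm, hact⟩ := h3 e' he'
      obtain ⟨h', rfl⟩ := hTlift h hhT
      have hh'e : ∀ s, h' * y e s * h'⁻¹ = y e s := by
        intro s
        have h5 := htor e he h' 1 hhT (by intro t; rw [one_mul]; exact hcomm t) s
        rwa [one_mul] at h5
      have hh'e' : ∀ s, h' * y e' s * h'⁻¹ = y e' (c * s) :=
        htor e' (hsub e' he') h' c hhT hact
      have hh'N : ∀ w ∈ GX y L, h' * w * h'⁻¹ ∈ GX y L := by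
        apply conj_mem_of_gen
        intro q hq s
        obtain ⟨χ, hχ⟩ := hTact (ρ h') hhT q (hsub q hq)
        rw [htor q (hsub q hq) h' χ hhT hχ s]
        exact mem_GX_gen y L q hq _
      have hu : y e' u = h' * y e' (u / (c - 1)) * h'⁻¹ * (y e' (u / (c - 1)))⁻¹ := by
        rw [hh'e', eq_mul_inv_iff_mul_eq, ← hadd e' (hsub e' he')]
        congr 1
        field_simp
        ring
      have hk : ρ (y e t * y e' (u / (c - 1)) * (y e t)⁻¹) ∈ GX x L := by
        rw [map_mul, map_mul, map_inv, hmap e he, hmap e' (hsub e' he')]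
        exact h1 e' he' _ _
      obtain ⟨w, hw, hwk⟩ := hA _ hk
      have hz : w⁻¹ * (y e t * y e' (u / (c - 1)) * (y e t)⁻¹) ∈ Subgroup.center E := by
        apply hc
        rw [MonoidHom.mem_ker, map_mul, map_inv, hwk, inv_mul_cancel]
      have hm : h' * y e t = y e t * h' := by
        have h5 := hh'e t
        rwa [mul_inv_eq_iff_eq_mul] at h5
      have hfin : y e t * y e' u * (y e t)⁻¹ = (h' * w * h'⁻¹) * w⁻¹ := by
        rw [hu]
        exact conj_comm_identity (y e t) h' (y e' (u / (c - 1))) w hm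
          (fun g => Subgroup.mem_center_iff.1 hz g)
      rw [hfin]
      exact (GX y L).mul_mem (hh'N w hw) ((GX y L).inv_mem hw)
    have hC : ∀ g ∈ GX y (e :: L), ∃ t : K, ∃ w ∈ GX y L, g = y e t * w := by
      intro g hg
      unfold GX at hg
      induction hg using Subgroup.closure_induction with
      | mem g hg =>
        obtain ⟨q, s, hq, rfl⟩ := hg
        rcases List.mem_cons.1 hq with hqe | hq'
        · rw [hqe]
          exact ⟨s, 1, one_mem _, (mul_one _).symm⟩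
        · exact ⟨0, y q s, mem_GX_gen y L q hq' s, by rw [hy0, one_mul]⟩
      | one => exact ⟨0, 1, one_mem _, by rw [hy0, one_mul]⟩
      | mul a b _ _ iha ihb =>
        obtain ⟨t1, w1, hw1, rfl⟩ := iha
        obtain ⟨t2, w2, hw2, rfl⟩ := ihb
        refine ⟨t1 + t2, (y e t2)⁻¹ * w1 * y e t2 * w2, ?_, ?_⟩
        · apply (GX y L).mul_mem _ hw2
          have h5 := hB (-t2) w1 hw1
          rw [← hyneg, inv_inv] at h5
          exact h5
        · rw [hadd e he]; group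
      | inv a _ iha =>
        obtain ⟨t, w, hw, rfl⟩ := iha
        refine ⟨-t, y e t * w⁻¹ * (y e t)⁻¹, hB t _ ((GX y L).inv_mem hw), ?_⟩
        rw [← hyneg]; group
    intro g hg hρ
    obtain ⟨t, w, hw, rfl⟩ := hC g hg
    have ht : t = 0 := by
      apply h2
      have h5 : x e t = (ρ w)⁻¹ := by
        rw [map_mul, hmap e he] at hρ
        exact eq_inv_of_mul_eq_one_left hρ
      rw [h5]
      exact (GX x L).inv_mem (hA' w hw)
    subst ht
    rw [hy0, one_mul] at hρ ⊢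
    exact IH w hw hρ

end Cfsg.Agent.Helper55.Univ

section Check
open Cfsg.Agent.H46.Univ
variable {G E K ι : Type*} [Group G] [Group E] [Field K]

example (ρ : E →* G) (hc : ρ.ker ≤ Subgroup.center E)
    (x : ι → K → G) (y : ι → K → E) (T : Set G) (L : List ι)
    (hTlift : ∀ g ∈ T, ∃ e : E, ρ e = g)
    (hTact : ∀ g ∈ T, ∀ q ∈ L, ∃ χ : K, ∀ t : K, g * x q t * g⁻¹ = x q (χ * t))
    (hmap : ∀ q ∈ L, ∀ t : K, ρ (y q t) = x q t)
    (hadd : ∀ q ∈ L, ∀ t u : K, y q (t + u) = y q t * y q u)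
    (htor : ∀ q ∈ L, ∀ (h : E) (χ : K), ρ h ∈ T → (∀ t : K, ρ h * x q t * (ρ h)⁻¹ = x q (χ * t)) →
      ∀ t : K, h * y q t * h⁻¹ = y q (χ * t))
    (hL : GoodL x T L) :
    ∀ g ∈ GX y L, ρ g = 1 → g = 1 :=
  Cfsg.Agent.Helper55.Univ.inj_of_goodL ρ hc x y T L hTlift hTact hmap hadd htor hL

example (x : ι → K → G) (T : Set G) (n : G) (f : ι → ι) (κ : ι → K) (L : List ι)
    (hκ : ∀ q ∈ L, κ q ≠ 0)
    (hn : ∀ q ∈ L, ∀ t : K, n * x q t * n⁻¹ = x (f q) (κ q * t))
    (hT : ∀ g ∈ T, n * g * n⁻¹ ∈ T)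
    (hL : GoodL x T L) : GoodL x T (L.map f) :=
  Cfsg.Agent.Helper55.Univ.goodL_map x T n f κ L hκ hn hT hL
end Check
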