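import Cfsg.Agent.H85.PtExDefs

/-!
# S5973-EXEVEN sub-tree (helper85): piece S5973-EX-TOMAT

An isometry `g` of finite order of an abstract space isometric (via `e`) to a coordinate space
`(ι → F, Q')` gives a matrix `x` in the isometry group of `Q'` with the same order bound, the same
kernel dimensions, and `x` scalar only if `g` is.
-/

set_option autoImplicit false
open scoped MatrixGroups
open scoped Matrix

namespace Cfsg.Agent.Helper55.PtEx

open Cfsg.Agent.H45 Cfsg.Agent.H42.Ti Cfsg.Agent.H77.Tq Cfsg.Agent.H77.Tm Cfsg.Agent.H85.PtEx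
  Module Polynomial

universe u v w

/-- The kernel of a conjugate is the image of the kernel. -/
theorem ker_conj_map {F : Type u} [Field F] {V : Type v} {V' : Type w} [AddCommGroup V]
    [Module F V] [AddCommGroup V'] [Module F V'] (e : V ≃ₗ[F] V') (M : Module.End F V) :
    LinearMap.ker (e.conj M) = (LinearMap.ker M).map e.toLinearMap := by
  ext z
  rw [LinearMap.mem_ker, Submodule.mem_map, LinearEquiv.conj_apply_apply]
  constructor
  · intro hz
    refine ⟨e.symm z, ?_, e.apply_symm_apply z⟩
    rw [LinearMap.mem_ker]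
    apply e.injective
    rw [hz, map_zero]
  · rintro ⟨w, hw, rfl⟩
    rw [LinearMap.mem_ker] at hw
    show e (M (e.symm (e w))) = 0
    rw [e.symm_apply_apply, hw, map_zero]

/-- The kernel of a conjugate has the same dimension. -/
theorem finrank_ker_conj {F : Type u} [Field F] {V : Type v} {V' : Type w} [AddCommGroup V]
    [Module F V] [AddCommGroup V'] [Module F V'] (e : V ≃ₗ[F] V') (M : Module.End F V) :
    Module.finrank F ↥(LinearMap.ker (e.conj M)) = Module.finrank F ↥(LinearMap.ker M) := by
  rw [ker_conj_map]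
  exact LinearEquiv.finrank_eq
    (Submodule.equivMapOfInjective e.toLinearMap e.injective (LinearMap.ker M)).symm

/-- S5973-EX-TOMAT. -/
theorem toMat : StToMat.{u} := by
  classical
  intro F _ _ ι _ _ V _ _ _ Q g Q' e r hr hQ' hiso hgr
  obtain ⟨g', hg'⟩ : ∃ g' : Module.End F (ι → F), g' = e.conj g := ⟨_, rfl⟩
  have hg'r : g' ^ r = 1 := by
    have h1 : e.conj (g ^ r) = (e.conj g) ^ r := map_pow e.conjRingEquiv g r
    rw [hg', ← h1, hgr]
    exact LinearEquiv.conj_id e
  have h2 : ∀ z, g' z = LinearMap.toMatrix' g' *ᵥ z := by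
    intro z
    rw [← Matrix.toLin'_apply, Matrix.toLin'_toMatrix']
  have hMr : (LinearMap.toMatrix' g') ^ r = 1 := by
    apply Matrix.toLin'.injective
    rw [Matrix.toLin'_pow, Matrix.toLin'_toMatrix', hg'r, Matrix.toLin'_one]
    rfl
  have hunit : LinearMap.toMatrix' g' * (LinearMap.toMatrix' g') ^ (r - 1) = 1 := by
    rw [← pow_succ', Nat.sub_add_cancel hr, hMr]
  have hunit' : (LinearMap.toMatrix' g') ^ (r - 1) * LinearMap.toMatrix' g' = 1 := by
    rw [← pow_succ, Nat.sub_add_cancel hr, hMr]
  refine ⟨⟨LinearMap.toMatrix' g', (LinearMap.toMatrix' g') ^ (r - 1), hunit, hunit'⟩,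
    ?_, ?_, ?_, ?_, ?_⟩
  · intro u _
    show Q' (LinearMap.toMatrix' g' *ᵥ u) = Q' u
    rw [← h2, hg', LinearEquiv.conj_apply_apply, hQ', hiso, ← hQ', e.apply_symm_apply]
  · apply Units.ext
    rw [Units.val_pow_eq_pow_val]
    exact hMr
  · show Module.finrank F ↥(LinearMap.ker (Matrix.toLin' (LinearMap.toMatrix' g') - 1)) = _
    rw [Matrix.toLin'_toMatrix']
    have h1 : g' - 1 = e.conj (g - 1) := by
      rw [hg']
      have h3 : e.conj (g - 1) = e.conj g - e.conj 1 := map_sub e.conjRingEquiv g 1
      have h4 : e.conj (1 : Module.End F V) = 1 := LinearEquiv.conj_id e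
      rw [h3, h4]
    rw [h1, finrank_ker_conj]
  · intro φ
    show Module.finrank F
      ↥(LinearMap.ker (aeval (Matrix.toLin' (LinearMap.toMatrix' g')) φ)) = _
    rw [Matrix.toLin'_toMatrix']
    have h1 : aeval g' φ = e.conj (aeval g φ) := by
      rw [hg']
      exact Polynomial.aeval_algHom_apply (e.conjAlgEquiv F) g φ
    rw [h1, finrank_ker_conj]
  · intro z hz
    have h3 : LinearMap.toMatrix' g' = z • (1 : Matrix ι ι F) := hz
    have h4 : g' = z • (1 : Module.End F (ι → F)) := by
      have h5 := congrArg Matrix.toLin' h3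
      rw [Matrix.toLin'_toMatrix'] at h5
      rw [h5, map_smul, Matrix.toLin'_one]
      rfl
    apply LinearMap.ext
    intro v
    have h5 : g' (e v) = z • e v := by
      rw [h4]
      rfl
    rw [hg', LinearEquiv.conj_apply_apply, e.symm_apply_apply] at h5
    apply e.injective
    rw [h5]
    simp

example : Cfsg.Agent.H85.PtEx.StToMat.{u} := toMat

end Cfsg.Agent.Helper55.PtEx
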