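import Mathlib
import Cfsg.Agent.H52.FzDefs
import Cfsg.Agent.H40.PComp

set_option autoImplicit false
open Cfsg

/-!
# Frattini argument for the Thompson subgroup (piece S4302-FRAT)
-/

namespace Cfsg.Agent.Helper55.Fz

theorem frat {X : Type*} [Group X] [Finite X] {p : ℕ} [Fact p.Prime] (T : Sylow p X) :
    Subgroup.normalClosure (Cfsg.thompsonSubgroupAOf (T : Subgroup X) : Set X) ⊔
      Subgroup.normalizer (Cfsg.thompsonSubgroupAOf (T : Subgroup X) : Set X) = ⊤ := by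
  classical
  rw [Cfsg.Agent.H29.thompsonSubgroupAOf_eq]
  obtain ⟨J, hJ⟩ : ∃ J : Subgroup X, J = Cfsg.Agent.H29.nJ 0 (T : Subgroup X) := ⟨_, rfl⟩
  rw [← hJ]
  obtain ⟨Y, hY⟩ : ∃ Y : Subgroup X, Y = Subgroup.normalClosure (J : Set X) := ⟨_, rfl⟩
  rw [← hY]
  haveI hYn : Y.Normal := by rw [hY]; exact Subgroup.normalClosure_normal
  have hJT : J ≤ T := by rw [hJ]; exact Cfsg.Agent.H29.nJ_le 0 _
  have hJY : J ≤ Y := by rw [hY]; exact Subgroup.le_normalClosure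
  have hfr := Sylow.normalizer_sup_eq_top (Cfsg.Agent.H40.sylowInfNormal T Y)
  rw [Cfsg.Agent.H40.coe_sylowInfNormal, Subgroup.subgroupOf_map_subtype] at hfr
  have hPT : (T : Subgroup X) ⊓ Y ≤ T := inf_le_left
  have hJP : J ≤ (T : Subgroup X) ⊓ Y := le_inf hJT hJY
  have hnJ : Cfsg.Agent.H29.nJ 0 ((T : Subgroup X) ⊓ Y) = J := by
    obtain ⟨A₀, hA₀⟩ := Cfsg.Agent.H29.exists_mem_nMax 0 (T : Subgroup X)
    have hle : ∀ A ∈ Cfsg.Agent.H29.nMax 0 (T : Subgroup X), A ≤ (T : Subgroup X) ⊓ Y := by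
      intro A hA
      have h1 : A ≤ J := by rw [hJ]; exact Cfsg.Agent.H29.le_nJ hA
      exact h1.trans hJP
    rw [hJ]
    apply le_antisymm
    · exact sSup_le_sSup (Cfsg.Agent.H29.nMax_subset hA₀ (hle A₀ hA₀) hPT)
    · apply sSup_le_sSup
      intro A hA
      exact Cfsg.Agent.H29.nMax_of_le hA (hle A hA) hPT
  have hN : Subgroup.normalizer (((T : Subgroup X) ⊓ Y : Subgroup X) : Set X) ≤
      Subgroup.normalizer (J : Set X) := by
    have h1 := Cfsg.Agent.H29.normalizer_le_normalizer_nJ 0 ((T : Subgroup X) ⊓ Y)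
    rwa [hnJ] at h1
  rw [eq_top_iff, ← hfr, sup_comm]
  exact sup_le_sup_left hN Y

end Cfsg.Agent.Helper55.Fz

section Check

example {X : Type*} [Group X] [Finite X] {p : ℕ} [Fact p.Prime] (T : Sylow p X) :
    Subgroup.normalClosure (Cfsg.thompsonSubgroupAOf (T : Subgroup X) : Set X) ⊔
      Subgroup.normalizer (Cfsg.thompsonSubgroupAOf (T : Subgroup X) : Set X) = ⊤ :=
  Cfsg.Agent.Helper55.Fz.frat T

end Check
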