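import Mathlib
import Cfsg.Agent.H52.FzDefs

set_option autoImplicit false
open Cfsg Cfsg.Agent.H52.Fz

/-!
# The normal closure `W` of the centre of a Sylow subgroup (piece S4302-SETUP-A)
-/

namespace Cfsg.Agent.Helper55.Fz

theorem centralizer_WS {X : Type*} [Group X] (T : Subgroup X) :
    Subgroup.centralizer (WS T : Set X) =
      (Subgroup.centralizer ((T ⊓ Subgroup.centralizer (T : Set X) : Subgroup X) : Set X)).normalCore := by
  obtain ⟨Z, hZ⟩ : ∃ Z : Subgroup X, Z = T ⊓ Subgroup.centralizer (T : Set X) := ⟨_, rfl⟩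
  have hW : WS T = Subgroup.normalClosure (Z : Set X) := by rw [hZ]; rfl
  rw [← hZ]
  have hZW : Z ≤ WS T := by rw [hW]; exact Subgroup.le_normalClosure
  apply le_antisymm
  · intro g hg b
    haveI hn : (Subgroup.centralizer (WS T : Set X)).Normal := inferInstance
    have h1 : b * g * b⁻¹ ∈ Subgroup.centralizer (WS T : Set X) := hn.conj_mem g hg b
    exact Subgroup.centralizer_le (SetLike.coe_subset_coe.2 hZW) h1
  · haveI hn : (Subgroup.centralizer (Z : Set X)).normalCore.Normal := Subgroup.normalCore_normal _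
    haveI hn2 : (Subgroup.centralizer
        ((Subgroup.centralizer (Z : Set X)).normalCore : Set X)).Normal := inferInstance
    have h1 : Z ≤ Subgroup.centralizer ((Subgroup.centralizer (Z : Set X)).normalCore : Set X) :=
      Subgroup.le_centralizer_iff.1 (Subgroup.normalCore_le _)
    have h2 : WS T ≤ Subgroup.centralizer
        ((Subgroup.centralizer (Z : Set X)).normalCore : Set X) := by
      rw [hW]
      exact Subgroup.normalClosure_le_normal (SetLike.coe_subset_coe.2 h1)
    exact Subgroup.le_centralizer_iff.1 h2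

theorem WS_le_center_pCore {X : Type*} [Group X] [Finite X] [Group.IsSolvable X]
    (hF : Cfsg.fittingSubgroup X = Cfsg.pCore 2 X) (T : Sylow 2 X) :
    WS (T : Subgroup X) ≤ Cfsg.pCore 2 X ⊓ Subgroup.centralizer (Cfsg.pCore 2 X : Set X) := by
  haveI hOn : (Cfsg.pCore 2 X).Normal := Cfsg.Agent.H14.pCore_normal 2 X
  haveI hCn : (Subgroup.centralizer (Cfsg.pCore 2 X : Set X)).Normal := inferInstance
  haveI hIn : (Cfsg.pCore 2 X ⊓ Subgroup.centralizer (Cfsg.pCore 2 X : Set X)).Normal :=
    inferInstance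
  unfold WS
  apply Subgroup.normalClosure_le_normal
  intro z hz
  have hzC : z ∈ Subgroup.centralizer ((T : Subgroup X) : Set X) := hz.2
  have hOT : Cfsg.pCore 2 X ≤ (T : Subgroup X) := pCore_le_sylow T
  have h1 : z ∈ Subgroup.centralizer (Cfsg.pCore 2 X : Set X) :=
    Subgroup.centralizer_le (SetLike.coe_subset_coe.2 hOT) hzC
  have h2 : z ∈ Cfsg.pCore 2 X := by
    have h3 := Cfsg.Agent.H1.centralizer_fitting_le (G := X)
    rw [hF] at h3
    exact h3 h1
  exact ⟨h2, h1⟩

theorem pCore_quot_aux {X : Type*} [Group X] [Finite X] {p : ℕ} [Fact p.Prime] (T : Sylow p X)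
    (V : Subgroup X) [hVn : V.Normal] (hV : V = WS (T : Subgroup X)) :
    Cfsg.pCore p (X ⧸ Subgroup.centralizer (V : Set X)) = ⊥ := by
  have hp : p.Prime := Fact.out
  obtain ⟨C, hC⟩ : ∃ C : Subgroup X, C = Subgroup.centralizer (V : Set X) := ⟨_, rfl⟩
  haveI hCn : C.Normal := by rw [hC]; infer_instance
  obtain ⟨D, hD⟩ : ∃ D : Subgroup X,
      D = (pCore p (X ⧸ Subgroup.centralizer (V : Set X))).comap
        (QuotientGroup.mk' (Subgroup.centralizer (V : Set X))) := ⟨_, rfl⟩
  have hCD : C ≤ D := by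
    rw [hC, hD]
    intro x hx
    rw [Subgroup.mem_comap]
    have : (QuotientGroup.mk' (Subgroup.centralizer (V : Set X))) x = 1 := by
      rw [QuotientGroup.mk'_apply, QuotientGroup.eq_one_iff]
      exact hx
    rw [this]
    exact Subgroup.one_mem _
  haveI hDn : D.Normal := by
    rw [hD]
    haveI := Cfsg.Agent.H14.pCore_normal p (X ⧸ Subgroup.centralizer (V : Set X))
    infer_instance
  have hDmap : D.map (QuotientGroup.mk' (Subgroup.centralizer (V : Set X))) =
      pCore p (X ⧸ Subgroup.centralizer (V : Set X)) := by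
    rw [hD]
    exact Subgroup.map_comap_eq_self_of_surjective (QuotientGroup.mk'_surjective _) _
  obtain ⟨k, hk⟩ : ∃ k : ℕ, C.relIndex D = p ^ k := by
    have h1 := Subgroup.relIndex_ker D (QuotientGroup.mk' (Subgroup.centralizer (V : Set X)))
    rw [QuotientGroup.ker_mk', hDmap] at h1
    obtain ⟨k, hk⟩ := IsPGroup.iff_card.mp
      (Cfsg.Agent.H14.pCore_isPGroup p (X ⧸ Subgroup.centralizer (V : Set X)))
    exact ⟨k, by rw [hC, h1, hk]⟩
  have hDC : D ≤ C := by
    rw [hC, Subgroup.le_centralizer_iff, hV]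
    unfold WS
    haveI hCDn : (Subgroup.centralizer (D : Set X)).Normal := inferInstance
    apply Subgroup.normalClosure_le_normal
    rw [SetLike.coe_subset_coe, Subgroup.le_centralizer_iff]
    obtain ⟨XT, hXT⟩ : ∃ XT : Subgroup X, XT = Subgroup.centralizer
        (((T : Subgroup X) ⊓ Subgroup.centralizer ((T : Subgroup X) : Set X) : Subgroup X) :
          Set X) := ⟨_, rfl⟩
    rw [← hXT]
    have hCX : C ≤ XT := by
      rw [hC, hXT]
      apply Subgroup.centralizer_le
      rw [hV]
      exact Subgroup.subset_normalClosure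
    have hSX : (T : Subgroup X) ≤ XT := by
      rw [hXT, Subgroup.le_centralizer_iff]
      exact inf_le_right
    have h1 : (D ⊓ XT).relIndex D ∣ p ^ k := by
      rw [← hk]
      exact Subgroup.relIndex_dvd_of_le_left D (le_inf hCD hCX)
    have h2 : (D ⊓ XT).relIndex D ∣ (T : Subgroup X).index := by
      have h3 : (D ⊓ XT).relIndex D ∣ (D ⊓ (T : Subgroup X)).relIndex D :=
        Subgroup.relIndex_dvd_of_le_left D (inf_le_inf_left D hSX)
      refine h3.trans ?_
      have e1 := Cfsg.Agent.H14.Holo.card_sup_mul_card_inf (T : Subgroup X) D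
        (by rw [Subgroup.normalizer_eq_top]; exact le_top)
      have e2 : ((T : Subgroup X) ⊓ D).relIndex D * Nat.card ↥((T : Subgroup X) ⊓ D) =
          Nat.card D := Cfsg.Agent.H14.relIndex_mul_card' inf_le_right
      have e3 : (T : Subgroup X).relIndex ((T : Subgroup X) ⊔ D) * Nat.card (T : Subgroup X) =
          Nat.card ↥((T : Subgroup X) ⊔ D) := Cfsg.Agent.H14.relIndex_mul_card' le_sup_left
      have e4 : ((T : Subgroup X) ⊓ D).relIndex D =
          (T : Subgroup X).relIndex ((T : Subgroup X) ⊔ D) := by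
        have hpos1 : 0 < Nat.card ↥((T : Subgroup X) ⊓ D) := Nat.card_pos
        have hpos2 : 0 < Nat.card (T : Subgroup X) := Nat.card_pos
        have : ((T : Subgroup X) ⊓ D).relIndex D *
            (Nat.card ↥((T : Subgroup X) ⊓ D) * Nat.card (T : Subgroup X)) =
            (T : Subgroup X).relIndex ((T : Subgroup X) ⊔ D) *
              (Nat.card ↥((T : Subgroup X) ⊓ D) * Nat.card (T : Subgroup X)) := by
          calc _ = Nat.card D * Nat.card (T : Subgroup X) := by rw [← e2]; ring
            _ = Nat.card ↥((T : Subgroup X) ⊔ D) * Nat.card ↥((T : Subgroup X) ⊓ D) := by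
              rw [e1]; ring
            _ = _ := by rw [← e3]; ring
        exact Nat.eq_of_mul_eq_mul_right (Nat.mul_pos hpos1 hpos2) this
      rw [inf_comm, e4]
      exact ⟨_, (Subgroup.relIndex_mul_index
        (le_sup_left : (T : Subgroup X) ≤ (T : Subgroup X) ⊔ D)).symm⟩
    have h4 : (D ⊓ XT).relIndex D = 1 := by
      obtain ⟨j, -, hj⟩ := (Nat.dvd_prime_pow hp).mp h1
      rcases Nat.eq_zero_or_pos j with h0 | hpos
      · rw [hj, h0, pow_zero]
      · exfalso
        have h5 : p ∣ (T : Subgroup X).index := by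
          refine dvd_trans ?_ h2
          rw [hj]
          exact dvd_pow_self p (by omega)
        exact T.not_dvd_index h5
    have h6 : D ≤ D ⊓ XT := Subgroup.relIndex_eq_one.mp h4
    exact h6.trans inf_le_right
  rw [← hDmap, eq_bot_iff]
  rintro _ ⟨d, hd, rfl⟩
  rw [Subgroup.mem_bot, QuotientGroup.mk'_apply, QuotientGroup.eq_one_iff]
  rw [← hC]
  exact hDC hd

theorem pCore_quot_WS {X : Type*} [Group X] [Finite X] {p : ℕ} [Fact p.Prime] (T : Sylow p X) :
    Cfsg.pCore p (X ⧸ Subgroup.centralizer (WS (T : Subgroup X) : Set X)) = ⊥ :=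
  pCore_quot_aux T (WS (T : Subgroup X)) rfl

end Cfsg.Agent.Helper55.Fz

section Check
open Cfsg Cfsg.Agent.H52.Fz

example {X : Type*} [Group X] (T : Subgroup X) :
    Subgroup.centralizer (WS T : Set X) =
      (Subgroup.centralizer ((T ⊓ Subgroup.centralizer (T : Set X) : Subgroup X) : Set X)).normalCore :=
  Cfsg.Agent.Helper55.Fz.centralizer_WS T

example {X : Type*} [Group X] [Finite X] [Group.IsSolvable X]
    (hF : Cfsg.fittingSubgroup X = Cfsg.pCore 2 X) (T : Sylow 2 X) :
    WS (T : Subgroup X) ≤ Cfsg.pCore 2 X ⊓ Subgroup.centralizer (Cfsg.pCore 2 X : Set X) :=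
  Cfsg.Agent.Helper55.Fz.WS_le_center_pCore hF T

example {X : Type*} [Group X] [Finite X] {p : ℕ} [Fact p.Prime] (T : Sylow p X) :
    Cfsg.pCore p (X ⧸ Subgroup.centralizer (WS (T : Subgroup X) : Set X)) = ⊥ :=
  Cfsg.Agent.Helper55.Fz.pCore_quot_WS T

end Check
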