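import Mathlib
import Cfsg.Agent.H86.NdDefs
import Cfsg.Agent.H53.Ev2ExJPlus

/-!
# ND-UEX3M (helper86's project S5989 + S5991): minus space, `k` even

An isometry `x = 1 + N` of `Cfsg.quadFormMinus k F a b` with `N ^ 3 = 0`, `rank N ^ 2 = 2`,
`rank N = k + 2` (Jordan type `(3, 3, 2^(k-2))`).  With `X j`, `Y j`, `Z t` the coordinates,

* `(N v) (x_j) = sg j * Y (tw j) - [j = 0] (2 Z 0 + a Z 1 + Y 0) - [j = 1] (D Z 1 + D Y 1)`,
* `(N v) (y_j) = 0`,
* `(N v) (z_0) = Y 0 - a Y 1`, `(N v) (z_1) = 2 Y 1`,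

`D = 4 b - a ^ 2` (two Eichler transformations for the orthogonal vectors `(1, 0)`, `(-a, 2)` of
the anisotropic plane, times a Siegel transformation).
-/

set_option autoImplicit false

namespace Cfsg.Agent.Helper55.Nd

open Cfsg.Agent.H86.Nd Cfsg.Agent.H53.Ev2 Module

universe u

section Build

variable {F : Type u} [Field F] (k : ℕ) (i0 i1 : Fin k) (a b : F)

/-- the nilpotent part `N = x - 1` as a function -/
def nF (v : MI k → F) : MI k → F :=
  Sum.elim (Sum.elim
      (fun j => sg F k j * v (.inl (.inr (tw k j)))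
        - (if j = i0 then 1 else 0) * (2 * v (.inr 0) + a * v (.inr 1) + v (.inl (.inr i0)))
        - (if j = i1 then 1 else 0) *
            ((4 * b - a * a) * v (.inr 1) + (4 * b - a * a) * v (.inl (.inr i1))))
      (fun _ => 0))
    (fun t => if t = 0 then v (.inl (.inr i0)) - a * v (.inl (.inr i1))
      else 2 * v (.inl (.inr i1)))

theorem nF_x (v : MI k → F) (j : Fin k) : nF k i0 i1 a b v (.inl (.inl j)) =
    sg F k j * v (.inl (.inr (tw k j)))
        - (if j = i0 then 1 else 0) * (2 * v (.inr 0) + a * v (.inr 1) + v (.inl (.inr i0)))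
        - (if j = i1 then 1 else 0) *
            ((4 * b - a * a) * v (.inr 1) + (4 * b - a * a) * v (.inl (.inr i1))) := rfl

theorem nF_y (v : MI k → F) (j : Fin k) : nF k i0 i1 a b v (.inl (.inr j)) = 0 := rfl

theorem nF_z0 (v : MI k → F) : nF k i0 i1 a b v (.inr 0) =
    v (.inl (.inr i0)) - a * v (.inl (.inr i1)) := rfl

theorem nF_z1 (v : MI k → F) : nF k i0 i1 a b v (.inr 1) = 2 * v (.inl (.inr i1)) := rfl

/-- the nilpotent part as a linear map -/
def nL : (MI k → F) →ₗ[F] (MI k → F) where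
  toFun := nF k i0 i1 a b
  map_add' v w := by
    funext i
    rcases i with (j | j) | t
    · simp only [nF_x, Pi.add_apply]; ring
    · simp only [nF_y, Pi.add_apply]; ring
    · simp only [nF, Sum.elim_inr, Pi.add_apply]; split_ifs <;> ring
  map_smul' c v := by
    funext i
    rcases i with (j | j) | t
    · simp only [nF_x, Pi.smul_apply, smul_eq_mul, RingHom.id_apply]; ring
    · simp only [nF_y, Pi.smul_apply, smul_eq_mul, RingHom.id_apply]; ring
    · simp only [nF, Sum.elim_inr, Pi.smul_apply, smul_eq_mul, RingHom.id_apply]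
      split_ifs <;> ring

theorem nL_apply (v : MI k → F) : nL k i0 i1 a b v = nF k i0 i1 a b v := rfl

/-- the square of `N` as a function of `Y 0`, `Y 1` -/
def sqF (c : Fin 2 → F) : MI k → F :=
  Sum.elim (Sum.elim
      (fun j => -((if j = i0 then 1 else 0) * (2 * c 0))
        - (if j = i1 then 1 else 0) * (2 * (4 * b - a * a) * c 1))
      (fun _ => 0))
    (fun _ => 0)

theorem nF_nF (v : MI k → F) : nF k i0 i1 a b (nF k i0 i1 a b v) =
    sqF k i0 i1 a b (fun t => if t = 0 then v (.inl (.inr i0)) else v (.inl (.inr i1))) := by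
  funext i
  rcases i with (j | j) | t
  · rw [nF_x, nF_y, nF_y, nF_y, nF_z0, nF_z1]
    show _ = -((if j = i0 then 1 else 0) * (2 * v (.inl (.inr i0))))
        - (if j = i1 then 1 else 0) * (2 * (4 * b - a * a) * v (.inl (.inr i1)))
    ring
  · rfl
  · show (if t = 0 then nF k i0 i1 a b v (.inl (.inr i0)) - a * nF k i0 i1 a b v (.inl (.inr i1))
      else 2 * nF k i0 i1 a b v (.inl (.inr i1))) = 0
    rw [nF_y, nF_y]
    split_ifs <;> ring

theorem nF_cube (v : MI k → F) :
    nF k i0 i1 a b (nF k i0 i1 a b (nF k i0 i1 a b v)) = 0 := by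
  rw [nF_nF]
  funext i
  rcases i with (j | j) | t
  · show -((if j = i0 then 1 else 0) * (2 * nF k i0 i1 a b v (.inl (.inr i0))))
        - (if j = i1 then 1 else 0) * (2 * (4 * b - a * a) * nF k i0 i1 a b v (.inl (.inr i1))) = 0
    rw [nF_y, nF_y]
    ring
  · rfl
  · rfl

theorem nL_cube : nL k i0 i1 a b * (nL k i0 i1 a b * nL k i0 i1 a b) = 0 := by
  apply LinearMap.ext
  intro v
  exact nF_cube k i0 i1 a b v

/-- the element -/
def xG : Matrix.GeneralLinearGroup (MI k) F :=
  ⟨LinearMap.toMatrix' (1 + nL k i0 i1 a b),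
    LinearMap.toMatrix' (1 - nL k i0 i1 a b + nL k i0 i1 a b * nL k i0 i1 a b), by
      rw [← LinearMap.toMatrix'_mul]
      have h : (1 + nL k i0 i1 a b) * (1 - nL k i0 i1 a b + nL k i0 i1 a b * nL k i0 i1 a b)
          = 1 + nL k i0 i1 a b * (nL k i0 i1 a b * nL k i0 i1 a b) := by
        rw [add_mul, one_mul, mul_add, mul_sub, mul_one]
        abel
      rw [h, nL_cube, add_zero, LinearMap.toMatrix'_one], by
      rw [← LinearMap.toMatrix'_mul]
      have h : (1 - nL k i0 i1 a b + nL k i0 i1 a b * nL k i0 i1 a b) * (1 + nL k i0 i1 a b)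
          = 1 + nL k i0 i1 a b * (nL k i0 i1 a b * nL k i0 i1 a b) := by
        rw [mul_add, mul_one, add_mul, sub_mul, one_mul, mul_assoc]
        abel
      rw [h, nL_cube, add_zero, LinearMap.toMatrix'_one]⟩

theorem xG_toLin : Matrix.toLin' ((xG k i0 i1 a b : Matrix.GeneralLinearGroup (MI k) F) :
    Matrix (MI k) (MI k) F) - 1 = nL k i0 i1 a b := by
  show Matrix.toLin' (LinearMap.toMatrix' (1 + nL k i0 i1 a b)) - 1 = nL k i0 i1 a b
  rw [Matrix.toLin'_toMatrix', add_sub_cancel_left]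

theorem xG_mulVec (u : MI k → F) :
    ((xG k i0 i1 a b : Matrix.GeneralLinearGroup (MI k) F) : Matrix (MI k) (MI k) F).mulVec u
      = u + nF k i0 i1 a b u := by
  show (LinearMap.toMatrix' (1 + nL k i0 i1 a b)).mulVec u = _
  rw [← Matrix.toLin'_apply, Matrix.toLin'_toMatrix']
  rfl

end Build

section Facts

variable {F : Type u} [Field F] (k : ℕ) (i0 i1 : Fin k) (a b : F)

theorem sg_tw (hk : k % 2 = 0) (i : Fin k) : sg F k (tw k i) = - sg F k i := by
  have h1 := sg_mul_tw (F := F) k hk i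
  have h2 := sg_mul_self (F := F) k i
  linear_combination (sg F k i) * h1 - (sg F k (tw k i)) * h2

theorem alt_sum (hk : k % 2 = 0) (h2 : (2 : F) ≠ 0) (Y : Fin k → F) :
    ∑ i, sg F k i * Y (tw k i) * Y i = 0 := by
  have hinv : Function.Involutive (tw k) := tw_tw k hk
  have h := Function.Bijective.sum_comp hinv.bijective (fun i => sg F k i * Y (tw k i) * Y i)
  have h' : ∑ i, sg F k (tw k i) * Y (tw k (tw k i)) * Y (tw k i)
      = - ∑ i, sg F k i * Y (tw k i) * Y i := by
    rw [← Finset.sum_neg_distrib]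
    apply Finset.sum_congr rfl
    intro i _
    rw [tw_tw k hk, sg_tw k hk]
    ring
  have h3 : (2 : F) * ∑ i, sg F k i * Y (tw k i) * Y i = 0 := by
    linear_combination h' - h
  rcases mul_eq_zero.mp h3 with h4 | h4
  · exact absurd h4 h2
  · exact h4

theorem quad_nF (hk : k % 2 = 0) (h2 : (2 : F) ≠ 0) (u : MI k → F) :
    Cfsg.quadFormMinus k F a b (u + nF k i0 i1 a b u) = Cfsg.quadFormMinus k F a b u := by
  unfold Cfsg.quadFormMinus
  have e : ∀ i : Fin k, (u + nF k i0 i1 a b u) (.inl (.inl i)) *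
      (u + nF k i0 i1 a b u) (.inl (.inr i))
      = u (.inl (.inl i)) * u (.inl (.inr i))
        + sg F k i * u (.inl (.inr (tw k i))) * u (.inl (.inr i))
        - (if i = i0 then (2 * u (.inr 0) + a * u (.inr 1) + u (.inl (.inr i0)))
            * u (.inl (.inr i)) else 0)
        - (if i = i1 then ((4 * b - a * a) * u (.inr 1) + (4 * b - a * a) * u (.inl (.inr i1)))
            * u (.inl (.inr i)) else 0) := by
    intro i
    simp only [Pi.add_apply, nF_x, nF_y]
    split_ifs <;> ring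
  rw [Finset.sum_congr rfl (fun i _ => e i), Finset.sum_sub_distrib, Finset.sum_sub_distrib,
    Finset.sum_add_distrib, Finset.sum_ite_eq', Finset.sum_ite_eq',
    alt_sum k hk h2 (fun i => u (.inl (.inr i)))]
  simp only [Finset.mem_univ, if_true, Pi.add_apply, nF_z0, nF_z1]
  ring

/-- the coordinates `x_j`, `z_t` -/
def gmap : Fin k ⊕ Fin 2 → MI k := Sum.elim (fun j => Sum.inl (Sum.inl j)) (fun t => Sum.inr t)

/-- the inclusion of the coordinates `x_j`, `z_t` -/
def iota : (Fin k ⊕ Fin 2 → F) →ₗ[F] (MI k → F) where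
  toFun w := Sum.elim (Sum.elim (fun j => w (.inl j)) (fun _ => 0)) (fun t => w (.inr t))
  map_add' v w := by
    funext i
    rcases i with (j | j) | t
    · rfl
    · simp
    · rfl
  map_smul' c v := by
    funext i
    rcases i with (j | j) | t
    · rfl
    · simp
    · rfl

theorem iota_inj : Function.Injective (iota (F := F) k) := by
  intro w w' h
  funext i
  rcases i with j | t
  · exact congrFun h (.inl (.inl j))
  · exact congrFun h (.inr t)

theorem finrank_range_comp_eq {V W U : Type*} [AddCommGroup V] [Module F V] [AddCommGroup W]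
    [Module F W] [AddCommGroup U] [Module F U] (f : V →ₗ[F] W) (g : W →ₗ[F] U)
    (hf : Function.Surjective f) (hg : Function.Injective g) :
    finrank F (LinearMap.range (g ∘ₗ f)) = finrank F W := by
  rw [LinearMap.range_comp_of_range_eq_top _ (LinearMap.range_eq_top.mpr hf),
    LinearMap.finrank_range_of_inj hg]

theorem nF_surj (h2 : (2 : F) ≠ 0) (hD : 4 * b - a * a ≠ 0) (hk : k % 2 = 0)
    (hi0 : i0.val = 0) (hi1 : i1.val = 1) (w : Fin k ⊕ Fin 2 → F) :
    ∃ v : MI k → F, (∀ j, nF k i0 i1 a b v (.inl (.inl j)) = w (.inl j)) ∧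
      nF k i0 i1 a b v (.inr 0) = w (.inr 0) ∧ nF k i0 i1 a b v (.inr 1) = w (.inr 1) := by
  have h01 : i0 ≠ i1 := by
    intro h
    rw [h] at hi0
    omega
  have ht0 : tw k i0 = i1 := by
    apply Fin.ext
    rw [tw_val k hk, hi0, hi1]
    simp
  have ht1 : tw k i1 = i0 := by
    apply Fin.ext
    rw [tw_val k hk, hi0, hi1]
    simp
  have hs0 : sg F k i0 = -1 := by
    unfold sg
    rw [hi0]
    simp
  have hs1 : sg F k i1 = 1 := by
    unfold sg
    rw [hi1]
    simp
  have h2i := mul_inv_cancel₀ h2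
  have hDi := mul_inv_cancel₀ hD
  obtain ⟨y1, hy1⟩ : ∃ y1 : F, 2 * y1 = w (.inr 1) :=
    ⟨2⁻¹ * w (.inr 1), by linear_combination w (.inr 1) * h2i⟩
  obtain ⟨y0, hy0⟩ : ∃ y0 : F, y0 - a * y1 = w (.inr 0) := ⟨w (.inr 0) + a * y1, by ring⟩
  obtain ⟨z1, hz1⟩ : ∃ z1 : F, (4 * b - a * a) * z1 + (4 * b - a * a) * y1 = y0 - w (.inl i1) :=
    ⟨(4 * b - a * a)⁻¹ * (y0 - w (.inl i1) - (4 * b - a * a) * y1), by
      linear_combination (y0 - w (.inl i1) - (4 * b - a * a) * y1) * hDi⟩
  obtain ⟨z0, hz0⟩ : ∃ z0 : F, 2 * z0 + a * z1 + y0 = -y1 - w (.inl i0) :=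
    ⟨2⁻¹ * (-y1 - w (.inl i0) - y0 - a * z1), by
      linear_combination (-y1 - w (.inl i0) - y0 - a * z1) * h2i⟩
  obtain ⟨Y, hY⟩ : ∃ Y : Fin k → F, ∀ j, Y j = sg F k (tw k j) * (w (.inl (tw k j))
      + (if tw k j = i0 then 1 else 0) * (-y1 - w (.inl i0))
      + (if tw k j = i1 then 1 else 0) * (y0 - w (.inl i1))) := ⟨_, fun _ => rfl⟩
  have hY0 : Y i0 = y0 := by
    rw [hY, ht0, hs1, if_neg (Ne.symm h01), if_pos rfl]
    ring
  have hY1 : Y i1 = y1 := by
    rw [hY, ht1, hs0, if_pos rfl, if_neg h01]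
    ring
  obtain ⟨v, hvz0, hvz1, hvy⟩ : ∃ v : MI k → F, v (.inr 0) = z0 ∧ v (.inr 1) = z1 ∧
      ∀ j, v (.inl (.inr j)) = Y j :=
    ⟨Sum.elim (Sum.elim (fun _ => 0) Y) (fun t => if t = 0 then z0 else z1), rfl, rfl,
      fun _ => rfl⟩
  refine ⟨v, ?_, ?_, ?_⟩
  · intro j
    rw [nF_x, hvz0, hvz1, hvy, hvy, hvy, hY0, hY1, hY (tw k j), tw_tw k hk j]
    have hss := sg_mul_self (F := F) k j
    linear_combination (w (.inl j) + (if j = i0 then (1 : F) else 0) * (-y1 - w (.inl i0))
      + (if j = i1 then (1 : F) else 0) * (y0 - w (.inl i1))) * hss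
      - (if j = i0 then (1 : F) else 0) * hz0 - (if j = i1 then (1 : F) else 0) * hz1
  · rw [nF_z0, hvy, hvy, hY0, hY1]
    exact hy0
  · rw [nF_z1, hvy, hY1]
    exact hy1

theorem finrank_range_nL (h2 : (2 : F) ≠ 0) (hD : 4 * b - a * a ≠ 0) (hk : k % 2 = 0)
    (hi0 : i0.val = 0) (hi1 : i1.val = 1) :
    finrank F (LinearMap.range (nL k i0 i1 a b)) = k + 2 := by
  have hfac : nL k i0 i1 a b
      = (iota k) ∘ₗ ((LinearMap.funLeft F F (gmap k)) ∘ₗ nL k i0 i1 a b) := by
    apply LinearMap.ext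
    intro v
    funext i
    rcases i with (j | j) | t
    · rfl
    · rfl
    · rfl
  have hsurj : Function.Surjective ((LinearMap.funLeft F F (gmap k)) ∘ₗ nL k i0 i1 a b) := by
    intro w
    obtain ⟨v, hx, hz0, hz1⟩ := nF_surj k i0 i1 a b h2 hD hk hi0 hi1 w
    refine ⟨v, ?_⟩
    funext i
    rcases i with j | t
    · exact hx j
    · have : ∀ t : Fin 2, nF k i0 i1 a b v (.inr t) = w (.inr t) :=
        Fin.forall_fin_two.mpr ⟨hz0, hz1⟩
      exact this t
  rw [hfac, finrank_range_comp_eq _ _ hsurj (iota_inj k), Module.finrank_fintype_fun_eq_card,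
    Fintype.card_sum, Fintype.card_fin, Fintype.card_fin]

/-- `sqF` as a linear map -/
def sqL : (Fin 2 → F) →ₗ[F] (MI k → F) where
  toFun := sqF k i0 i1 a b
  map_add' v w := by
    funext i
    rcases i with (j | j) | t
    · show -((if j = i0 then 1 else 0) * (2 * (v 0 + w 0)))
          - (if j = i1 then 1 else 0) * (2 * (4 * b - a * a) * (v 1 + w 1))
        = (-((if j = i0 then 1 else 0) * (2 * v 0))
          - (if j = i1 then 1 else 0) * (2 * (4 * b - a * a) * v 1))
        + (-((if j = i0 then 1 else 0) * (2 * w 0))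
          - (if j = i1 then 1 else 0) * (2 * (4 * b - a * a) * w 1))
      ring
    · show (0 : F) = 0 + 0
      ring
    · show (0 : F) = 0 + 0
      ring
  map_smul' c v := by
    funext i
    rcases i with (j | j) | t
    · show -((if j = i0 then 1 else 0) * (2 * (c * v 0)))
          - (if j = i1 then 1 else 0) * (2 * (4 * b - a * a) * (c * v 1))
        = c * (-((if j = i0 then 1 else 0) * (2 * v 0))
          - (if j = i1 then 1 else 0) * (2 * (4 * b - a * a) * v 1))
      ring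
    · show (0 : F) = c * 0
      ring
    · show (0 : F) = c * 0
      ring

theorem sqL_inj (h2 : (2 : F) ≠ 0) (hD : 4 * b - a * a ≠ 0) (h01 : i0 ≠ i1) :
    Function.Injective (sqL k i0 i1 a b) := by
  intro c c' h
  have e0 := congrFun h (.inl (.inl i0))
  have e1 := congrFun h (.inl (.inl i1))
  have e0' : -((if i0 = i0 then 1 else 0) * (2 * c 0))
          - (if i0 = i1 then 1 else 0) * (2 * (4 * b - a * a) * c 1)
      = -((if i0 = i0 then 1 else 0) * (2 * c' 0))
          - (if i0 = i1 then 1 else 0) * (2 * (4 * b - a * a) * c' 1) := e0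
  have e1' : -((if i1 = i0 then 1 else 0) * (2 * c 0))
          - (if i1 = i1 then 1 else 0) * (2 * (4 * b - a * a) * c 1)
      = -((if i1 = i0 then 1 else 0) * (2 * c' 0))
          - (if i1 = i1 then 1 else 0) * (2 * (4 * b - a * a) * c' 1) := e1
  rw [if_pos rfl, if_neg h01] at e0'
  rw [if_pos rfl, if_neg (Ne.symm h01)] at e1'
  have hc0 : c 0 = c' 0 := by
    have : (2 : F) * (c 0 - c' 0) = 0 := by linear_combination -e0'
    rcases mul_eq_zero.mp this with h4 | h4
    · exact absurd h4 h2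
    · exact sub_eq_zero.mp h4
  have hc1 : c 1 = c' 1 := by
    have : (2 : F) * ((4 * b - a * a) * (c 1 - c' 1)) = 0 := by linear_combination -e1'
    rcases mul_eq_zero.mp this with h4 | h4
    · exact absurd h4 h2
    · rcases mul_eq_zero.mp h4 with h5 | h5
      · exact absurd h5 hD
      · exact sub_eq_zero.mp h5
  funext t
  have : ∀ t : Fin 2, c t = c' t := Fin.forall_fin_two.mpr ⟨hc0, hc1⟩
  exact this t

/-- the coordinates `y_0`, `y_1` -/
def g2 : Fin 2 → MI k := fun t => if t = 0 then Sum.inl (Sum.inr i0) else Sum.inl (Sum.inr i1)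

theorem finrank_range_sq (h2 : (2 : F) ≠ 0) (hD : 4 * b - a * a ≠ 0) (h01 : i0 ≠ i1) :
    finrank F (LinearMap.range (nL k i0 i1 a b * nL k i0 i1 a b)) = 2 := by
  have hfac : nL k i0 i1 a b * nL k i0 i1 a b
      = (sqL k i0 i1 a b) ∘ₗ (LinearMap.funLeft F F (g2 k i0 i1)) := by
    apply LinearMap.ext
    intro v
    show nF k i0 i1 a b (nF k i0 i1 a b v) = sqF k i0 i1 a b (fun t => v (g2 k i0 i1 t))
    rw [nF_nF]
    congr 1
    funext t
    unfold g2
    split_ifs <;> rfl
  have hsurj : Function.Surjective (LinearMap.funLeft F F (g2 k i0 i1)) := by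
    intro c
    refine ⟨Sum.elim (Sum.elim (fun _ => 0) (fun j => if j = i0 then c 0 else c 1))
      (fun _ => 0), ?_⟩
    funext t
    have : ∀ t : Fin 2, (Sum.elim (Sum.elim (fun _ => 0) (fun j => if j = i0 then c 0 else c 1))
        (fun _ => 0) : MI k → F) (g2 k i0 i1 t) = c t := by
      refine Fin.forall_fin_two.mpr ⟨?_, ?_⟩
      · show (if i0 = i0 then c 0 else c 1) = c 0
        rw [if_pos rfl]
      · show (if i1 = i0 then c 0 else c 1) = c 1
        rw [if_neg (Ne.symm h01)]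
    exact this t
  rw [hfac, finrank_range_comp_eq _ _ hsurj (sqL_inj k i0 i1 a b h2 hD h01),
    Module.finrank_fintype_fun_eq_card, Fintype.card_fin]

end Facts

/-- ND-UEX3M. -/
theorem uex3M : StUex3M.{u} := by
  intro F _ k a b h2 han hk hk2
  have hk' : k % 2 = 0 := Nat.even_iff.mp hk
  obtain ⟨i0, hi0⟩ : ∃ i : Fin k, i.val = 0 := ⟨⟨0, by omega⟩, rfl⟩
  obtain ⟨i1, hi1⟩ : ∃ i : Fin k, i.val = 1 := ⟨⟨1, by omega⟩, rfl⟩
  have h01 : i0 ≠ i1 := by
    intro h
    rw [h] at hi0
    omega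
  have hD : 4 * b - a * a ≠ 0 := by
    intro h
    have := han (-a) 2 (by linear_combination h)
    exact h2 this.2
  refine ⟨xG k i0 i1 a b, ?_, ?_, ?_, ?_⟩
  · intro u v
    show Cfsg.quadFormMinus k F a b
      (((xG k i0 i1 a b : Matrix.GeneralLinearGroup (MI k) F) : Matrix (MI k) (MI k) F).mulVec u)
      = Cfsg.quadFormMinus k F a b u
    rw [xG_mulVec]
    exact quad_nF k i0 i1 a b hk' h2 u
  · rw [xG_toLin, pow_three]
    exact nL_cube k i0 i1 a b
  · rw [xG_toLin]
    exact finrank_range_sq k i0 i1 a b h2 hD h01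
  · rw [xG_toLin, finrank_range_nL k i0 i1 a b h2 hD hk' hi0 hi1]
    ring

example : Cfsg.Agent.H86.Nd.StUex3M.{u} := uex3M

end Cfsg.Agent.Helper55.Nd
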