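import Mathlib
import Cfsg.Agent.H63.BG11Main
import Cfsg.Agent.H29.BG117Defs
import Cfsg.Agent.H38.PiCore
import Cfsg.Agent.S1450
import Cfsg.Agent.S0023
import Cfsg.Agent.S0026

set_option autoImplicit false

/-!
# Bender–Glauberman §11: STEP 4 of helper29's proof of 11.7 (helper55)

`M` exceptional for `p` (with `A`) and for `t > p` (with a normal `Z` of order `t`): then `t`
divides `|C_G(A)|`.
-/

namespace Cfsg.Agent.Helper55.BG117

open Cfsg Subgroup Cfsg.Agent.H58.BG10 Cfsg.Agent.H63.BG11 Cfsg.Agent.H29.BG117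
open scoped Pointwise

universe u

variable {G : Type u} [Group G]

/-- Piece T2 of helper29's BG117 project. -/
theorem excT2 [Finite G] (hG : IsMinSimpleOddOrder G) (hF : StExcFacts G) (hSig : StSigNe G)
    (hD : StClaimD G) (hΩ : StExcOmega G) (hC : StExcComm G) : StExcT2 G := by
  intro M A A₀ p _ hE t _ hpt B Z hEt hZn
  have hpp : p.Prime := Fact.out
  have htp : t.Prime := Fact.out
  have hM := hE.coatom
  haveI : Group.IsSolvable ↥M := hG.2.2.2 M hM.1
  have hodd : Odd (Nat.card ↥M) := Odd.of_dvd_nat hG.1 (Subgroup.card_subgroup_dvd_card M)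
  have hrk : PRankLE p 2 M := (hF M A A₀ p hE).rk2
  have hpM : p ∣ Nat.card M := by
    have h1 : Nat.card A ∣ Nat.card M := Subgroup.card_dvd_of_le hE.le
    rw [hE.card] at h1
    exact (dvd_pow_self p two_ne_zero).trans h1
  have h50 := (Cfsg.Agent.S1450.result hodd p hpM hrk).1
  have htidx : ¬ t ∣ (pPrimeCore p ↥M).index := fun h => absurd (h50 t htp h) (not_le.mpr hpt)
  have htp' : t ≠ p := (ne_of_lt hpt).symm
  -- `K = O_{p'}(M)`
  obtain ⟨K, hKdef⟩ : ∃ K : Subgroup G, K = (pPrimeCore p ↥M).map M.subtype := ⟨_, rfl⟩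
  have hKM : K ≤ M := by rw [hKdef]; exact Subgroup.map_subtype_le _
  have hKcop : (Nat.card K).Coprime p := by
    rw [hKdef, Subgroup.card_map_of_injective M.subtype_injective]
    exact Cfsg.Agent.H38.coprime_card_pPrimeCore p
  have hMK : M ≤ normalizer (K : Set G) := by
    rw [hKdef]; exact Cfsg.Agent.H98.BG11.le_normalizer_map_subtype M (pPrimeCore p ↥M)
  have hAK : A ≤ normalizer (K : Set G) := hE.le.trans hMK
  have hAcop : (Nat.card A).Coprime (Nat.card K) := by
    rw [hE.card]; exact Nat.Coprime.pow_left 2 hKcop.symm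
  have hKsolv : Group.IsSolvable K :=
    solvable_of_solvable_injective (Subgroup.inclusion_injective hKM)
  -- an `A`-invariant Sylow `t`-subgroup `T` of `K`
  obtain ⟨P, hAP⟩ := Cfsg.Agent.S0023.result A K hAK hAcop (Or.inr hKsolv) t
  obtain ⟨T, hTdef⟩ : ∃ T : Subgroup G, T = (P : Subgroup K).map K.subtype := ⟨_, rfl⟩
  rw [← hTdef] at hAP
  have hTK : T ≤ K := by rw [hTdef]; exact Subgroup.map_subtype_le _
  have hTM : T ≤ M := hTK.trans hKM
  have hTp : IsPGroup t T := by rw [hTdef]; exact P.isPGroup'.map _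
  have hTidx : ¬ t ∣ (T.subgroupOf M).index := by
    have h2 : K.subgroupOf M = pPrimeCore p ↥M := by
      rw [hKdef]; exact Subgroup.comap_map_eq_self_of_injective M.subtype_injective _
    have h3 : T.subgroupOf K = (P : Subgroup K) := by
      rw [hTdef]; exact Subgroup.comap_map_eq_self_of_injective K.subtype_injective _
    have h4 : T.relIndex K * K.relIndex M = T.relIndex M :=
      Subgroup.relIndex_mul_relIndex T K M hTK hKM
    unfold Subgroup.relIndex at h4
    intro hdvd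
    rw [← h4, h2, h3] at hdvd
    rcases (Nat.Prime.dvd_mul htp).1 hdvd with h | h
    · exact P.not_dvd_index h
    · exact htidx h
  -- so `T` is a Sylow `t`-subgroup of `M`
  obtain ⟨P', hP'⟩ : ∃ P' : Sylow t M, (P' : Subgroup M) = T.subgroupOf M :=
    ⟨(hTp.comap_subtype (K := M)).toSylow hTidx, IsPGroup.toSylow_coe _ _⟩
  -- a Sylow `t`-subgroup `Q` of `M` containing `B`
  have hBp : IsPGroup t B := by
    intro b
    refine ⟨1, ?_⟩
    have h1 := hEt.elem.2 b b.2
    rw [pow_one]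
    exact Subtype.ext (by simpa using h1)
  obtain ⟨Q, hBQ⟩ := (hBp.comap_subtype (K := M)).exists_le_sylow
  obtain ⟨-, hQch⟩ := hΩ M B Z t hEt Q
  have hBQ' : B ≤ (Q : Subgroup M).map M.subtype := by
    intro x hx
    exact ⟨⟨x, hEt.le hx⟩, hBQ (show (⟨x, hEt.le hx⟩ : M) ∈ B.comap M.subtype from hx), rfl⟩
  have hQch' := hQch hBQ'
  obtain ⟨m, hm⟩ := MulAction.exists_smul_eq M Q P'
  have key1 : ∀ y ∈ T, ∃ x ∈ (Q : Subgroup M).map M.subtype, y = (m : G) * x * (m : G)⁻¹ := by
    intro y hy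
    have h1 : (⟨y, hTM hy⟩ : M) ∈ (P' : Subgroup M) := by
      rw [hP']; exact Subgroup.mem_subgroupOf.2 hy
    rw [← hm, Sylow.coe_subgroup_smul, Subgroup.mem_smul_pointwise_iff_exists] at h1
    obtain ⟨x, hx, hxy⟩ := h1
    refine ⟨(x : G), ⟨x, hx, rfl⟩, ?_⟩
    have h2 := congrArg Subtype.val hxy
    simpa [MulAut.smul_def] using h2.symm
  have key2 : ∀ x : M, x ∈ (Q : Subgroup M) → (m : G) * x * (m : G)⁻¹ ∈ T := by
    intro x hx
    have h1 : MulAut.conj m • x ∈ MulAut.conj m • (Q : Subgroup M) :=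
      Subgroup.smul_mem_pointwise_smul _ _ _ hx
    rw [← Sylow.coe_subgroup_smul, hm, hP'] at h1
    have h2 := Subgroup.mem_subgroupOf.1 h1
    simpa [MulAut.smul_def] using h2
  -- `B' = m B m⁻¹ = Ω₁(T)`
  obtain ⟨B', hB'def⟩ : ∃ B' : Subgroup G, B' = B.map (MulAut.conj (m : G)).toMonoidHom :=
    ⟨_, rfl⟩
  have hB'T : B' ≤ T := by
    rw [hB'def]
    rintro _ ⟨b, hb, rfl⟩
    have h1 := key2 ⟨b, hEt.le hb⟩
      (hBQ (show (⟨b, hEt.le hb⟩ : M) ∈ B.comap M.subtype from hb))
    simpa [MulAut.conj_apply] using h1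
  have hB'char : ∀ y ∈ T, y ^ t = 1 → y ∈ B' := by
    intro y hy hyt
    obtain ⟨x, hx, rfl⟩ := key1 y hy
    rw [conj_pow] at hyt
    have hxt : x ^ t = 1 := by
      have h1 : x ^ t = (m : G)⁻¹ * ((m : G) * x ^ t * (m : G)⁻¹) * (m : G) := by group
      rw [h1, hyt]; group
    have hxB : x ∈ B := (hQch' x hx).1 hxt
    rw [hB'def]
    exact ⟨x, hxB, by simp [MulAut.conj_apply]⟩
  have hB'M : B' ≤ M := hB'T.trans hTM
  have hB'exp : ∀ a ∈ B', a ^ t = 1 := by
    rw [hB'def]
    rintro _ ⟨b, hb, rfl⟩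
    rw [← map_pow, hEt.elem.2 b hb, map_one]
  have hB'el : IsElementaryAbelian t B' := by
    refine ⟨?_, hB'exp⟩
    have : IsMulCommutative B := hEt.elem.1
    rw [hB'def]
    infer_instance
  have hB'card : Nat.card B' = t ^ 2 := by
    rw [hB'def, Subgroup.card_map_of_injective (MulAut.conj (m : G)).injective]
    exact hEt.card
  have hB'p : IsPGroup t B' := hTp.to_le hB'T
  have hZB' : Z ≤ B' := by
    intro z hz
    have h1 := (Subgroup.mem_normalizer_iff.1 (hZn m.2)) ((m : G)⁻¹ * z * (m : G))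
    have h2 : (m : G) * ((m : G)⁻¹ * z * (m : G)) * (m : G)⁻¹ = z := by group
    rw [h2] at h1
    have h3 : (m : G)⁻¹ * z * (m : G) ∈ B := hEt.le₀ (h1.2 hz)
    rw [hB'def]
    exact ⟨_, h3, by simp [MulAut.conj_apply, mul_assoc]⟩
  have hCB' : centralizer (B' : Set G) ≤ M :=
    ((Subgroup.centralizer_le hZB').trans (Subgroup.centralizer_le_normalizer _)).trans hEt.norm
  have hconj : ∀ a ∈ A, ∀ y ∈ B', a * y * a⁻¹ ∈ B' := by
    intro a ha y hy
    apply hB'char
    · exact (Subgroup.mem_normalizer_iff.1 (hAP ha) y).1 (hB'T hy)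
    · rw [conj_pow, hB'exp y hy]; group
  have hAB' : A ≤ normalizer (B' : Set G) := by
    intro a ha
    rw [Subgroup.mem_normalizer_iff]
    intro y
    refine ⟨hconj a ha y, fun h => ?_⟩
    have h1 := hconj a⁻¹ (A.inv_mem ha) _ h
    have h2 : a⁻¹ * (a * y * a⁻¹) * a⁻¹⁻¹ = y := by group
    rwa [h2] at h1
  have hDB := hD M hM t hEt.nsig B' hB'M hB'el hB'card hCB'
  have hCB := hC M A A₀ p hE t hEt.nsig htp' B' hB'M hB'p hAB'
  have hne := hSig M hM
  have hcop' : (Nat.card A).Coprime (Nat.card B') := by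
    rw [hE.card, hB'card]
    exact Nat.Coprime.pow 2 2 ((Nat.coprime_primes hpp htp).2 htp'.symm)
  have hB'solv : Group.IsSolvable B' := by
    have := hB'p.isNilpotent
    infer_instance
  have hS26 := Cfsg.Agent.S0026.result A B' hAB' hcop' (Or.inr hB'solv)
  by_contra hnd
  have hbot : B' ⊓ centralizer (A : Set G) = ⊥ := by
    have hp1 : IsPGroup t ↥(B' ⊓ centralizer (A : Set G)) := hB'p.to_le inf_le_left
    obtain ⟨k, hk⟩ := IsPGroup.iff_card.1 hp1
    have hdvd : Nat.card ↥(B' ⊓ centralizer (A : Set G)) ∣ Nat.card (centralizer (A : Set G)) :=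
      Subgroup.card_dvd_of_le inf_le_right
    rcases Nat.eq_zero_or_pos k with h0 | h0
    · rw [h0, pow_zero] at hk
      exact Subgroup.eq_bot_of_card_eq _ hk
    · exfalso
      apply hnd
      rw [hk] at hdvd
      exact (dvd_pow_self t h0.ne').trans hdvd
  rw [hbot, sup_bot_eq] at hS26
  have h1 : B' ≤ centralizer (sigmaCore M : Set G) := by
    rw [← hS26]; exact hCB
  have h2 : sigmaCore M ≤ centralizer (B' : Set G) := Subgroup.le_centralizer_iff.1 h1
  apply hne
  rw [← hDB]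
  exact (inf_eq_left.2 h2).symm

example [Finite G] (hG : IsMinSimpleOddOrder G) (hF : StExcFacts G) (hSig : StSigNe G)
    (hD : StClaimD G) (hΩ : StExcOmega G) (hC : StExcComm G) :
    ∀ (M A A₀ : Subgroup G) (p : ℕ) [Fact p.Prime], Exc M A A₀ p → ∀ (t : ℕ) [Fact t.Prime],
    p < t → ∀ B Z : Subgroup G, Exc M B Z t → M ≤ normalizer (Z : Set G) →
    t ∣ Nat.card (centralizer (A : Set G)) := excT2 hG hF hSig hD hΩ hC

end Cfsg.Agent.Helper55.BG117
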