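import Mathlib
import Cfsg.Agent.H47.BG139Defs
import Cfsg.Agent.H92.BG123
import Cfsg.Agent.Helper55.PRankOne
import Cfsg.Agent.H57.BG126
import Cfsg.Agent.Lib.Helper30.Trans

set_option autoImplicit false

/-!
# BG139-CYC (helper55, for helper47's team project S1378 = B&G Theorem 13.9)

For `R ≤ M` of order `r ∈ τ₁(M)` and `x ∈ C_{M_α}(R)` of prime order `s` with `C_G(x) ≤ M`:
every `s`-subgroup of `C_G(R)` containing `x` is cyclic.
-/

namespace Cfsg.Agent.Helper55.BG139

open Cfsg Subgroup Cfsg.Agent.H58.BG10 Cfsg.Agent.H47.BG139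

universe u

variable {G : Type u} [Group G]

theorem cyc [Finite G] (hG : IsMinSimpleOddOrder G) (h05 : St1405 G) (h06 : St1406 G)
    (h09 : St1409 G) : StCyc G := by
  intro M hM r R hrM hRM hRc x hxα hxR hs hCx S hS hSR hxS
  haveI : Fact (orderOf x).Prime := ⟨hs⟩
  have hr : r.Prime := hrM.1
  haveI : Fact r.Prime := ⟨hr⟩
  have hx1 : x ≠ 1 := by
    intro h
    rw [h, orderOf_one] at hs
    exact Nat.not_prime_one hs
  have hsα : orderOf x ∈ alpha M :=
    Cfsg.Agent.H92.BG12.mem_of_mem_piCoreOf (π := alpha M) (M := M) hxα hx1 (j := 1)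
      (by rw [pow_one]; exact pow_orderOf_eq_one x)
  have hs2 : orderOf x ≠ 2 := by
    intro h2
    have hd : orderOf x ∣ Nat.card G := orderOf_dvd_natCard x
    rw [h2] at hd
    exact (Nat.not_even_iff_odd.mpr hG.1) (even_iff_two_dvd.mpr hd)
  have hrk1 : PRankLE r 1 M := hrM.2.2.2.2
  -- (a) `C_{M_α}(R)` has rank at most one
  have hrk : RankLE 1 ↥(alphaCore M ⊓ centralizer (R : Set G)) := by
    by_contra hnr
    have hRα : ∀ p : ℕ, p.Prime → p ∣ Nat.card R → p ∉ alpha M := by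
      intro p hp hpd hpα
      rw [hRc] at hpd
      have hpr : p = r := (Nat.prime_dvd_prime_iff_eq hp hr).mp hpd
      apply hpα.2
      rw [hpr]
      intro A hAc hAe
      have h1 := hrk1 A hAc hAe
      have h2 : r ^ 1 ≤ r ^ 2 := Nat.pow_le_pow_right hr.pos (by norm_num)
      exact h1.trans h2
    have hU := h06 M hM R hRM hRα hnr
    have hR1 : R ≠ ⊥ := by
      intro h
      rw [h, Subgroup.card_bot] at hRc
      exact hr.one_lt.ne hRc
    have hRT : R ≠ ⊤ := by
      intro h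
      apply hM.1
      rw [eq_top_iff, ← h]
      exact hRM
    have hNR : normalizer (R : Set G) ≠ ⊤ :=
      Cfsg.Agent.Lib.Helper30.minSimple_normalizer_ne_top hG hR1 hRT
    obtain ⟨L, hL, hNL⟩ := Cfsg.Agent.H57.BG12.exists_coatom_ge hNR
    have hLM : L = M := by
      apply hU.unique ⟨hL, ?_⟩ ⟨hM, inf_le_left⟩
      exact inf_le_right.trans ((Subgroup.centralizer_le_normalizer _).trans hNL)
    rw [hLM] at hNL
    exact (h09 M hM r hrM.2.1 R hRc hNL).1.2 hrk1
  -- (b) an element `z0` of order `s` in the centre of `S`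
  haveI : Nontrivial ↥S := ⟨⟨⟨x, hxS⟩, 1, fun h => hx1 (congrArg Subtype.val h)⟩⟩
  haveI : Nontrivial ↥(center ↥S) := hS.center_nontrivial
  have hcd : orderOf x ∣ Nat.card ↥(center ↥S) := by
    have hZ : IsPGroup (orderOf x) ↥(center ↥S) := hS.to_subgroup _
    obtain ⟨n, hn⟩ := IsPGroup.iff_card.mp hZ
    rw [hn]
    rcases Nat.eq_zero_or_pos n with h0 | h0
    · exfalso
      rw [h0, pow_zero] at hn
      have : Subsingleton ↥(center ↥S) := (Nat.card_eq_one_iff_unique.mp hn).1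
      exact not_subsingleton _ this
    · exact dvd_pow_self _ (Nat.pos_iff_ne_zero.mp h0)
  obtain ⟨z0, hz0⟩ := exists_prime_orderOf_dvd_card' (orderOf x) hcd
  have hz0ord : orderOf (((z0 : ↥S) : G)) = orderOf x := by
    rw [Subgroup.orderOf_coe, Subgroup.orderOf_coe]
    exact hz0
  have hz0S : ((z0 : ↥S) : G) ∈ S := (z0 : ↥S).2
  have hz0c : ∀ y ∈ S, y * ((z0 : ↥S) : G) = ((z0 : ↥S) : G) * y := by
    intro y hy
    have h1 := (Subgroup.mem_center_iff.mp z0.2) ⟨y, hy⟩
    exact congrArg Subtype.val h1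
  -- `z0 ∈ M_α ∩ C(R)`
  have hz0M : ((z0 : ↥S) : G) ∈ M := by
    apply hCx
    rw [mem_centralizer_iff]
    intro w hw
    obtain ⟨k, rfl⟩ := mem_zpowers_iff.mp hw
    have hcm : Commute x ((z0 : ↥S) : G) := hz0c x hxS
    exact (hcm.zpow_left k).eq
  have hz0α : ((z0 : ↥S) : G) ∈ alphaCore M := by
    have hz : IsPGroup (orderOf x) (zpowers ((z0 : ↥S) : G)) :=
      IsPGroup.of_card (n := 1) (by rw [Nat.card_zpowers, hz0ord, pow_one])
    exact Cfsg.Agent.H92.BG12.le_alphaCore_of_mem h05 hM hsα hz ((zpowers_le).mpr hz0M)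
      (mem_zpowers _)
  have hz0R : ((z0 : ↥S) : G) ∈ centralizer (R : Set G) := hSR hz0S
  -- `x` and `z0` generate an elementary abelian subgroup of `C_{M_α}(R)`: it has order `s`
  have hxmem : x ∈ alphaCore M ⊓ centralizer (R : Set G) := Subgroup.mem_inf.mpr ⟨hxα, hxR⟩
  have hzmem : ((z0 : ↥S) : G) ∈ alphaCore M ⊓ centralizer (R : Set G) :=
    Subgroup.mem_inf.mpr ⟨hz0α, hz0R⟩
  have hxs : (⟨x, hxmem⟩ : ↥(alphaCore M ⊓ centralizer (R : Set G))) ^ orderOf x = 1 := by
    apply Subtype.ext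
    simpa using pow_orderOf_eq_one x
  have hzs : (⟨((z0 : ↥S) : G), hzmem⟩ : ↥(alphaCore M ⊓ centralizer (R : Set G))) ^ orderOf x
      = 1 := by
    apply Subtype.ext
    have := pow_orderOf_eq_one ((z0 : ↥S) : G)
    rw [hz0ord] at this
    simpa using this
  have hcomm : Commute (⟨x, hxmem⟩ : ↥(alphaCore M ⊓ centralizer (R : Set G)))
      ⟨((z0 : ↥S) : G), hzmem⟩ := by
    apply Subtype.ext
    exact hz0c x hxS
  obtain ⟨A, hAc, hAe, hxA, hzA⟩ := Cfsg.Agent.Helper55.exists_elemAb_of_commute hxs hzs hcomm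
  have hAcard : Nat.card A ≤ orderOf x ^ 1 := hrk (orderOf x) hs A hAc hAe
  rw [pow_one] at hAcard
  -- `z0 ∈ ⟨x⟩`
  have hxord' : orderOf (⟨x, hxmem⟩ : ↥(alphaCore M ⊓ centralizer (R : Set G))) = orderOf x :=
    Subgroup.orderOf_mk x hxmem
  have hzle : zpowers (⟨x, hxmem⟩ : ↥(alphaCore M ⊓ centralizer (R : Set G))) ≤ A :=
    (zpowers_le).mpr hxA
  have hzeq : zpowers (⟨x, hxmem⟩ : ↥(alphaCore M ⊓ centralizer (R : Set G))) = A := by
    apply Subgroup.eq_of_le_of_card_ge hzle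
    rw [Nat.card_zpowers, hxord']
    exact hAcard
  have hz0x : ((z0 : ↥S) : G) ∈ zpowers x := by
    rw [← hzeq] at hzA
    obtain ⟨k, hk⟩ := mem_zpowers_iff.mp hzA
    have hk' : x ^ k = ((z0 : ↥S) : G) := by
      have := congrArg Subtype.val hk
      simpa using this
    rw [← hk']
    exact zpow_mem (mem_zpowers x) k
  -- `x ∈ ⟨z0⟩`
  have hxz0 : x ∈ zpowers ((z0 : ↥S) : G) := by
    have hle : zpowers ((z0 : ↥S) : G) ≤ zpowers x := (zpowers_le).mpr hz0x
    have heq : zpowers ((z0 : ↥S) : G) = zpowers x := by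
      apply Subgroup.eq_of_le_of_card_ge hle
      rw [Nat.card_zpowers, Nat.card_zpowers, hz0ord]
    rw [heq]
    exact mem_zpowers x
  -- `x` is central in `S`, so `S ≤ C_G(x) ≤ M`
  have hxc : ∀ y ∈ S, y * x = x * y := by
    intro y hy
    obtain ⟨k, hk⟩ := mem_zpowers_iff.mp hxz0
    rw [← hk]
    have hcm : Commute y ((z0 : ↥S) : G) := hz0c y hy
    exact (hcm.zpow_right k).eq
  have hSM : S ≤ M := by
    intro y hy
    apply hCx
    rw [mem_centralizer_iff]
    intro w hw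
    obtain ⟨k, rfl⟩ := mem_zpowers_iff.mp hw
    have hcm : Commute x y := (hxc y hy).symm
    exact (hcm.zpow_left k).eq
  have hSα : S ≤ alphaCore M := Cfsg.Agent.H92.BG12.le_alphaCore_of_mem h05 hM hsα hS hSM
  have hSle : S ≤ alphaCore M ⊓ centralizer (R : Set G) := le_inf hSα hSR
  -- `S` has `s`-rank one, hence is cyclic
  have hrkS : PRankLE (orderOf x) 1 ↥S := by
    intro B hBc hBe
    have hinj : Function.Injective (Subgroup.inclusion hSle) := Subgroup.inclusion_injective hSle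
    have hcomm' : IsMulCommutative (B.map (Subgroup.inclusion hSle)) := by
      refine ⟨⟨fun a b => ?_⟩⟩
      obtain ⟨a', ha', haa⟩ := Subgroup.mem_map.mp a.2
      obtain ⟨b', hb', hbb⟩ := Subgroup.mem_map.mp b.2
      apply Subtype.ext
      simp only [Subgroup.coe_mul]
      rw [← haa, ← hbb, ← map_mul, ← map_mul]
      have h1 := hBc.is_comm.comm (⟨a', ha'⟩ : B) ⟨b', hb'⟩
      have h2 : a' * b' = b' * a' := congrArg Subtype.val h1
      rw [h2]
    have hexp' : ∀ a ∈ B.map (Subgroup.inclusion hSle), a ^ orderOf x = 1 := by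
      intro a ha
      obtain ⟨a', ha', rfl⟩ := Subgroup.mem_map.mp ha
      rw [← map_pow, hBe a' ha', map_one]
    have h1 := hrk (orderOf x) hs (B.map (Subgroup.inclusion hSle)) hcomm' hexp'
    have h2 : Nat.card (B.map (Subgroup.inclusion hSle)) = Nat.card B :=
      (Nat.card_congr (B.equivMapOfInjective _ hinj).toEquiv).symm
    rw [h2] at h1
    exact h1
  exact Cfsg.Agent.Helper55.isCyclic_of_pRankLE_one hs2 hS hrkS

example [Finite G] (hG : IsMinSimpleOddOrder G) (h05 : St1405 G) (h06 : St1406 G)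
    (h09 : St1409 G) :
    ∀ (M : Subgroup G), IsCoatom M → ∀ (r : ℕ) (R : Subgroup G), r ∈ tau1 M → R ≤ M →
    Nat.card R = r → ∀ x : G, x ∈ alphaCore M → x ∈ centralizer (R : Set G) →
    (orderOf x).Prime → centralizer ((zpowers x : Subgroup G) : Set G) ≤ M →
    ∀ S : Subgroup G, IsPGroup (orderOf x) S → S ≤ centralizer (R : Set G) → x ∈ S →
      IsCyclic S :=
  cyc hG h05 h06 h09

end Cfsg.Agent.Helper55.BG139
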