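import Mathlib
import Cfsg.Agent.H47.BG139Defs
import Cfsg.Agent.H63.Sig
import Cfsg.Agent.H92.BG123
import Cfsg.Agent.H47.BG1216Main
import Cfsg.Agent.Lib.Helper30.CoprimeIface
import Cfsg.Agent.H7.BG12TSigN

set_option autoImplicit false

/-!
# BG139-FINAL (helper55, for helper47's team project S1378 = B&G Theorem 13.9)

In a configuration `SCfg M N Q q` with `R ≤ N_G(Q)` of order `r ∈ τ₁(M) ∩ τ₁(N)` and
`C_Q(R) = 1`: no nontrivial `x ∈ C_{M_α}(R)` of order in `α(M)` with `C_G(x) ≤ M` lies in a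
conjugate `c N c⁻¹`, `c ∈ C_G(R)`.
-/

namespace Cfsg.Agent.Helper55.BG139

open Cfsg Subgroup Cfsg.Agent.H58.BG10 Cfsg.Agent.H63.Sig Cfsg.Agent.H47.BG139
open scoped Pointwise

universe u

variable {G : Type u} [Group G]

/-- `N_G(g H g⁻¹) = g N_G(H) g⁻¹`, elementwise. -/
theorem mem_normalizer_cj_iff {g n : G} {H : Subgroup G} :
    n ∈ normalizer ((MulAut.conj g • H : Subgroup G) : Set G) ↔
      g⁻¹ * n * g ∈ normalizer (H : Set G) := by
  rw [mem_normalizer_iff, mem_normalizer_iff]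
  constructor
  · intro hn z
    have h1 := hn (g * z * g⁻¹)
    rw [mem_cj, mem_cj] at h1
    have e1 : g⁻¹ * (g * z * g⁻¹) * g = z := by group
    have e2 : g⁻¹ * (n * (g * z * g⁻¹) * n⁻¹) * g = g⁻¹ * n * g * z * (g⁻¹ * n * g)⁻¹ := by group
    rw [e1, e2] at h1
    exact h1
  · intro hn y
    have h1 := hn (g⁻¹ * y * g)
    rw [mem_cj, mem_cj]
    have e2 : g⁻¹ * n * g * (g⁻¹ * y * g) * (g⁻¹ * n * g)⁻¹ = g⁻¹ * (n * y * n⁻¹) * g := by group
    rw [e2] at h1
    exact h1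

theorem orderOf_conj_inv (g x : G) : orderOf (g⁻¹ * x * g) = orderOf x := by
  have h := orderOf_injective (MulAut.conj g⁻¹).toMonoidHom (MulAut.conj g⁻¹).injective x
  have e : (MulAut.conj g⁻¹).toMonoidHom x = g⁻¹ * x * g := by
    simp [MulAut.conj_apply]
  rw [e] at h
  exact h

/-- Conjugate Sylow subgroups of a subgroup `K`, seen in `G`. -/
theorem map_eq_cj_of_smul_eq {q : ℕ} {K : Subgroup G} (P₁ P₂ : Sylow q K) (u : K)
    (h : MulAut.conj u • P₁ = P₂) :
    (P₂ : Subgroup K).map K.subtype =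
      MulAut.conj (u : G) • ((P₁ : Subgroup K).map K.subtype) := by
  ext y
  constructor
  · intro hy
    obtain ⟨y', hy', rfl⟩ := Subgroup.mem_map.mp hy
    rw [← h] at hy'
    have hy'' : y' ∈ MulAut.conj u • (P₁ : Subgroup K) := hy'
    rw [Subgroup.mem_pointwise_smul_iff_inv_smul_mem] at hy''
    rw [mem_cj]
    refine Subgroup.mem_map.mpr ⟨_, hy'', ?_⟩
    simp [MulAut.smul_def, mul_assoc]
  · intro hy
    rw [mem_cj] at hy
    obtain ⟨w, hw, hwy⟩ := Subgroup.mem_map.mp hy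
    have h1 : MulAut.conj u • w ∈ MulAut.conj u • (P₁ : Subgroup K) :=
      Subgroup.smul_mem_pointwise_smul w (MulAut.conj u) _ hw
    have h2 : MulAut.conj u • w ∈ (P₂ : Subgroup K) := by
      rw [← h]
      exact h1
    refine Subgroup.mem_map.mpr ⟨_, h2, ?_⟩
    have hwy' : (w : G) = (u : G)⁻¹ * y * (u : G) := hwy
    simp only [MulAut.smul_def, MulAut.conj_apply, Subgroup.coe_subtype, Subgroup.coe_mul,
      Subgroup.coe_inv]
    rw [hwy']
    group

theorem final [Finite G] (hG : IsMinSimpleOddOrder G) (h03 : St1403 G) (h05 : St1405 G)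
    (h50 : St1350 G) (hAl : StAlpha G) (hLR : Cfsg.Agent.Lib.Helper30.BG134.StLR G) :
    StFinal G := by
  intro M N Q q h r R hrM hrN hRD hRc hQR c x hcR hxα hx1 hxR hsα hCx hxN'
  have hq : q.Prime := h.hq
  haveI : Fact q.Prime := ⟨hq⟩
  have hs : (orderOf x).Prime := hsα.1
  haveI : Fact (orderOf x).Prime := ⟨hs⟩
  have hr : r.Prime := hrM.1
  obtain ⟨hqα, hMα, -⟩ := hAl M N Q q h
  have hQD : Q ≤ normalizer (Q : Set G) := le_normalizer
  have hQM : Q ≤ M := hQD.trans h.hNM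
  have hQN : Q ≤ N := hQD.trans h.hNN
  have hσN : sigmaCore N ≤ N := Cfsg.Agent.Lib.Helper30.piCoreOf_le (sigma N) N
  -- `Q ≤ N_σ`
  have hQσN : Q ≤ sigmaCore N := by
    apply Cfsg.Agent.H47.BG12.le_sigmaCore_of_pi h50 h.hN hQN
    intro p hp hpd
    obtain ⟨n, hn⟩ := (IsPGroup.iff_card.mp h.hQq)
    rw [hn] at hpd
    have hpq : p = q := (Nat.prime_dvd_prime_iff_eq hp hq).mp (hp.dvd_of_dvd_pow hpd)
    rw [hpq]
    exact h.hqN
  -- the conjugate `N' = c N c⁻¹` and `K = c N_σ c⁻¹`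
  have hN' : IsCoatom (MulAut.conj c • N) := isCoatom_cj c h.hN
  have hKN' : MulAut.conj c • sigmaCore N ≤ MulAut.conj c • N := cj_mono c hσN
  have hN'K : MulAut.conj c • N ≤
      normalizer ((MulAut.conj c • sigmaCore N : Subgroup G) : Set G) := by
    intro n hn
    rw [mem_normalizer_cj_iff]
    rw [mem_cj] at hn
    exact Cfsg.Agent.Lib.Helper30.le_normalizer_piCoreOf (sigma N) N hn
  have hccomm : ∀ ρ ∈ R, c⁻¹ * ρ * c = ρ := by
    intro ρ hρ
    have := (mem_centralizer_iff.mp hcR) ρ hρ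
    rw [mul_assoc, this]
    group
  have hRN' : R ≤ MulAut.conj c • N := by
    intro ρ hρ
    rw [mem_cj, hccomm ρ hρ]
    exact h.hNN (hRD hρ)
  have hRM : R ≤ M := hRD.trans h.hNM
  -- `F = ⟨x⟩ R`
  have hRx : R ≤ normalizer ((zpowers x : Subgroup G) : Set G) := by
    intro ρ hρ
    rw [mem_normalizer_iff]
    intro y
    have hc : ρ * x = x * ρ := (mem_centralizer_iff.mp hxR) ρ hρ
    have hcm : Commute ρ x := hc
    constructor
    · intro hy
      obtain ⟨k, rfl⟩ := mem_zpowers_iff.mp hy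
      have : ρ * x ^ k * ρ⁻¹ = x ^ k := by
        rw [(hcm.zpow_right k).eq]
        group
      rw [this]
      exact zpow_mem (mem_zpowers x) k
    · intro hy
      obtain ⟨k, hk⟩ := mem_zpowers_iff.mp hy
      have : y = x ^ k := by
        have h1 : y = ρ⁻¹ * (ρ * y * ρ⁻¹) * ρ := by group
        rw [h1, ← hk]
        have h2 : ρ⁻¹ * x ^ k * ρ = x ^ k := by
          have := (hcm.zpow_right k).eq
          calc ρ⁻¹ * x ^ k * ρ = ρ⁻¹ * (x ^ k * ρ) := by group
            _ = ρ⁻¹ * (ρ * x ^ k) := by rw [this]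
            _ = x ^ k := by group
        exact h2
      rw [this]
      exact zpow_mem (mem_zpowers x) k
  have hFN' : zpowers x ⊔ R ≤ MulAut.conj c • N :=
    sup_le ((zpowers_le).mpr hxN') hRN'
  have hFK : zpowers x ⊔ R ≤
      normalizer ((MulAut.conj c • sigmaCore N : Subgroup G) : Set G) := hFN'.trans hN'K
  have hFexp : ∀ f ∈ zpowers x ⊔ R, f ^ (orderOf x * r) = 1 := by
    intro f hf
    have hf' : f ∈ ((zpowers x ⊔ R : Subgroup G) : Set G) := hf
    rw [Subgroup.coe_mul_of_right_le_normalizer_left (zpowers x) R hRx] at hf'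
    obtain ⟨a, ha, ρ, hρ, rfl⟩ := hf'
    obtain ⟨k, rfl⟩ := mem_zpowers_iff.mp ha
    have hcm : Commute (x ^ k) ρ := by
      have hc : ρ * x = x * ρ := (mem_centralizer_iff.mp hxR) ρ hρ
      have hcm : Commute ρ x := hc
      exact (hcm.zpow_right k).symm
    have h1 : (x ^ k) ^ (orderOf x * r) = 1 := by
      rw [← zpow_natCast, ← zpow_mul, mul_comm, zpow_mul, zpow_natCast, pow_mul,
        pow_orderOf_eq_one, one_pow, one_zpow]
    have h2 : ρ ^ (orderOf x * r) = 1 := by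
      have h3 : (⟨ρ, hρ⟩ : R) ^ Nat.card R = 1 := pow_card_eq_one'
      rw [hRc] at h3
      have h4 : ρ ^ r = 1 := by
        have := congrArg Subtype.val h3
        simpa using this
      rw [mul_comm, pow_mul, h4, one_pow]
    show (x ^ k * ρ) ^ (orderOf x * r) = 1
    rw [hcm.mul_pow, h1, h2, one_mul]
  -- `s ∉ σ(N)`, `r ∉ σ(N)`
  have hsσN : orderOf x ∉ sigma N := by
    intro hsσ
    obtain ⟨g, hg⟩ := Cfsg.Agent.H92.BG12.conj_of_alpha_sigma hG h03 h.hM h.hN hsα hsσ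
    apply h.hnc g⁻¹
    rw [hg, cj_inv_cj]
  have hrσN : r ∉ sigma N := hrN.2.1
  have hKcard : Nat.card (MulAut.conj c • sigmaCore N : Subgroup G) = Nat.card (sigmaCore N) :=
    card_cj c (sigmaCore N)
  have hKprime : ∀ p : ℕ, p.Prime →
      p ∣ Nat.card (MulAut.conj c • sigmaCore N : Subgroup G) → p ∈ sigma N := by
    intro p hp hpd
    rw [hKcard] at hpd
    exact (h50 N h.hN).1.2.1 p hp hpd
  have hcopF : (Nat.card (zpowers x ⊔ R : Subgroup G)).Coprime
      (Nat.card (MulAut.conj c • sigmaCore N : Subgroup G)) := by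
    apply Nat.coprime_of_dvd
    intro p hp hp1 hp2
    haveI : Fact p.Prime := ⟨hp⟩
    obtain ⟨f, hf⟩ := exists_prime_orderOf_dvd_card' p hp1
    have h1 : (f : G) ^ (orderOf x * r) = 1 := hFexp f f.2
    have h2 : orderOf (f : G) ∣ orderOf x * r := orderOf_dvd_of_pow_eq_one h1
    rw [Subgroup.orderOf_coe, hf] at h2
    rcases (Nat.Prime.dvd_mul hp).mp h2 with h3 | h3
    · have : p = orderOf x := (Nat.prime_dvd_prime_iff_eq hp hs).mp h3
      exact hsσN (this ▸ hKprime p hp hp2)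
    · have : p = r := (Nat.prime_dvd_prime_iff_eq hp hr).mp h3
      exact hrσN (this ▸ hKprime p hp hp2)
  have hcopR : (Nat.card R).Coprime
      (Nat.card (MulAut.conj c • sigmaCore N : Subgroup G)) := by
    rw [hRc]
    apply (Nat.Prime.coprime_iff_not_dvd hr).mpr
    intro hd
    exact hrσN (hKprime r hr hd)
  have hKtop : (MulAut.conj c • sigmaCore N : Subgroup G) ≠ ⊤ := by
    intro hK
    apply hN'.1
    rw [eq_top_iff, ← hK]
    exact hKN'
  have hsolv : Group.IsSolvable ↥(zpowers x ⊔ R : Subgroup G) ∨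
      Group.IsSolvable ↥(MulAut.conj c • sigmaCore N : Subgroup G) := Or.inr (hG.2.2.2 _ hKtop)
  have hsolvR : Group.IsSolvable ↥R ∨
      Group.IsSolvable ↥(MulAut.conj c • sigmaCore N : Subgroup G) := Or.inr (hG.2.2.2 _ hKtop)
  have hRK : R ≤ normalizer ((MulAut.conj c • sigmaCore N : Subgroup G) : Set G) :=
    le_sup_right.trans hFK
  -- an `F`-invariant Sylow `q`-subgroup of `K`
  obtain ⟨P₂, hP₂⟩ := Cfsg.Agent.Lib.Helper30.coprime_exists_invariant_sylow
    (zpowers x ⊔ R) (MulAut.conj c • sigmaCore N) hFK hcopF hsolv q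
  -- `Q' = c Q c⁻¹` as a Sylow `q`-subgroup of `K`
  have hQ'K : MulAut.conj c • Q ≤ MulAut.conj c • sigmaCore N := cj_mono c hQσN
  have hidx : ∀ g : G, ¬ q ∣ (MulAut.conj g • Q : Subgroup G).index := by
    intro g
    have h1 : (MulAut.conj g • Q : Subgroup G).index * Nat.card (MulAut.conj g • Q : Subgroup G)
        = Q.index * Nat.card Q := by
      rw [Subgroup.index_mul_card, Subgroup.index_mul_card]
    rw [card_cj g Q] at h1
    have h2 : (MulAut.conj g • Q : Subgroup G).index = Q.index :=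
      Nat.eq_of_mul_eq_mul_right Nat.card_pos h1
    rw [h2]
    exact h.hQi
  let TQ' : Sylow q G := (isPGroup_cj c h.hQq).toSylow (hidx c)
  have hTQ' : (TQ' : Subgroup G) = MulAut.conj c • Q := rfl
  have hTQ'K : (TQ' : Subgroup G) ≤ MulAut.conj c • sigmaCore N := hQ'K
  have hP'map : ((TQ'.subtype hTQ'K : Sylow q ↥(MulAut.conj c • sigmaCore N)) :
      Subgroup ↥(MulAut.conj c • sigmaCore N)).map
        (MulAut.conj c • sigmaCore N : Subgroup G).subtype = MulAut.conj c • Q := by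
    rw [Sylow.coe_subtype, Subgroup.map_subgroupOf_eq_of_le hTQ'K]
    rfl
  have hRQ' : R ≤ normalizer ((MulAut.conj c • Q : Subgroup G) : Set G) := by
    intro ρ hρ
    rw [mem_normalizer_cj_iff, hccomm ρ hρ]
    exact hRD hρ
  have hP'R : R ≤ normalizer ((((TQ'.subtype hTQ'K : Sylow q ↥(MulAut.conj c • sigmaCore N)) :
      Subgroup ↥(MulAut.conj c • sigmaCore N)).map
        (MulAut.conj c • sigmaCore N : Subgroup G).subtype : Subgroup G) : Set G) := by
    rw [hP'map]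
    exact hRQ'
  have hP₂R : R ≤ normalizer (((P₂ : Subgroup ↥(MulAut.conj c • sigmaCore N)).map
      (MulAut.conj c • sigmaCore N : Subgroup G).subtype : Subgroup G) : Set G) :=
    le_sup_right.trans hP₂
  obtain ⟨u, huR, huP⟩ := Cfsg.Agent.Lib.Helper30.coprime_invariant_sylow_conj R
    (MulAut.conj c • sigmaCore N) hRK hcopR hsolvR q (TQ'.subtype hTQ'K) P₂ hP'R hP₂R
  -- `Q₂ = g Q g⁻¹` with `g = u c`
  have hQ₂ : (P₂ : Subgroup ↥(MulAut.conj c • sigmaCore N)).map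
      (MulAut.conj c • sigmaCore N : Subgroup G).subtype = MulAut.conj ((u : G) * c) • Q := by
    rw [map_eq_cj_of_smul_eq (TQ'.subtype hTQ'K) P₂ u huP, hP'map, cj_mul]
  rw [hQ₂] at hP₂ hP₂R
  have hgR : (u : G) * c ∈ centralizer (R : Set G) := mul_mem huR hcR
  have huN' : (u : G) ∈ MulAut.conj c • N := hKN' u.2
  -- `x` normalizes `Q₂`, so `x₁ = g⁻¹ x g ∈ N_G(Q)`
  have hxF : x ∈ zpowers x ⊔ R := (le_sup_left : zpowers x ≤ _) (mem_zpowers x)
  have hx₁D : ((u : G) * c)⁻¹ * x * ((u : G) * c) ∈ normalizer (Q : Set G) :=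
    mem_normalizer_cj_iff.mp (hP₂ hxF)
  have hx₁M : ((u : G) * c)⁻¹ * x * ((u : G) * c) ∈ M := h.hNM hx₁D
  have hx₁ord : orderOf (((u : G) * c)⁻¹ * x * ((u : G) * c)) = orderOf x := by
    exact orderOf_conj_inv ((u : G) * c) x
  have hx₁α : ((u : G) * c)⁻¹ * x * ((u : G) * c) ∈ alphaCore M := by
    have hz : IsPGroup (orderOf x) (zpowers (((u : G) * c)⁻¹ * x * ((u : G) * c))) :=
      IsPGroup.of_card (n := 1) (by rw [Nat.card_zpowers, hx₁ord, pow_one])
    have := Cfsg.Agent.H92.BG12.le_alphaCore_of_mem h05 h.hM hsα hz ((zpowers_le).mpr hx₁M)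
    exact this (mem_zpowers _)
  -- `x₁` centralizes `Q`
  have hx₁Q : ∀ z ∈ Q, ((u : G) * c)⁻¹ * x * ((u : G) * c) * z =
      z * (((u : G) * c)⁻¹ * x * ((u : G) * c)) := by
    intro z hz
    by_contra hne
    have hcQ : ((u : G) * c)⁻¹ * x * ((u : G) * c) * z *
        (((u : G) * c)⁻¹ * x * ((u : G) * c))⁻¹ * z⁻¹ ∈ Q :=
      mul_mem ((mem_normalizer_iff.mp hx₁D z).mp hz) (inv_mem hz)
    have hcα : ((u : G) * c)⁻¹ * x * ((u : G) * c) * z *
        (((u : G) * c)⁻¹ * x * ((u : G) * c))⁻¹ * z⁻¹ ∈ alphaCore M := by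
      have hzn : z ∈ normalizer (alphaCore M : Set G) :=
        Cfsg.Agent.Lib.Helper30.le_normalizer_piCoreOf (alpha M) M (hQM hz)
      have h1 : z * (((u : G) * c)⁻¹ * x * ((u : G) * c))⁻¹ * z⁻¹ ∈ alphaCore M :=
        (mem_normalizer_iff.mp hzn _).mp (inv_mem hx₁α)
      have h2 := mul_mem hx₁α h1
      have e : ((u : G) * c)⁻¹ * x * ((u : G) * c) * z *
          (((u : G) * c)⁻¹ * x * ((u : G) * c))⁻¹ * z⁻¹ =
          ((u : G) * c)⁻¹ * x * ((u : G) * c) *
            (z * (((u : G) * c)⁻¹ * x * ((u : G) * c))⁻¹ * z⁻¹) := by group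
      rw [e]
      exact h2
    have hc1 : ((u : G) * c)⁻¹ * x * ((u : G) * c) * z *
        (((u : G) * c)⁻¹ * x * ((u : G) * c))⁻¹ * z⁻¹ ≠ 1 := by
      intro h1
      apply hne
      have h2 := mul_inv_eq_one.mp h1
      have h3 := mul_inv_eq_iff_eq_mul.mp h2
      exact h3
    obtain ⟨j, hj⟩ := h.hQq ⟨_, hcQ⟩
    have hj' : (((u : G) * c)⁻¹ * x * ((u : G) * c) * z *
        (((u : G) * c)⁻¹ * x * ((u : G) * c))⁻¹ * z⁻¹) ^ q ^ j = 1 := by
      have := congrArg Subtype.val hj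
      simpa using this
    exact hqα (Cfsg.Agent.H92.BG12.mem_of_mem_piCoreOf hcα hc1 hj')
  -- `x` centralizes `Q₂`, hence `Q₂ ≤ M`
  have hxQ₂ : ∀ y ∈ (MulAut.conj ((u : G) * c) • Q : Subgroup G), x * y = y * x := by
    intro y hy
    rw [mem_cj] at hy
    have h1 := hx₁Q _ hy
    have e1 : x * y = ((u : G) * c) * ((((u : G) * c)⁻¹ * x * ((u : G) * c)) *
        (((u : G) * c)⁻¹ * y * ((u : G) * c))) * ((u : G) * c)⁻¹ := by group
    have e2 : y * x = ((u : G) * c) * ((((u : G) * c)⁻¹ * y * ((u : G) * c)) *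
        (((u : G) * c)⁻¹ * x * ((u : G) * c))) * ((u : G) * c)⁻¹ := by group
    rw [e1, e2, h1]
  have hQ₂M : (MulAut.conj ((u : G) * c) • Q : Subgroup G) ≤ M := by
    intro y hy
    apply hCx
    rw [mem_centralizer_iff]
    intro w hw
    obtain ⟨k, rfl⟩ := mem_zpowers_iff.mp hw
    have hcm : Commute x y := hxQ₂ y hy
    exact (hcm.zpow_left k).eq
  -- `N_G(Q₂) ≤ N'`
  have hNQ₂N' : normalizer ((MulAut.conj ((u : G) * c) • Q : Subgroup G) : Set G) ≤
      MulAut.conj c • N := by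
    intro n hn
    have h1 : ((u : G) * c)⁻¹ * n * ((u : G) * c) ∈ N :=
      h.hNN (mem_normalizer_cj_iff.mp hn)
    have h2 : n ∈ MulAut.conj ((u : G) * c) • N := mem_cj.mpr h1
    rw [cj_mul, cj_eq_self_of_mem huN'] at h2
    exact h2
  -- apply Lemma R
  have hN'M : MulAut.conj c • N ≠ M := by
    intro hNM
    apply h.hnc c⁻¹
    rw [← hNM, cj_inv_cj]
  have hQ₂ne : (MulAut.conj ((u : G) * c) • Q : Subgroup G) ≠ ⊥ := by
    intro hb
    apply h.hQ1
    rw [eq_bot_iff]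
    intro z hz
    have : (u : G) * c * z * ((u : G) * c)⁻¹ ∈ (MulAut.conj ((u : G) * c) • Q : Subgroup G) := by
      rw [mem_cj]
      have e : ((u : G) * c)⁻¹ * ((u : G) * c * z * ((u : G) * c)⁻¹) * ((u : G) * c) = z := by
        group
      rw [e]
      exact hz
    rw [hb, mem_bot] at this
    rw [mem_bot]
    have e : z = ((u : G) * c)⁻¹ * ((u : G) * c * z * ((u : G) * c)⁻¹) * ((u : G) * c) := by
      group
    rw [e, this]
    group
  have hQ₂R : (MulAut.conj ((u : G) * c) • Q : Subgroup G) ⊓ centralizer (R : Set G) = ⊥ := by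
    rw [eq_bot_iff]
    rintro y ⟨hy1, hy2⟩
    rw [mem_bot]
    have hy1' : ((u : G) * c)⁻¹ * y * ((u : G) * c) ∈ Q := mem_cj.mp hy1
    have hy2' : ((u : G) * c)⁻¹ * y * ((u : G) * c) ∈ centralizer (R : Set G) :=
      mul_mem (mul_mem (inv_mem hgR) hy2) hgR
    have h3 : ((u : G) * c)⁻¹ * y * ((u : G) * c) ∈ Q ⊓ centralizer (R : Set G) :=
      ⟨hy1', hy2'⟩
    rw [hQR, mem_bot] at h3
    have e : y = ((u : G) * c) * (((u : G) * c)⁻¹ * y * ((u : G) * c)) * ((u : G) * c)⁻¹ := by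
      group
    rw [e, h3]
    group
  have hMC : M ⊓ centralizer ((MulAut.conj ((u : G) * c) • Q : Subgroup G) : Set G) ≤
      MulAut.conj c • N :=
    inf_le_right.trans ((Subgroup.centralizer_le_normalizer _).trans hNQ₂N')
  have hLR' := (hLR M (MulAut.conj c • N) R (MulAut.conj ((u : G) * c) • Q) r q h.hM hrM hRM
    hRc hq hqα hQ₂M (isPGroup_cj _ h.hQq) hQ₂ne hP₂R hQ₂R hN' hN'M hMC hMα).2
  have hxmem : x ∈ alphaCore M ⊓
      centralizer ((MulAut.conj ((u : G) * c) • Q : Subgroup G) : Set G) ⊓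
      centralizer (R : Set G) := by
    refine Subgroup.mem_inf.mpr ⟨Subgroup.mem_inf.mpr ⟨hxα, ?_⟩, hxR⟩
    rw [mem_centralizer_iff]
    intro y hy
    exact (hxQ₂ y hy).symm
  rw [hLR'] at hxmem
  exact hx1 (mem_bot.mp hxmem)

example [Finite G] (hG : IsMinSimpleOddOrder G) (h03 : St1403 G) (h05 : St1405 G)
    (h50 : St1350 G) (hAl : StAlpha G) (hLR : Cfsg.Agent.Lib.Helper30.BG134.StLR G) :
    ∀ (M N Q : Subgroup G) (q : ℕ), SCfg M N Q q →
    ∀ (r : ℕ) (R : Subgroup G), r ∈ tau1 M → r ∈ tau1 N → R ≤ normalizer (Q : Set G) →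
    Nat.card R = r → Q ⊓ centralizer (R : Set G) = ⊥ →
    ∀ (c x : G), c ∈ centralizer (R : Set G) → x ∈ alphaCore M → x ≠ 1 →
      x ∈ centralizer (R : Set G) → orderOf x ∈ alpha M →
      centralizer ((zpowers x : Subgroup G) : Set G) ≤ M →
      x ∈ MulAut.conj c • N → False :=
  final hG h03 h05 h50 hAl hLR

end Cfsg.Agent.Helper55.BG139
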