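import Mathlib
import Cfsg.Agent.Helper55.BG151Defs
import Cfsg.Agent.H38.BG161Asm
import Cfsg.Agent.H31.BG14U

set_option autoImplicit false

/-!
# S1360 (B&G Lemma 15.1(c)): assembly of the pieces (helper55)
-/

namespace Cfsg.Agent.Helper55.BG151

open Cfsg Subgroup Cfsg.Agent.H58.BG10 Cfsg.Agent.H58.BG12 Cfsg.Agent.H38.BG161

universe u

variable {G : Type u} [Group G]

/-- The per-prime statement for a subgroup `U ≤ E`. -/
def StUPerPrime (G : Type u) [Group G] : Prop :=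
  ∀ (M E S A : Subgroup G) (p : ℕ) [Fact p.Prime], AbS M E S A p → HypT2 M E A p →
    ∀ U : Subgroup G, U ≤ E → HypU M U →
    ∃ C : Subgroup G, C ≤ S ∧ U ≤ normalizer (C : Set G) ∧
      Monoid.exponent C = Monoid.exponent S ∧
      ∀ c ∈ C, c ≠ 1 → sigmaCore M ⊓ centralizer ({c} : Set G) = ⊥

/-- (UPERPRIME) from (BASIC), (CASER), (USCALAR), (UCASEI). -/
theorem uPerPrime_of [Finite G] (hBasic : StBasic G) (hR : StCaseR G) (hSc : StUScalar G)
    (hI : StUCaseI G) : StUPerPrime G := by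
  intro M E S A p _ hAb hT2 U hUE hU
  have hp : p.Prime := Fact.out
  obtain ⟨hom, -, -, -, hWreg, -⟩ := hBasic M E S A p hAb
  by_cases hall : ∀ X : Subgroup G, X ≤ A → Nat.card X = p →
      sigmaCore M ⊓ centralizer (X : Set G) = ⊥
  · refine ⟨S, le_rfl, hUE.trans hAb.norm, rfl, ?_⟩
    intro c hc hne
    obtain ⟨P, hP⟩ := hAb.syl
    have hSp : IsPGroup p S := hP ▸ P.isPGroup'
    obtain ⟨k, hk⟩ := (IsPGroup.iff_orderOf.mp hSp) ⟨c, hc⟩
    rw [Subgroup.orderOf_mk] at hk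
    have hk0 : k ≠ 0 := by
      rintro rfl
      rw [pow_zero, orderOf_eq_one_iff] at hk
      exact hne hk
    obtain ⟨k', rfl⟩ := Nat.exists_eq_succ_of_ne_zero hk0
    have hc'ord : orderOf (c ^ (p ^ k')) = p := by
      have hdvd : p ^ k' ∣ orderOf c := hk ▸ pow_dvd_pow p (Nat.le_succ k')
      have h1 : orderOf (c ^ (p ^ k')) = orderOf c / p ^ k' :=
        orderOf_pow_of_dvd (pow_pos hp.pos k').ne' hdvd
      rw [h1, hk, pow_succ, Nat.mul_div_cancel_left _ (pow_pos hp.pos k')]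
    have hc'A : c ^ (p ^ k') ∈ A := by
      apply hom (c ^ (p ^ k')) (S.pow_mem hc _)
      have := pow_orderOf_eq_one (c ^ (p ^ k'))
      rw [hc'ord] at this
      exact this
    have hXA : zpowers (c ^ (p ^ k')) ≤ A := (zpowers_le).mpr hc'A
    have hXc : Nat.card (zpowers (c ^ (p ^ k'))) = p := by rw [Nat.card_zpowers, hc'ord]
    have h0 := hall (zpowers (c ^ (p ^ k'))) hXA hXc
    exact le_bot_iff.mp (h0 ▸ inf_le_inf_left _ (cent_singleton_le_cent_zpowers_pow c (p ^ k')))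
  · push Not at hall
    obtain ⟨X₀, hX₀A, hX₀c, hX₀s⟩ := hall
    by_cases hWl : ∃ Y : Subgroup G, Y ≤ A ∧ Nat.card Y = p ∧
        normalizer (S : Set G) ≤ normalizer (Y : Set G)
    · have hmove : ∃ w ∈ normalizer (S : Set G), ∃ X : Subgroup G, X ≤ A ∧ Nat.card X = p ∧
          w ∉ normalizer (X : Set G) := by
        by_contra hcon
        push Not at hcon
        apply hX₀s
        apply hWreg X₀ hX₀A hX₀c
        intro w hw
        exact hcon w hw X₀ hX₀A hX₀c
      obtain ⟨C, hCS, hEC, hexp, hreg⟩ := hR M E S A p hAb hWl hmove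
      exact ⟨C, hCS, hUE.trans hEC, hexp, hreg⟩
    · have hIy : HypI S A p := fun X hXA hXc hW => hWl ⟨X, hXA, hXc, hW⟩
      exact hI M E S A p hAb hIy U hUE
        (hSc M E S A p hAb hIy hT2 U hUE hU ⟨X₀, hX₀A, hX₀c, hX₀s⟩)

/-- S1360 as a `Prop`. -/
def St1360 (G : Type u) [Group G] : Prop :=
  ∀ (M : Subgroup G), IsCoatom M → ∀ K U : Subgroup G, IsSigmaDecomposition M K U →
    ∃ U₀ : Subgroup G, U₀ ≤ U ∧ Monoid.exponent U₀ = Monoid.exponent U ∧
      ∀ u ∈ U₀, u ∈ sigmaHat M → u = 1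

/-- S1360 from the pieces. -/
theorem st1360_of [Finite G] (hG : IsMinSimpleOddOrder G) (H : Cfsg.Agent.H31.BG14U.Hyps G)
    (hKap : StKappa G) (hExp : StExpInf G) (hExA : StExA G) (hAbS : StAbSExists G)
    (hHT2 : StHT2 G) (hUPP : StUPerPrime G) (hAsmB : StAsmB G) (hSA : StSingA G)
    (hNS : StNabStruct G) (hIC : StInvCompl G) (hAA : StAsmA G) : St1360 G := by
  intro M hM K U hKU
  have hE : IsComplIn (U ⊔ K) (sigmaCore M) M := Cfsg.Agent.H31.BG14U.compl_UK H.h50 hM hKU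
  have hUE : U ≤ U ⊔ K := le_sup_left
  obtain ⟨hk1, hk2⟩ := hKap M K U hM hKU
  -- the prime divisors of the order of a singular element of `U` lie in `τ₂(M)`
  have hsingτ : ∀ u ∈ U, Sing M u → ∀ q : ℕ, q.Prime → q ∣ orderOf u → q ∈ tau2 M := by
    intro u hu hs q hq hqd
    obtain ⟨-, hc⟩ := hs
    obtain ⟨y, hy1⟩ := (Subgroup.ne_bot_iff_exists_ne_one).mp hc
    have hyσ : (y : G) ∈ sigmaCore M := (Subgroup.mem_inf.mp y.2).1
    have hyc : (y : G) ∈ centralizer ({u} : Set G) := (Subgroup.mem_inf.mp y.2).2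
    have huy : u * (y : G) = (y : G) * u := (Subgroup.mem_centralizer_iff.mp hyc) u rfl
    have hy1' : (y : G) ≠ 1 := fun h => hy1 (Subtype.ext h)
    exact Cfsg.Agent.H31.BG14U.tau2_of_dvd_orderOf hG H hM hKU hu hyσ hy1' huy hq hqd
  -- regular subgroups meet `M̂_σ` trivially
  have hfinal : ∀ U₀ : Subgroup G,
      (∀ e ∈ U₀, e ≠ 1 → sigmaCore M ⊓ centralizer ({e} : Set G) = ⊥) →
      ∀ u ∈ U₀, u ∈ sigmaHat M → u = 1 := by
    intro U₀ h u hu hσ
    by_contra hne
    obtain ⟨-, y, hy, hy1, huy⟩ := hσ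
    have hmem : y ∈ sigmaCore M ⊓ centralizer ({u} : Set G) := by
      refine Subgroup.mem_inf.mpr ⟨hy, ?_⟩
      rw [Subgroup.mem_centralizer_iff]
      intro z hz
      rw [Set.mem_singleton_iff] at hz
      rw [hz]
      exact huy
    rw [h u hu hne] at hmem
    exact hy1 (Subgroup.mem_bot.mp hmem)
  by_cases hnab : ∃ p : ℕ, ∃ _ : Fact p.Prime, p ∈ tau2 M ∧
      ∀ S : Sylow p G, ¬ IsMulCommutative (S : Subgroup G)
  · -- Case A: some Sylow subgroup for a prime of `τ₂(M)` is nonabelian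
    obtain ⟨p, hpF, hpτ, hS⟩ := hnab
    have hp : p.Prime := Fact.out
    obtain ⟨A, hAE, hAel, hAc⟩ := hExA M hM (U ⊔ K) hE p hpτ
    have hN : Nab M (U ⊔ K) A p := ⟨hM, hE, hpτ, hS, hAE, hAel, hAc⟩
    obtain ⟨hτ, ⟨hA0card, -⟩, -⟩ := H.h19 M hM (U ⊔ K) hE p hpτ hS A ⟨hAE, hAel, hAc⟩
    obtain ⟨⟨hEA, -⟩, -, -⟩ := H.h18 M hM (U ⊔ K) hE p hpτ A ⟨hAE, hAel, hAc⟩
    obtain ⟨hs1, hs2⟩ := hSA M (U ⊔ K) A p hN
    obtain ⟨L, P, V, hLE, hLn, hLp, hAP, hPE, hPp, hPc, hVE, hVP, hVp, hfac⟩ :=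
      hNS M (U ⊔ K) A p hN
    have hA0P : A ⊓ centralizer (sigmaCore M : Set G) ≤ P := inf_le_left.trans hAP
    have hEA0 : U ⊔ K ≤
        normalizer ((A ⊓ centralizer (sigmaCore M : Set G) : Subgroup G) : Set G) := by
      intro e he
      have heA := hEA he
      have heσ : e ∈ normalizer (sigmaCore M : Set G) :=
        Cfsg.Agent.H57.BG12.le_normalizer_sigmaCore M (hE.1 he)
      have heC : e ∈ normalizer ((centralizer (sigmaCore M : Set G) : Subgroup G) : Set G) := by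
        rw [mem_normalizer_iff]
        intro x
        constructor
        · intro hx
          rw [mem_centralizer_iff] at hx ⊢
          intro z hz
          have hz' : e⁻¹ * z * e⁻¹⁻¹ ∈ sigmaCore M := by
            have := (mem_normalizer_iff.mp (inv_mem heσ) z).1 hz
            exact this
          have := hx _ hz'
          simp only [inv_inv] at this
          calc z * (e * x * e⁻¹) = e * ((e⁻¹ * z * e) * x) * e⁻¹ := by group
            _ = e * (x * (e⁻¹ * z * e)) * e⁻¹ := by rw [this]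
            _ = e * x * e⁻¹ * z := by group
        · intro hx
          rw [mem_centralizer_iff] at hx ⊢
          intro z hz
          have hz' : e * z * e⁻¹ ∈ sigmaCore M := (mem_normalizer_iff.mp heσ z).1 hz
          have := hx _ hz'
          calc z * x = e⁻¹ * ((e * z * e⁻¹) * (e * x * e⁻¹)) * e := by group
            _ = e⁻¹ * ((e * x * e⁻¹) * (e * z * e⁻¹)) * e := by rw [this]
            _ = x * z := by group
      rw [mem_normalizer_iff]
      intro x
      rw [mem_inf, mem_inf, ← (mem_normalizer_iff.mp heA x), ← (mem_normalizer_iff.mp heC x)]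
    have hVA0 : V ≤ normalizer ((A ⊓ centralizer (sigmaCore M : Set G) : Subgroup G) : Set G) :=
      hVE.trans hEA0
    obtain ⟨D, hDP, hVD, hDA, hDsup⟩ :=
      hIC p P V (A ⊓ centralizer (sigmaCore M : Set G)) hPp hPc hVP hVp hA0P hA0card hVA0
        (fun y hy h => hs2 y (hPE hy) h)
    have hp2 : p ^ 2 ∣ Nat.card P := hAc ▸ Subgroup.card_dvd_of_le hAP
    obtain ⟨E₀, hE₀E, hE₀A, hexp⟩ :=
      hAA p (U ⊔ K) L P V D (A ⊓ centralizer (sigmaCore M : Set G)) hLE hLn hLp hPE hPp hPc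
        hVE hVP hVp hfac hEA0 hA0card hA0P hp2 hDP hVD hDA hDsup
    refine ⟨E₀ ⊓ U, inf_le_right, ?_, ?_⟩
    · exact hExp (U ⊔ K) E₀ U hE₀E hUE hexp (fun e he r hr hrU hk =>
        hk1 e he r hr (Cfsg.Agent.H31.BG14U.prime_of_U H.h50 hM hKU hr hrU).2.1 hk)
    · apply hfinal
      intro e he hne
      by_contra hcon
      have hsing : Sing M e := ⟨hne, hcon⟩
      have hpe : ∃ k : ℕ, orderOf e = p ^ k := by
        refine ⟨_, Nat.eq_prime_pow_of_unique_prime_dvd (orderOf_pos e).ne' ?_⟩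
        intro d hd hdvd
        have := hsingτ e he.2 hsing d hd hdvd
        rw [hτ] at this
        exact this
      have h1 : e ∈ A ⊓ centralizer (sigmaCore M : Set G) := hs1 e (hUE he.2) hpe hsing
      have h2 : e ∈ E₀ ⊓ (A ⊓ centralizer (sigmaCore M : Set G)) := ⟨he.1, h1⟩
      rw [hE₀A] at h2
      exact hne ((mem_bot).mp h2)
  · -- Case B: all Sylow subgroups for the primes of `τ₂(M)` are abelian
    have hab : ∀ (p : ℕ) [Fact p.Prime], p ∈ tau2 M →
        ∃ P : Sylow p G, IsMulCommutative (P : Subgroup G) := by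
      intro p hp hpτ
      by_contra hcon
      exact hnab ⟨p, hp, hpτ, fun S hS => hcon ⟨S, hS⟩⟩
    have hreg1 : ∀ e ∈ U, ∀ q : ℕ, q.Prime → orderOf e = q → q ∉ tau2 M →
        sigmaCore M ⊓ centralizer ({e} : Set G) = ⊥ := by
      intro e he q hq hord hqT
      by_contra hcon
      have hne : e ≠ 1 := by
        rintro rfl
        rw [orderOf_one] at hord
        exact hq.ne_one hord.symm
      exact hqT (hsingτ e he ⟨hne, hcon⟩ q hq (by rw [hord]))
    have hU : HypU M U := by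
      intro u hu q hq hord hq13
      apply hreg1 u hu q hq hord
      intro hq2
      rcases hq13 with h1 | h3
      · exact hq2.2.2.2 h1.2.2.2.2
      · exact hq2.2.2.2 h3.2.2.2
    have hconcl : Concl M U := by
      apply hAsmB M U (tau2 M) hreg1
      · exact fun y hy hs q hq hd => hsingτ y hy hs q hq hd
      · intro p _ hpτ
        obtain ⟨S, A, hAb⟩ := hAbS M hM (U ⊔ K) hE p hpτ (hab p hpτ)
        have hT2 : HypT2 M (U ⊔ K) A p := by
          intro e he q hq hqp hqτ hk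
          have : Fact q.Prime := ⟨hq⟩
          obtain ⟨S', A', hAb'⟩ := hAbS M hM (U ⊔ K) hE q hqτ (hab q hqτ)
          have h := hHT2 M (U ⊔ K) S A S' A' p q hAb hAb' hqp e he hk
          exact centralizer_le hAb.AS h
        obtain ⟨C, hCS, hUC, hexp, hreg⟩ := hUPP M (U ⊔ K) S A p hAb hT2 U hUE hU
        have hSU : S ≤ U := by
          intro s hs
          obtain ⟨P, hP⟩ := hAb.syl
          have hSp : IsPGroup p S := hP ▸ P.isPGroup'
          obtain ⟨k, hk⟩ := (IsPGroup.iff_orderOf.mp hSp) ⟨s, hs⟩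
          rw [Subgroup.orderOf_mk] at hk
          exact hk1 s (hAb.le hs) p Fact.out (hk2 p hpτ) ⟨k, hk⟩
        exact ⟨S, C, hSU, hUE.trans hAb.norm, hAb.comm, hAb.syl, hCS, hUC, hexp, hreg⟩
    obtain ⟨-, E₀, hE₀U, hexp, hreg⟩ := hconcl
    exact ⟨E₀, hE₀U, hexp, hfinal E₀ hreg⟩

end Cfsg.Agent.Helper55.BG151
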