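import Mathlib
import Cfsg.Agent.H38.BG161Defs
import Cfsg.Agent.Helper55.BG161Alpha1

set_option autoImplicit false

/-!
# S1421-ALPHA2C (helper55, for helper38's team project S1421)

`StAlpha2c`: in the setting `AbS M E S A p`, `M* ⊇ N_G(S)` maximal of `q`-rank `1` with
`q ∉ σ(M*)`: a `q`-element `e` of `E` whose power of order `q` centralizes `A` centralizes `A`.
-/

namespace Cfsg.Agent.Helper55.BG161

open Cfsg Subgroup Cfsg.Agent.H58.BG10 Cfsg.Agent.H58.BG12 Cfsg.Agent.H38.BG161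

universe u

variable {G : Type u} [Group G]

/-- An element `w` of order prime to `p` normalizing the abelian `p`-group `S` and centralizing
all its elements of order dividing `p` centralizes `S`. -/
theorem centralizes_of_centralizes_omega {p n : ℕ} [Fact p.Prime] {S : Subgroup G}
    (hSp : IsPGroup p S) (hc : ∀ a ∈ S, ∀ b ∈ S, a * b = b * a) {w : G}
    (hw : w ∈ normalizer (S : Set G)) (hn : Nat.Coprime n p) (hwn : w ^ n = 1)
    (hΩ : ∀ s ∈ S, s ^ p = 1 → w * s * w⁻¹ = s) : ∀ s ∈ S, w * s * w⁻¹ = s := by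
  have hp : p.Prime := Fact.out
  have hconj : ∀ s ∈ S, w * s * w⁻¹ ∈ S := fun s hs => (Subgroup.mem_normalizer_iff.mp hw s).mp hs
  have main : ∀ k : ℕ, ∀ s ∈ S, s ^ p ^ k = 1 → w * s * w⁻¹ = s := by
    intro k
    induction k with
    | zero =>
      intro s _ hs1
      rw [pow_zero, pow_one] at hs1
      rw [hs1]
      group
    | succ k ih =>
      intro s hs hs1
      have hsp : w * s ^ p * w⁻¹ = s ^ p := by
        apply ih (s ^ p) (pow_mem hs p)
        rw [← pow_mul, ← pow_succ']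
        exact hs1
      have htS : w * s * w⁻¹ * s⁻¹ ∈ S := mul_mem (hconj s hs) (inv_mem hs)
      have htp : (w * s * w⁻¹ * s⁻¹) ^ p = 1 := by
        have hcm : Commute (w * s * w⁻¹) s⁻¹ := hc _ (hconj s hs) _ (inv_mem hs)
        rw [hcm.mul_pow, conj_pow, hsp, inv_pow, mul_inv_cancel]
      have htw : w * (w * s * w⁻¹ * s⁻¹) * w⁻¹ = w * s * w⁻¹ * s⁻¹ := hΩ _ htS htp
      have hi : ∀ i : ℕ, w ^ i * s * (w ^ i)⁻¹ = s * (w * s * w⁻¹ * s⁻¹) ^ i := by
        intro i
        induction i with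
        | zero => simp
        | succ i ihi =>
          have h1 : w ^ (i + 1) * s * (w ^ (i + 1))⁻¹ = w * (w ^ i * s * (w ^ i)⁻¹) * w⁻¹ := by
            rw [pow_succ']
            group
          rw [h1, ihi]
          have h2 : w * (s * (w * s * w⁻¹ * s⁻¹) ^ i) * w⁻¹
              = (w * s * w⁻¹) * (w * (w * s * w⁻¹ * s⁻¹) * w⁻¹) ^ i := by
            rw [conj_pow]
            group
          rw [h2, htw]
          have h3 : w * s * w⁻¹ = s * (w * s * w⁻¹ * s⁻¹) := by
            have hcm : s * (w * s * w⁻¹ * s⁻¹) = (w * s * w⁻¹ * s⁻¹) * s := hc _ hs _ htS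
            rw [hcm]
            group
          rw [pow_succ']
          calc w * s * w⁻¹ * (w * s * w⁻¹ * s⁻¹) ^ i
              = s * (w * s * w⁻¹ * s⁻¹) * (w * s * w⁻¹ * s⁻¹) ^ i := by rw [← h3]
            _ = s * ((w * s * w⁻¹ * s⁻¹) * (w * s * w⁻¹ * s⁻¹) ^ i) := by rw [mul_assoc]
      have hn1 := hi n
      rw [hwn] at hn1
      have htn : (w * s * w⁻¹ * s⁻¹) ^ n = 1 := by
        have : s = s * (w * s * w⁻¹ * s⁻¹) ^ n := by simpa using hn1
        exact (mul_eq_left.mp this.symm)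
      have ho1 : orderOf (w * s * w⁻¹ * s⁻¹) ∣ n := orderOf_dvd_of_pow_eq_one htn
      have ho2 : orderOf (w * s * w⁻¹ * s⁻¹) ∣ p := orderOf_dvd_of_pow_eq_one htp
      have ho3 : orderOf (w * s * w⁻¹ * s⁻¹) = 1 := Nat.eq_one_of_dvd_coprimes hn ho1 ho2
      have h1 : w * s * w⁻¹ * s⁻¹ = 1 := orderOf_eq_one_iff.mp ho3
      exact mul_inv_eq_one.mp h1
  intro s hs
  obtain ⟨k, hk⟩ := hSp ⟨s, hs⟩
  have hk' : s ^ p ^ k = 1 := by
    have := congrArg Subtype.val hk
    simpa using this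
  exact main k s hs hk'

theorem alpha2c [Finite G] (h50 : St1350 G) (hKey : Cfsg.Agent.H57.BG1218.StKey G)
    (hB : StBasic G) : StAlpha2c G := by
  intro M E S A p _ hAb Mst hMst hNS e q j hq hqp heE hek he0A hqσ hrk
  haveI : Fact q.Prime := ⟨hq⟩
  have hp : p.Prime := Fact.out
  have hSMst : S ≤ Mst := le_normalizer.trans hNS
  have heN : e ∈ normalizer (S : Set G) := hAb.norm heE
  have heMst : e ∈ Mst := hNS heN
  have hSne : S ≠ ⊥ := by
    intro h
    have hA : A = ⊥ := le_bot_iff.mp (h ▸ hAb.AS)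
    have hc := hAb.card
    rw [hA, Subgroup.card_bot] at hc
    have : 1 < p ^ 2 := Nat.one_lt_pow (by norm_num) hp.one_lt
    omega
  have hpσ : p ∈ sigma Mst := mem_sigma_of_sylow_le hAb.syl hSne hNS
  have hSp : IsPGroup p S := by
    obtain ⟨P, hP⟩ := hAb.syl
    rw [← hP]
    exact P.isPGroup'
  have hSσ : S ≤ sigmaCore Mst :=
    Cfsg.Agent.H92.BG12.le_sigmaCore_of_mem h50 hMst hpσ hSp hSMst
  -- `e₀ = e ^ (q ^ j)` has order `q`
  have ho0 : orderOf (e ^ q ^ j) = q := by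
    rw [orderOf_pow' _ (pow_ne_zero j hq.ne_zero), hek]
    have h1 : Nat.gcd (q ^ (j + 1)) (q ^ j) = q ^ j :=
      Nat.gcd_eq_right (pow_dvd_pow q (Nat.le_succ j))
    rw [h1, pow_succ]
    exact Nat.mul_div_cancel_left q (pow_pos hq.pos j)
  have he0N : e ^ q ^ j ∈ normalizer (S : Set G) := pow_mem heN _
  -- `e₀` centralizes `S`
  have he0S : ∀ s ∈ S, e ^ q ^ j * s * (e ^ q ^ j)⁻¹ = s := by
    apply centralizes_of_centralizes_omega (n := q) hSp hAb.comm he0N
      ((Nat.coprime_primes hq hp).mpr hqp)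
    · have h1 := pow_orderOf_eq_one (e ^ q ^ j)
      rw [ho0] at h1
      exact h1
    · intro s hs hsp
      have hsA : s ∈ A := (hB M E S A p hAb).1 s hs hsp
      have := (Subgroup.mem_centralizer_iff.mp he0A) s hsA
      rw [← this]
      group
  have hz : IsPGroup q (zpowers e) := IsPGroup.of_card (n := j + 1) (by rw [Nat.card_zpowers, hek])
  have hkey := hKey Mst hMst q hqσ hrk (zpowers e) (zpowers (e ^ q ^ j))
    ((Subgroup.zpowers_le).mpr heMst) hz inferInstance
    ((Subgroup.zpowers_le).mpr (pow_mem (Subgroup.mem_zpowers e) _))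
    (by rw [Nat.card_zpowers, ho0])
  rw [Subgroup.mem_centralizer_iff]
  intro a ha
  have haS : a ∈ S := hAb.AS ha
  have h1 : a ∈ sigmaCore Mst ⊓ centralizer ((zpowers (e ^ q ^ j) : Subgroup G) : Set G) := by
    refine Subgroup.mem_inf.mpr ⟨hSσ haS, ?_⟩
    rw [Subgroup.mem_centralizer_iff]
    intro h hh
    obtain ⟨z, rfl⟩ := Subgroup.mem_zpowers_iff.mp hh
    have hcm : Commute (e ^ q ^ j) a := by
      have := he0S a haS
      have h2 : e ^ q ^ j * a = a * e ^ q ^ j := by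
        calc e ^ q ^ j * a = (e ^ q ^ j * a * (e ^ q ^ j)⁻¹) * e ^ q ^ j := by group
          _ = a * e ^ q ^ j := by rw [this]
      exact h2
    exact (hcm.zpow_left z).eq
  have h2 := hkey h1
  exact ((Subgroup.mem_centralizer_iff.mp h2) e (Subgroup.mem_zpowers e)).symm

example [Finite G] (h50 : St1350 G) (hKey : Cfsg.Agent.H57.BG1218.StKey G) (hB : StBasic G) :
    ∀ (M E S A : Subgroup G) (p : ℕ) [Fact p.Prime], AbS M E S A p →
    ∀ Mst : Subgroup G, IsCoatom Mst → normalizer (S : Set G) ≤ Mst →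
    ∀ (e : G) (q j : ℕ), q.Prime → q ≠ p → e ∈ E → orderOf e = q ^ (j + 1) →
      e ^ (q ^ j) ∈ centralizer (A : Set G) → q ∉ sigma Mst → PRankLE q 1 Mst →
      e ∈ centralizer (A : Set G) :=
  alpha2c h50 hKey hB

end Cfsg.Agent.Helper55.BG161
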