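import Mathlib
import Cfsg.Agent.H31.BG9b
import Cfsg.Agent.S0118
import Cfsg.Agent.H37.AG

set_option autoImplicit false
open Cfsg
open scoped commutatorElement

/-!
# The transfer step of B&G Theorem 9.5 (piece S1402-T1)

In a minimal simple group of odd order, if `A` is an abelian normal subgroup of a Sylow
`p`-subgroup `P` and `D` contains the normalizers of all `p`-subgroups containing `A`, then
`P ≤ D'`.
-/

universe u

namespace Cfsg.Agent.Helper55.BG95

/-- Groups of odd order have no section isomorphic to `SL(2, p)`, `p` odd. -/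
theorem sl2_free_of_odd {G : Type*} [Group G] [Finite G] (hodd : Odd (Nat.card G)) {p : ℕ}
    [Fact p.Prime] (hp : p ≠ 2) :
    ¬ ∃ (H K : Subgroup G) (hK : (K.subgroupOf H).Normal),
      Nonempty ((H ⧸ K.subgroupOf H) ≃* Matrix.SpecialLinearGroup (Fin 2) (ZMod p)) := by
  rintro ⟨H, K, hK, ⟨e⟩⟩
  have hpp := Fact.out (p := p.Prime)
  let t : Matrix.SpecialLinearGroup (Fin 2) (ZMod p) :=
    ⟨!![-1, 0; 0, -1], by simp [Matrix.det_fin_two]⟩
  have ht2 : t ^ 2 = 1 := by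
    rw [pow_two]
    apply Subtype.ext
    show (!![-1, 0; 0, -1] : Matrix (Fin 2) (Fin 2) (ZMod p)) * !![-1, 0; 0, -1] = 1
    rw [Matrix.mul_fin_two, Matrix.one_fin_two]
    simp
  have ht1 : t ≠ 1 := by
    intro h
    have h1 : (-1 : ZMod p) = 1 := by
      have h0 := congrArg (fun M : Matrix.SpecialLinearGroup (Fin 2) (ZMod p) => M.1 0 0) h
      simpa [t] using h0
    have h2 : ((2 : ℕ) : ZMod p) = 0 := by
      push_cast
      linear_combination (-1 : ZMod p) * h1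
    have h3 : p ∣ 2 := (ZMod.natCast_eq_zero_iff 2 p).1 h2
    exact hp ((Nat.prime_dvd_prime_iff_eq hpp Nat.prime_two).1 h3)
  have hord : orderOf t = 2 := orderOf_eq_prime ht2 ht1
  have h2 : 2 ∣ Nat.card (Matrix.SpecialLinearGroup (Fin 2) (ZMod p)) := by
    have h6 := orderOf_dvd_natCard t
    rwa [hord] at h6
  have h3 : 2 ∣ Nat.card (↥H ⧸ K.subgroupOf H) := by
    rw [Nat.card_congr e.toEquiv]
    exact h2
  have h4 : Nat.card (↥H ⧸ K.subgroupOf H) ∣ Nat.card ↥H := Subgroup.card_quotient_dvd_card _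
  have h5 : Nat.card ↥H ∣ Nat.card G := Subgroup.card_subgroup_dvd_card H
  exact (Nat.not_even_iff_odd.2 hodd) (even_iff_two_dvd.2 (h3.trans (h4.trans h5)))

/-- `D'` is normalized by `D`. -/
theorem conj_mem_commutator {G : Type*} [Group G] (D : Subgroup G) {g c : G} (hg : g ∈ D)
    (hc : c ∈ ⁅D, D⁆) : g * c * g⁻¹ ∈ ⁅D, D⁆ := by
  have hle : ⁅D, D⁆ ≤ D := Subgroup.commutator_le.2 (fun g1 h1 g2 h2 => by
    rw [commutatorElement_def]
    exact D.mul_mem (D.mul_mem (D.mul_mem h1 h2) (D.inv_mem h1)) (D.inv_mem h2))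
  have h1 : g * c * g⁻¹ = ⁅g, c⁆ * c := by rw [commutatorElement_def]; group
  rw [h1]
  exact mul_mem (Subgroup.commutator_mem_commutator hg (hle hc)) hc

/-- An element `x = l * k` with `l ∈ D'`, `k ∈ D`, of order prime to that of `k`, lies in `D'`. -/
theorem mem_commutator_of_coprime {G : Type*} [Group G] (D : Subgroup G) {x l k : G}
    (hx : x = l * k) (hl : l ∈ ⁅D, D⁆) (hkD : k ∈ D) {m a : ℕ} (hk : k ^ m = 1) (hxa : x ^ a = 1)
    (hcop : Nat.Coprime m a) : x ∈ ⁅D, D⁆ := by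
  have key : ∀ j : ℕ, ∃ d ∈ ⁅D, D⁆, (l * k) ^ j = d * k ^ j := by
    intro j
    induction j with
    | zero => exact ⟨1, one_mem _, by simp⟩
    | succ j ih =>
      obtain ⟨d, hd, hdj⟩ := ih
      refine ⟨d * (k ^ j * l * (k ^ j)⁻¹),
        mul_mem hd (conj_mem_commutator D (D.pow_mem hkD j) hl), ?_⟩
      rw [pow_succ, hdj, pow_succ]
      group
  obtain ⟨d, hd, hdm⟩ := key m
  rw [hk, mul_one, ← hx] at hdm
  have h1 : Nat.Coprime m (orderOf x) :=
    Nat.Coprime.coprime_dvd_right (orderOf_dvd_of_pow_eq_one hxa) hcop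
  obtain ⟨j, hj⟩ := exists_pow_eq_self_of_coprime h1
  rw [← hj, hdm]
  exact Subgroup.pow_mem _ hd j

theorem bg95_transfer {G : Type u} [Group G] [Finite G] (hG : Cfsg.IsMinSimpleOddOrder G) (p : ℕ)
    [Fact p.Prime] (P : Sylow p G) (A D : Subgroup G) (hAP : A ≤ (P : Subgroup G))
    (hAc : IsMulCommutative A) (hAn : (P : Subgroup G) ≤ Subgroup.normalizer (A : Set G))
    (hD : ∀ R : Subgroup G, IsPGroup p R → A ≤ R → Subgroup.normalizer (R : Set G) ≤ D) :
    (P : Subgroup G) ≤ ⁅D, D⁆ := by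
  classical
  have hpp := Fact.out (p := p.Prime)
  by_cases hP0 : (P : Subgroup G) = ⊥
  · rw [hP0]; exact bot_le
  have hodd := hG.1
  obtain ⟨hsimple, hnc, hsolv⟩ := hG.2
  haveI := hsimple
  have hp2 : p ≠ 2 := by
    intro hp2
    apply hP0
    have h1 : Nat.card (P : Subgroup G) ∣ Nat.card G := Subgroup.card_subgroup_dvd_card _
    obtain ⟨k, hk⟩ := IsPGroup.iff_card.mp P.isPGroup'
    rw [hk] at h1
    rcases Nat.eq_zero_or_pos k with h0 | hpos
    · rw [h0, pow_zero] at hk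
      exact Subgroup.card_eq_one.mp hk
    · exfalso
      have h2 : 2 ∣ Nat.card G := by
        rw [← hp2]
        exact (dvd_pow_self p hpos.ne').trans h1
      exact (Nat.not_even_iff_odd.2 hodd) (even_iff_two_dvd.2 h2)
  obtain ⟨Z, hZ⟩ : ∃ Z : Subgroup G, Z = Cfsg.centerThompsonOf p (P : Subgroup G) := ⟨_, rfl⟩
  obtain ⟨N, hN⟩ : ∃ N : Subgroup G, N = Subgroup.normalizer (Z : Set G) := ⟨_, rfl⟩
  have hZcJ : Z = Cfsg.Agent.H58.cJ p (P : Subgroup G) := by
    rw [hZ, Cfsg.Agent.H58.centerThompsonOf_eq_cJ]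
  have hZ0 : Z ≠ ⊥ := by
    rw [hZcJ]
    exact Cfsg.Agent.H58.cJ_ne_bot (Or.inr rfl) P.isPGroup' hP0
  have hZc : IsMulCommutative Z := by
    rw [hZcJ]
    exact Cfsg.Agent.H58.cJ_comm p _
  have hPN : (P : Subgroup G) ≤ N := by
    rw [hN, hZcJ]
    exact Subgroup.le_normalizer.trans (Cfsg.Agent.H58.normalizer_le_normalizer_cJ p _)
  have hNtop : N ≠ ⊤ := by
    intro h
    have hZn : Z.Normal := by
      rw [← Subgroup.normalizer_eq_top_iff, ← hN]
      exact h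
    rcases hZn.eq_bot_or_eq_top with h1 | h1
    · exact hZ0 h1
    · apply hnc
      refine ⟨⟨fun a b => ?_⟩⟩
      have ha : a ∈ Z := by rw [h1]; trivial
      have hb : b ∈ Z := by rw [h1]; trivial
      have h2 := hZc.is_comm.comm ⟨a, ha⟩ ⟨b, hb⟩
      exact congrArg Subtype.val h2
  have hperf : commutator G = ⊤ := by
    rcases (inferInstance : (commutator G).Normal).eq_bot_or_eq_top with h1 | h1
    · exfalso
      apply hnc
      refine ⟨⟨fun a b => ?_⟩⟩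
      have h2 : ⁅a, b⁆ ∈ commutator G :=
        Subgroup.commutator_mem_commutator (Subgroup.mem_top a) (Subgroup.mem_top b)
      rw [h1, Subgroup.mem_bot] at h2
      exact commutatorElement_eq_one_iff_mul_comm.1 h2
    · exact h1
  have hfree := sl2_free_of_odd hodd (p := p) hp2
  -- Step 1: `P ≤ N'`
  have hPN' : (P : Subgroup G) ≤ ⁅N, N⁆ := by
    have h1 : commutator G ⊓ (P : Subgroup G) = (P : Subgroup G).focalSubgroup :=
      Subgroup.commutator_inf_eq_focalSubgroup P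
    rw [hperf, top_inf_eq] at h1
    have h0 : (P : Subgroup G).focalSubgroup ≤ ⁅N, N⁆ := by
      rw [Subgroup.focalSubgroup_def, Subgroup.closure_le]
      rintro g ⟨hgP, x, hxP, u, rfl⟩
      have h2 : u * x⁻¹ * u⁻¹ ∈ (P : Subgroup G) := by
        have h3 : u * x⁻¹ * u⁻¹ = x⁻¹ * ⁅x, u⁆ := by rw [commutatorElement_def]; group
        rw [h3]
        exact mul_mem (inv_mem hxP) hgP
      obtain ⟨n, hn, hn2⟩ := Cfsg.Agent.S0118.result hp2 hfree P ({x⁻¹} : Set G)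
        (by
          intro a ha
          rw [Set.mem_singleton_iff] at ha
          rw [ha]
          exact inv_mem hxP) u⁻¹
        (by
          rintro _ ⟨a, ha, rfl⟩
          rw [Set.mem_singleton_iff] at ha
          rw [ha]
          show u⁻¹⁻¹ * x⁻¹ * u⁻¹ ∈ (P : Subgroup G)
          rw [inv_inv]
          exact h2)
      have h3 := hn2 x⁻¹ rfl
      have h4 : ⁅x, u⁆ = ⁅x, n⁻¹⁆ := by
        rw [commutatorElement_def, commutatorElement_def]
        have h5 : u * x⁻¹ * u⁻¹ = n⁻¹ * x⁻¹ * n := by rw [h3]; simp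
        calc x * u * x⁻¹ * u⁻¹ = x * (u * x⁻¹ * u⁻¹) := by group
          _ = x * (n⁻¹ * x⁻¹ * n) := by rw [h5]
          _ = x * n⁻¹ * x⁻¹ * n⁻¹⁻¹ := by group
      rw [SetLike.mem_coe, h4]
      exact Subgroup.commutator_mem_commutator (hPN hxP)
        (N.inv_mem (by rw [hN, hZ]; exact hn))
    rw [← h1] at h0
    exact h0
  -- Step 2: inside `N`
  haveI hNsolv : Group.IsSolvable ↥N := hsolv N hNtop
  have hNodd : Odd (Nat.card ↥N) := hodd.of_dvd_nat (Subgroup.card_subgroup_dvd_card N)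
  obtain ⟨S, hS⟩ : ∃ S : Sylow p ↥N, (S : Subgroup ↥N) = (P : Subgroup G).subgroupOf N :=
    ⟨P.subtype hPN, Sylow.coe_subtype _ _⟩
  have hAN : A ≤ N := hAP.trans hPN
  have hA' : A.subgroupOf N ≤ (S : Subgroup ↥N) := by
    rw [hS]
    intro x hx
    exact hAP hx
  have hA'c : IsMulCommutative (A.subgroupOf N) := by
    refine ⟨⟨fun a b => ?_⟩⟩
    have h1 := hAc.is_comm.comm ⟨((a : ↥N) : G), a.2⟩ ⟨((b : ↥N) : G), b.2⟩
    have h2 : ((a : ↥N) : G) * ((b : ↥N) : G) = ((b : ↥N) : G) * ((a : ↥N) : G) :=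
      congrArg Subtype.val h1
    exact Subtype.ext (Subtype.ext h2)
  have hA'n : (S : Subgroup ↥N) ≤
      Subgroup.normalizer ((A.subgroupOf N : Subgroup ↥N) : Set ↥N) := by
    rw [hS]
    intro x hx
    have hx' : (x : G) ∈ Subgroup.normalizer (A : Set G) := hAn hx
    rw [Subgroup.mem_normalizer_iff] at hx' ⊢
    intro h
    exact hx' (h : G)
  have hAM := Cfsg.Agent.S1457.result (G := ↥N) hNodd p S (A.subgroupOf N) hA' hA'c hA'n
  obtain ⟨M, hM⟩ : ∃ M : Subgroup ↥N, M = Cfsg.pPrimePCore p ↥N := ⟨_, rfl⟩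
  obtain ⟨K, hK⟩ : ∃ K : Subgroup ↥N, K = Cfsg.pPrimeCore p ↥N := ⟨_, rfl⟩
  haveI hMn : M.Normal := by rw [hM]; exact Cfsg.Agent.H37.AG.pPrimePCore_normal p
  haveI hKn : K.Normal := by rw [hK]; exact Cfsg.Agent.H14.pPrimeCore_normal p ↥N
  have hKcop : (Nat.card K).Coprime p := by
    rw [hK]; exact Cfsg.Agent.H14.pPrimeCore_coprime p ↥N
  have hMle : M ≤ K ⊔ ((S : Subgroup ↥N) ⊓ M) := by
    rw [hM, hK]; exact Cfsg.Agent.H37.AG.pPrimePCore_le_sup S
  have hfr : ∀ x : ↥N, ∃ k ∈ K, ∃ y ∈ Subgroup.normalizer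
      ((((S : Subgroup ↥N) ⊓ M : Subgroup ↥N)) : Set ↥N), x = k * y := by
    intro x
    obtain ⟨n, hn, y, hy, rfl⟩ := Cfsg.Agent.H37.AG.frattini_inf S M x
    obtain ⟨k, hk, s, hs, rfl⟩ := Subgroup.mem_sup_of_normal_left.1 (hMle hn)
    exact ⟨k, hk, s * y, mul_mem (Subgroup.le_normalizer hs) hy, by rw [mul_assoc]⟩
  obtain ⟨R, hR⟩ : ∃ R : Subgroup G, R = ((S : Subgroup ↥N) ⊓ M).map N.subtype := ⟨_, rfl⟩
  have hRp : IsPGroup p R := by
    rw [hR]; exact (S.isPGroup'.to_le inf_le_left).map _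
  have hAR : A ≤ R := by
    intro a ha
    have ha' : (⟨a, hAN ha⟩ : ↥N) ∈ A.subgroupOf N := ha
    rw [hR]
    exact ⟨⟨a, hAN ha⟩, ⟨hA' ha', by rw [hM]; exact hAM ha'⟩, rfl⟩
  have hRD : Subgroup.normalizer (R : Set G) ≤ D := hD R hRp hAR
  have hyD : ∀ y ∈ Subgroup.normalizer ((((S : Subgroup ↥N) ⊓ M : Subgroup ↥N)) : Set ↥N),
      (y : G) ∈ D := by
    intro y hy
    apply hRD
    rw [Subgroup.mem_normalizer_iff] at hy ⊢
    intro h
    rw [hR]
    constructor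
    · rintro ⟨w, hw, rfl⟩
      exact ⟨y * w * y⁻¹, (hy w).1 hw, rfl⟩
    · rintro ⟨w, hw, hwe⟩
      refine ⟨y⁻¹ * w * y, ?_, ?_⟩
      · have h1 : y * (y⁻¹ * w * y) * y⁻¹ = w := by group
        exact (hy (y⁻¹ * w * y)).2 (by rw [h1]; exact hw)
      · have hw' : (w : G) = (y : G) * h * (y : G)⁻¹ := hwe
        show (y : G)⁻¹ * (w : G) * (y : G) = h
        rw [hw']
        group
  -- Step 3: the quotient `N / K`
  obtain ⟨L, hL⟩ : ∃ L : Subgroup ↥N, L = D.subgroupOf N := ⟨_, rfl⟩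
  have hLsurj : L.map (QuotientGroup.mk' K) = ⊤ := by
    rw [eq_top_iff]
    intro q _
    obtain ⟨x, rfl⟩ := QuotientGroup.mk'_surjective K q
    obtain ⟨k, hk, y, hy, rfl⟩ := hfr x
    refine ⟨y, ?_, ?_⟩
    · rw [hL]; exact hyD y hy
    · rw [map_mul]
      have h1 : QuotientGroup.mk' K k = 1 := (QuotientGroup.eq_one_iff k).2 hk
      rw [h1, one_mul]
  have hLD : (⁅L, L⁆).map N.subtype ≤ ⁅D, D⁆ := by
    rw [Subgroup.map_commutator]
    have h1 : L.map N.subtype ≤ D := by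
      rw [hL, Subgroup.subgroupOf_map_subtype]
      exact inf_le_left
    exact Subgroup.commutator_mono h1 h1
  intro x hx
  have hxN : x ∈ N := hPN hx
  have hx' : (⟨x, hxN⟩ : ↥N) ∈ commutator ↥N := by
    have h1 : x ∈ (commutator ↥N).map N.subtype := by
      rw [Subgroup.map_subtype_commutator]
      exact hPN' hx
    obtain ⟨c, hc, hcx⟩ := h1
    have h2 : c = ⟨x, hxN⟩ := Subtype.ext hcx
    rw [← h2]
    exact hc
  have h1 : QuotientGroup.mk' K ⟨x, hxN⟩ ∈ (⁅L, L⁆).map (QuotientGroup.mk' K) := by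
    rw [Subgroup.map_commutator, hLsurj]
    have h2 : QuotientGroup.mk' K ⟨x, hxN⟩ ∈ (commutator ↥N).map (QuotientGroup.mk' K) :=
      Subgroup.mem_map_of_mem _ hx'
    rw [commutator_def, Subgroup.map_commutator,
      Subgroup.map_top_of_surjective _ (QuotientGroup.mk'_surjective K)] at h2
    exact h2
  obtain ⟨l, hl, hlx⟩ := h1
  have hk : l⁻¹ * ⟨x, hxN⟩ ∈ K := QuotientGroup.eq.1 hlx
  obtain ⟨b, hb⟩ := P.isPGroup' ⟨x, hx⟩
  have hxb : x ^ p ^ b = 1 := by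
    have h2 := congrArg Subtype.val hb
    simpa using h2
  have hkord : ((l⁻¹ * ⟨x, hxN⟩ : ↥N) : G) ^ orderOf (l⁻¹ * ⟨x, hxN⟩ : ↥N) = 1 := by
    rw [← Subgroup.coe_pow, pow_orderOf_eq_one]
    rfl
  have hcop : Nat.Coprime (orderOf (l⁻¹ * ⟨x, hxN⟩ : ↥N)) (p ^ b) :=
    Nat.Coprime.pow_right b
      (Nat.Coprime.coprime_dvd_left (Subgroup.orderOf_dvd_natCard K hk) hKcop)
  have hxl : x = (l : G) * ((l⁻¹ * ⟨x, hxN⟩ : ↥N) : G) := by
    show x = (l : G) * ((l : G)⁻¹ * x)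
    group
  have hlD : (l : G) ∈ ⁅D, D⁆ := hLD ⟨l, hl, rfl⟩
  have hkD : ((l⁻¹ * ⟨x, hxN⟩ : ↥N) : G) ∈ D := by
    have hle : ⁅D, D⁆ ≤ D := Subgroup.commutator_le.2 (fun g1 h1 g2 h2 => by
      rw [commutatorElement_def]
      exact D.mul_mem (D.mul_mem (D.mul_mem h1 h2) (D.inv_mem h1)) (D.inv_mem h2))
    have hxD : x ∈ D := hD (P : Subgroup G) P.isPGroup' hAP (Subgroup.le_normalizer hx)
    show (l : G)⁻¹ * x ∈ D
    exact D.mul_mem (D.inv_mem (hle hlD)) hxD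
  exact mem_commutator_of_coprime D hxl hlD hkD hkord hxb hcop

end Cfsg.Agent.Helper55.BG95

section Check
universe v

example {G : Type v} [Group G] [Finite G] (hG : Cfsg.IsMinSimpleOddOrder G) (p : ℕ) [Fact p.Prime] (P : Sylow p G) (A D : Subgroup G) (hAP : A ≤ (P : Subgroup G)) (hAc : IsMulCommutative A) (hAn : (P : Subgroup G) ≤ Subgroup.normalizer (A : Set G)) (hD : ∀ R : Subgroup G, IsPGroup p R → A ≤ R → Subgroup.normalizer (R : Set G) ≤ D) : (P : Subgroup G) ≤ ⁅D, D⁆ :=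
  Cfsg.Agent.Helper55.BG95.bg95_transfer hG p P A D hAP hAc hAn hD

end Check
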