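import Cfsg.Prelude.Def_FischerSpaces
import Cfsg.Prelude.Def_CaseTheorems
import Mathlib

/-!
# Lifting connectivity of a commuting graph through an inverted odd central quotient (S5459)
-/

set_option autoImplicit false

namespace Cfsg.Agent.Helper55

open Cfsg

section CommGraphLift

variable {G : Type*} [Group G]

theorem mem_conjugatesOf_iff_exists {a d : G} : a ∈ conjugatesOf d ↔ ∃ g : G, g * d * g⁻¹ = a :=
  isConj_iff

/-- Square roots in a subgroup of odd order. -/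
theorem exists_sq_of_odd_card (Z : Subgroup G) (hodd : Odd (Nat.card Z)) (c : G) (hc : c ∈ Z) :
    ∃ e ∈ Z, e * e = c := by
  obtain ⟨k, hk⟩ := hodd
  refine ⟨c ^ (k + 1), Z.pow_mem hc _, ?_⟩
  have h1 : c ^ Nat.card Z = 1 := by
    have h2 : (⟨c, hc⟩ : Z) ^ Nat.card Z = 1 := pow_card_eq_one'
    have h3 := congrArg Subtype.val h2
    rw [Subgroup.coe_pow] at h3
    exact h3
  rw [← pow_add]
  have h4 : k + 1 + (k + 1) = Nat.card Z + 1 := by omega
  rw [h4, pow_succ, h1, one_mul]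

/-- An element of a subgroup of odd order which equals its inverse is trivial. -/
theorem eq_one_of_inv_eq_of_odd_card (Z : Subgroup G) (hodd : Odd (Nat.card Z)) (c : G) (hc : c ∈ Z)
    (h : c = c⁻¹) : c = 1 := by
  obtain ⟨e, he, hee⟩ := exists_sq_of_odd_card Z hodd c hc
  obtain ⟨k, hk⟩ := hodd
  have h1 : c ^ Nat.card Z = 1 := by
    have h2 : (⟨c, hc⟩ : Z) ^ Nat.card Z = 1 := pow_card_eq_one'
    have h3 := congrArg Subtype.val h2
    rw [Subgroup.coe_pow] at h3
    exact h3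
  have h2 : c * c = 1 := by
    nth_rewrite 2 [h]
    exact mul_inv_cancel c
  rw [hk, pow_succ, pow_mul, pow_two, h2, one_pow, one_mul] at h1
  exact h1

/-- Conjugation by `g` as a graph endomorphism of the commuting graph of a conjugacy class. -/
def conjGraphHom (d g : G) :
    commutingGraph (conjugatesOf d) →g commutingGraph (conjugatesOf d) where
  toFun x := ⟨g * x.1 * g⁻¹, by
    have hx : IsConj d x.1 := x.2
    exact hx.trans (isConj_iff.mpr ⟨g, rfl⟩)⟩
  map_rel' := by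
    intro a b hab
    unfold commutingGraph at hab ⊢
    rw [SimpleGraph.fromRel_adj] at hab ⊢
    obtain ⟨hne, hcomm⟩ := hab
    refine ⟨?_, ?_⟩
    · intro h
      apply hne
      apply Subtype.ext
      have h1 := congrArg Subtype.val h
      simp only at h1
      have h2 : g⁻¹ * (g * a.1 * g⁻¹) * g = g⁻¹ * (g * b.1 * g⁻¹) * g := by rw [h1]
      simpa [mul_assoc] using h2
    · have key : ∀ x y : G, Commute x y → Commute (g * x * g⁻¹) (g * y * g⁻¹) := by
        intro x y hxy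
        show g * x * g⁻¹ * (g * y * g⁻¹) = g * y * g⁻¹ * (g * x * g⁻¹)
        have h1 : x * y = y * x := hxy
        calc g * x * g⁻¹ * (g * y * g⁻¹) = g * (x * y) * g⁻¹ := by group
          _ = g * (y * x) * g⁻¹ := by rw [h1]
          _ = g * y * g⁻¹ * (g * x * g⁻¹) := by group
      rcases hcomm with h | h
      · exact Or.inl (key _ _ h)
      · exact Or.inr (key _ _ h)

/-- General lifting statement. -/
theorem commutingGraph_connected_of_quotient (Z : Subgroup G) [hn : Z.Normal] (d : G)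
    (hd2 : d * d = 1) (hZodd : Odd (Nat.card Z)) (hinv : ∀ c ∈ Z, d * c * d⁻¹ = c⁻¹)
    (hZN : ∀ N : Subgroup G, (∀ a ∈ conjugatesOf d, ∃ c ∈ Z, a * c ∈ N) → Z ≤ N)
    (hconn : (commutingGraph (conjugatesOf (QuotientGroup.mk d : G ⧸ Z))).Connected) :
    (commutingGraph (conjugatesOf d)).Connected := by
  -- basic facts on the class
  have hD : ∀ a ∈ conjugatesOf d, a * a = 1 ∧ ∀ c ∈ Z, a * c * a⁻¹ = c⁻¹ := by
    intro a ha
    obtain ⟨g, rfl⟩ := mem_conjugatesOf_iff_exists.mp ha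
    refine ⟨?_, ?_⟩
    · calc g * d * g⁻¹ * (g * d * g⁻¹) = g * (d * d) * g⁻¹ := by group
        _ = 1 := by rw [hd2]; group
    · intro c hc
      have h1 : g⁻¹ * c * g ∈ Z := by simpa using hn.conj_mem c hc g⁻¹
      have h2 := hinv _ h1
      calc g * d * g⁻¹ * c * (g * d * g⁻¹)⁻¹ = g * (d * (g⁻¹ * c * g) * d⁻¹) * g⁻¹ := by group
        _ = g * (g⁻¹ * c * g)⁻¹ * g⁻¹ := by rw [h2]
        _ = c⁻¹ := by group
  have hDinv : ∀ a ∈ conjugatesOf d, a⁻¹ = a := by
    intro a ha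
    exact inv_eq_of_mul_eq_one_left (hD a ha).1
  -- F1: the class is a union of cosets of Z
  have hF1 : ∀ a ∈ conjugatesOf d, ∀ c ∈ Z, a * c ∈ conjugatesOf d := by
    intro a ha c hc
    obtain ⟨e, he, hee⟩ := exists_sq_of_odd_card Z hZodd c hc
    have h1 := (hD a ha).2 e he
    have h2 : a * e = e⁻¹ * a := by
      calc a * e = a * e * a⁻¹ * a := by group
        _ = e⁻¹ * a := by rw [h1]
    have h3 : a * c = e⁻¹ * a * e⁻¹⁻¹ := by
      rw [← hee, inv_inv, ← h2]; group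
    rw [h3]
    have hx : IsConj d a := ha
    exact hx.trans (isConj_iff.mpr ⟨e⁻¹, rfl⟩)
  -- F3: walk lifting
  have lift : ∀ (u v : conjugatesOf (QuotientGroup.mk d : G ⧸ Z)),
      (commutingGraph (conjugatesOf (QuotientGroup.mk d : G ⧸ Z))).Walk u v →
      ∀ (a : G) (ha : a ∈ conjugatesOf d), (QuotientGroup.mk a : G ⧸ Z) = u.1 →
      ∃ (b : G) (hb : b ∈ conjugatesOf d), (QuotientGroup.mk b : G ⧸ Z) = v.1 ∧
        (commutingGraph (conjugatesOf d)).Reachable ⟨a, ha⟩ ⟨b, hb⟩ := by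
    intro u v p
    induction p with
    | nil => intro a ha hπ; exact ⟨a, ha, hπ, SimpleGraph.Reachable.refl _⟩
    | @cons u w v hadj p ih =>
      intro a ha hπ
      unfold commutingGraph at hadj
      rw [SimpleGraph.fromRel_adj] at hadj
      obtain ⟨hne, hcomm⟩ := hadj
      have hcomm' : Commute u.1 w.1 := by
        rcases hcomm with h | h
        · exact h
        · exact h.symm
      -- a lift of `w`
      obtain ⟨gbar, hg⟩ := mem_conjugatesOf_iff_exists.mp w.2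
      obtain ⟨g, rfl⟩ := QuotientGroup.mk_surjective gbar
      have hb₀ : g * d * g⁻¹ ∈ conjugatesOf d := mem_conjugatesOf_iff_exists.mpr ⟨g, rfl⟩
      have hπb₀ : (QuotientGroup.mk (g * d * g⁻¹) : G ⧸ Z) = w.1 := by
        rw [← hg]; simp
      obtain ⟨b₀, hb₀eq⟩ : ∃ b₀, b₀ = g * d * g⁻¹ := ⟨_, rfl⟩
      rw [← hb₀eq] at hb₀ hπb₀
      -- the commutator lies in Z
      have hc : a * b₀ * a⁻¹ * b₀⁻¹ ∈ Z := by
        rw [← QuotientGroup.eq_one_iff]
        have h1 : (QuotientGroup.mk (a * b₀ * a⁻¹ * b₀⁻¹) : G ⧸ Z) =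
            (QuotientGroup.mk a : G ⧸ Z) * QuotientGroup.mk b₀ * (QuotientGroup.mk a)⁻¹ *
              (QuotientGroup.mk b₀)⁻¹ := by simp
        rw [h1, hπ, hπb₀]
        have h2 : u.1 * w.1 = w.1 * u.1 := hcomm'
        rw [h2]; group
      obtain ⟨e, he, hee⟩ := exists_sq_of_odd_card Z hZodd _ hc
      have h1 : a * b₀ * a⁻¹ = e * e * b₀ := by
        rw [hee]; group
      have h2 : a * e⁻¹ * a⁻¹ = e := by
        have h := (hD a ha).2 e⁻¹ (Z.inv_mem he)
        rw [inv_inv] at h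
        exact h
      have h3 : b₀ * e = e⁻¹ * b₀ := by
        have h := (hD b₀ hb₀).2 e he
        calc b₀ * e = b₀ * e * b₀⁻¹ * b₀ := by group
          _ = e⁻¹ * b₀ := by rw [h]
      have h4 : e * b₀ = b₀ * e⁻¹ := by
        calc e * b₀ = e * (b₀ * e) * e⁻¹ := by group
          _ = e * (e⁻¹ * b₀) * e⁻¹ := by rw [h3]
          _ = b₀ * e⁻¹ := by group
      have h5 : a * (b₀ * e⁻¹) * a⁻¹ = b₀ * e⁻¹ := by
        calc a * (b₀ * e⁻¹) * a⁻¹ = (a * b₀ * a⁻¹) * (a * e⁻¹ * a⁻¹) := by group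
          _ = e * e * b₀ * e := by rw [h1, h2]
          _ = e * e * (b₀ * e) := by group
          _ = e * e * (e⁻¹ * b₀) := by rw [h3]
          _ = e * b₀ := by group
          _ = b₀ * e⁻¹ := h4
      have hb : b₀ * e⁻¹ ∈ conjugatesOf d := hF1 b₀ hb₀ e⁻¹ (Z.inv_mem he)
      have hπb : (QuotientGroup.mk (b₀ * e⁻¹) : G ⧸ Z) = w.1 := by
        rw [← hπb₀, QuotientGroup.eq]
        have : (b₀ * e⁻¹)⁻¹ * b₀ = e := by group
        rw [this]; exact he
      have hadj' : (commutingGraph (conjugatesOf d)).Adj ⟨a, ha⟩ ⟨b₀ * e⁻¹, hb⟩ := by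
        unfold commutingGraph
        rw [SimpleGraph.fromRel_adj]
        refine ⟨?_, Or.inl ?_⟩
        · intro h
          apply hne
          apply Subtype.ext
          have h6 : a = b₀ * e⁻¹ := congrArg Subtype.val h
          rw [← hπ, ← hπb, h6]
        · show a * (b₀ * e⁻¹) = b₀ * e⁻¹ * a
          calc a * (b₀ * e⁻¹) = a * (b₀ * e⁻¹) * a⁻¹ * a := by group
            _ = b₀ * e⁻¹ * a := by rw [h5]
      obtain ⟨b, hb', hπb', hreach⟩ := ih (b₀ * e⁻¹) hb hπb
      exact ⟨b, hb', hπb', hadj'.reachable.trans hreach⟩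
  -- the component of d
  have hd0 : d ∈ conjugatesOf d := mem_conjugatesOf_self
  obtain ⟨R, hR⟩ : ∃ R : Set G, R = {x | ∃ hx : x ∈ conjugatesOf d,
      (commutingGraph (conjugatesOf d)).Reachable ⟨d, hd0⟩ ⟨x, hx⟩} := ⟨_, rfl⟩
  have hRD : ∀ x ∈ R, x ∈ conjugatesOf d := by
    intro x hx; rw [hR] at hx; exact hx.1
  -- conjugation by elements of R preserves R
  have hRconj : ∀ a ∈ R, ∀ x ∈ R, a * x * a⁻¹ ∈ R := by
    intro a ha x hx
    rw [hR] at ha hx ⊢
    obtain ⟨haD, hda⟩ := ha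
    obtain ⟨hxD, hdx⟩ := hx
    have h1 := hdx.map (conjGraphHom d a)
    have h2 := hda.map (conjGraphHom d a)
    have h3 : (conjGraphHom d a) ⟨a, haD⟩ = ⟨a, haD⟩ := by
      apply Subtype.ext
      show a * a * a⁻¹ = a
      group
    rw [h3] at h2
    refine ⟨((conjGraphHom d a) ⟨x, hxD⟩).2, ?_⟩
    exact (hda.trans h2.symm).trans h1
  have hNconj : ∀ g ∈ Subgroup.closure R,
      (∀ x ∈ R, g * x * g⁻¹ ∈ R) ∧ (∀ x ∈ R, g⁻¹ * x * g ∈ R) := by
    intro g hg
    induction hg using Subgroup.closure_induction with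
    | mem a ha =>
      refine ⟨hRconj a ha, ?_⟩
      intro x hx
      have h1 := hDinv a (hRD a ha)
      have h2 := hRconj a ha x hx
      have h3 : a⁻¹ * x * a = a * x * a⁻¹ := by rw [h1]
      rw [h3]
      exact h2
    | one => simp
    | mul g₁ g₂ _ _ ih₁ ih₂ =>
      refine ⟨?_, ?_⟩
      · intro x hx
        have h := ih₁.1 _ (ih₂.1 x hx)
        have h' : g₁ * g₂ * x * (g₁ * g₂)⁻¹ = g₁ * (g₂ * x * g₂⁻¹) * g₁⁻¹ := by group
        rw [h']; exact h
      · intro x hx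
        have h := ih₂.2 _ (ih₁.2 x hx)
        have h' : (g₁ * g₂)⁻¹ * x * (g₁ * g₂) = g₂⁻¹ * (g₁⁻¹ * x * g₁) * g₂ := by group
        rw [h']; exact h
    | inv g _ ih =>
      refine ⟨?_, ?_⟩
      · intro x hx
        have h := ih.2 x hx
        rw [inv_inv]; exact h
      · intro x hx
        have h := ih.1 x hx
        rw [inv_inv]; exact h
  -- R meets every coset
  have hcover : ∀ a ∈ conjugatesOf d, ∃ c ∈ Z, a * c ∈ R := by
    intro a ha
    have hmem : (QuotientGroup.mk a : G ⧸ Z) ∈ conjugatesOf (QuotientGroup.mk d : G ⧸ Z) := by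
      obtain ⟨g, rfl⟩ := mem_conjugatesOf_iff_exists.mp ha
      exact mem_conjugatesOf_iff_exists.mpr ⟨QuotientGroup.mk g, by simp⟩
    have hreach := hconn.preconnected ⟨QuotientGroup.mk d, mem_conjugatesOf_self⟩
      ⟨QuotientGroup.mk a, hmem⟩
    obtain ⟨p⟩ := hreach
    obtain ⟨b, hb, hπb, hdb⟩ := lift _ _ p d hd0 rfl
    refine ⟨a⁻¹ * b, ?_, ?_⟩
    · rw [← QuotientGroup.eq]; exact hπb.symm
    · have : a * (a⁻¹ * b) = b := by group
      rw [this, hR]
      exact ⟨hb, hdb⟩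
  have hZle : Z ≤ Subgroup.closure R := by
    apply hZN
    intro a ha
    obtain ⟨c, hc, hac⟩ := hcover a ha
    exact ⟨c, hc, Subgroup.subset_closure hac⟩
  -- every element of the class is in R
  have hall : ∀ a ∈ conjugatesOf d, a ∈ R := by
    intro a ha
    obtain ⟨c, hc, hac⟩ := hcover a ha
    obtain ⟨e, he, hee⟩ := exists_sq_of_odd_card Z hZodd c⁻¹ (Z.inv_mem hc)
    have hacD := hRD _ hac
    have h1 := (hD _ hacD).2 e he
    have h2 : a * c * e = e⁻¹ * (a * c) := by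
      calc a * c * e = a * c * e * (a * c)⁻¹ * (a * c) := by group
        _ = e⁻¹ * (a * c) := by rw [h1]
    have h3 : a = e⁻¹ * (a * c) * e := by
      calc a = a * c * (e * e) := by rw [hee]; group
        _ = a * c * e * e := by group
        _ = e⁻¹ * (a * c) * e := by rw [h2]
    have h4 := (hNconj e (hZle he)).2 _ hac
    rw [← h3] at h4
    exact h4
  refine SimpleGraph.Connected.mk ?_ (nonempty := ⟨⟨d, hd0⟩⟩)
  intro u v
  have hu := hall u.1 u.2
  have hv := hall v.1 v.2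
  rw [hR] at hu hv
  obtain ⟨_, hu'⟩ := hu
  obtain ⟨_, hv'⟩ := hv
  exact hu'.symm.trans hv'

/-- If `N·Z(L)` covers the class of `d`, `L` quasisimple normal, and `d` inverts the odd-order
centre `Z(L)`, then `Z(L) ≤ N`. -/
theorem center_le_of_cover (L : Subgroup G) [L.Normal] (hL : IsQuasisimple ↥L) (d : G)
    (hodd : Odd (Nat.card ↥(Subgroup.center ↥L)))
    (hinv : ∀ c ∈ (Subgroup.center ↥L).map L.subtype, d * c * d⁻¹ = c⁻¹)
    [hn : ((Subgroup.center ↥L).map L.subtype).Normal]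
    (N : Subgroup G)
    (hN : ∀ a ∈ conjugatesOf d, ∃ c ∈ (Subgroup.center ↥L).map L.subtype, a * c ∈ N) :
    (Subgroup.center ↥L).map L.subtype ≤ N := by
  obtain ⟨hperf, hsimp⟩ := hL
  haveI := hsimp
  have hcomm_top : commutator ↥L = ⊤ := hperf.commutator_eq_top
  have hZodd : Odd (Nat.card ↥((Subgroup.center ↥L).map L.subtype)) := by
    rw [Subgroup.card_subtype]; exact hodd
  -- elements of Z lie in L and are central in L
  have hZL : ∀ c ∈ (Subgroup.center ↥L).map L.subtype, c ∈ L ∧ ∀ l ∈ L, l * c = c * l := by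
    rintro c ⟨c', hc', rfl⟩
    refine ⟨c'.2, ?_⟩
    intro l hl
    have h := Subgroup.mem_center_iff.mp hc' ⟨l, hl⟩
    exact congrArg Subtype.val h
  -- the normal closure of d lies in N ⊔ Z
  have hM : Subgroup.normalClosure ({d} : Set G) ≤ N ⊔ (Subgroup.center ↥L).map L.subtype := by
    unfold Subgroup.normalClosure
    rw [Subgroup.closure_le]
    intro a ha
    rw [Group.mem_conjugatesOfSet_iff] at ha
    obtain ⟨b, hb, hba⟩ := ha
    rw [Set.mem_singleton_iff] at hb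
    subst hb
    obtain ⟨c, hc, hac⟩ := hN a hba
    have h1 : a = (a * c) * c⁻¹ := by group
    rw [h1]
    exact Subgroup.mul_mem _ (Subgroup.mem_sup_left hac) (Subgroup.mem_sup_right (inv_mem hc))
  have hMn : (Subgroup.normalClosure ({d} : Set G)).Normal := Subgroup.normalClosure_normal
  have hdM : d ∈ Subgroup.normalClosure ({d} : Set G) :=
    Subgroup.subset_normalClosure (Set.mem_singleton d)
  have hKn : ((Subgroup.normalClosure ({d} : Set G)).subgroupOf L).Normal := inferInstance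
  have hmap : (((Subgroup.normalClosure ({d} : Set G)).subgroupOf L).map
      (QuotientGroup.mk' (Subgroup.center ↥L))).Normal :=
    Subgroup.Normal.map hKn _ (QuotientGroup.mk'_surjective _)
  rcases hmap.eq_bot_or_eq_top with hbot | htop
  · -- d centralizes L, so Z = 1
    rw [Subgroup.map_eq_bot_iff, QuotientGroup.ker_mk'] at hbot
    have hcen : ∀ l ∈ L, l * d * l⁻¹ * d⁻¹ ∈ L ∧ ∀ m ∈ L, m * (l * d * l⁻¹ * d⁻¹) =
        (l * d * l⁻¹ * d⁻¹) * m := by
      intro l hl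
      have h1 : l * d * l⁻¹ * d⁻¹ ∈ L := by
        have h2 : d * l⁻¹ * d⁻¹ ∈ L := Subgroup.Normal.conj_mem inferInstance _ (L.inv_mem hl) d
        have h3 : l * d * l⁻¹ * d⁻¹ = l * (d * l⁻¹ * d⁻¹) := by group
        rw [h3]; exact L.mul_mem hl h2
      refine ⟨h1, ?_⟩
      have h4 : l * d * l⁻¹ * d⁻¹ ∈ Subgroup.normalClosure ({d} : Set G) :=
        Subgroup.mul_mem _ (hMn.conj_mem d hdM l) (Subgroup.inv_mem _ hdM)
      have h5 : (⟨l * d * l⁻¹ * d⁻¹, h1⟩ : ↥L) ∈ Subgroup.center ↥L :=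
        hbot (Subgroup.mem_subgroupOf.mpr h4)
      intro m hm
      have h6 := Subgroup.mem_center_iff.mp h5 ⟨m, hm⟩
      exact congrArg Subtype.val h6
    obtain ⟨θ, hθ⟩ : ∃ θ : ↥L →* ↥(Subgroup.center ↥L),
        ∀ l : ↥L, (((θ l : ↥(Subgroup.center ↥L)) : ↥L) : G) = (l : G) * d * (l : G)⁻¹ * d⁻¹ := by
      refine ⟨{ toFun := fun l => ⟨⟨(l : G) * d * (l : G)⁻¹ * d⁻¹, (hcen l l.2).1⟩, ?_⟩
                map_one' := ?_
                map_mul' := ?_ }, fun l => rfl⟩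
      · rw [Subgroup.mem_center_iff]
        intro m
        apply Subtype.ext
        exact (hcen l l.2).2 m m.2
      · apply Subtype.ext; apply Subtype.ext
        show (1 : G) * d * (1 : G)⁻¹ * d⁻¹ = 1
        group
      · intro l m
        apply Subtype.ext; apply Subtype.ext
        show (l : G) * (m : G) * d * ((l : G) * (m : G))⁻¹ * d⁻¹ =
          ((l : G) * d * (l : G)⁻¹ * d⁻¹) * ((m : G) * d * (m : G)⁻¹ * d⁻¹)
        have hz := (hcen m m.2).2
        calc (l : G) * (m : G) * d * ((l : G) * (m : G))⁻¹ * d⁻¹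
            = (l : G) * ((m : G) * d * (m : G)⁻¹ * d⁻¹) * (d * (l : G)⁻¹ * d⁻¹) := by group
          _ = ((m : G) * d * (m : G)⁻¹ * d⁻¹) * (l : G) * (d * (l : G)⁻¹ * d⁻¹) := by
              rw [hz l l.2]
          _ = ((m : G) * d * (m : G)⁻¹ * d⁻¹) * ((l : G) * d * (l : G)⁻¹ * d⁻¹) := by group
          _ = ((l : G) * d * (l : G)⁻¹ * d⁻¹) * ((m : G) * d * (m : G)⁻¹ * d⁻¹) :=
              (hz _ (hcen l l.2).1).symm
    have hker0 : commutator ↥L ≤ θ.ker := by
      rw [commutator_def, Subgroup.commutator_le]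
      intro g₁ _ g₂ _
      rw [MonoidHom.mem_ker, map_commutatorElement, commutatorElement_eq_one_iff_commute]
      show θ g₁ * θ g₂ = θ g₂ * θ g₁
      apply Subtype.ext
      exact Subgroup.mem_center_iff.mp (θ g₂).2 (θ g₁).1
    have hker : ∀ l : ↥L, θ l = 1 := by
      intro l
      have h1 : l ∈ commutator ↥L := by rw [hcomm_top]; exact Subgroup.mem_top l
      exact MonoidHom.mem_ker.mp (hker0 h1)
    have hdL : ∀ l ∈ L, l * d * l⁻¹ * d⁻¹ = 1 := by
      intro l hl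
      have h1 := hker ⟨l, hl⟩
      have h2 := hθ ⟨l, hl⟩
      rw [h1] at h2
      exact h2.symm
    intro c hc
    have hcL := (hZL c hc).1
    have h1 := hdL c hcL
    have h2 : d * c * d⁻¹ = c := by
      have h3 : c * d * c⁻¹ * d⁻¹ = c * (d * c * d⁻¹)⁻¹ := by group
      rw [h3] at h1
      have h4 : c = d * c * d⁻¹ := by
        have := mul_inv_eq_one.mp h1
        exact this
      exact h4.symm
    have h3 : c = c⁻¹ := by rw [← hinv c hc]; exact h2.symm
    have h4 := eq_one_of_inv_eq_of_odd_card _ hZodd c hc h3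
    rw [h4]; exact N.one_mem
  · -- L ≤ N
    have hLsup : ∀ l ∈ L, ∃ n ∈ N, ∃ z ∈ (Subgroup.center ↥L).map L.subtype, n * z = l := by
      intro l hl
      have h1 : (QuotientGroup.mk' (Subgroup.center ↥L)) ⟨l, hl⟩ ∈
          ((Subgroup.normalClosure ({d} : Set G)).subgroupOf L).map
            (QuotientGroup.mk' (Subgroup.center ↥L)) := by
        rw [htop]; exact Subgroup.mem_top _
      obtain ⟨k, hk, hkl⟩ := h1
      have h2 : k⁻¹ * ⟨l, hl⟩ ∈ Subgroup.center ↥L := by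
        rw [← QuotientGroup.eq]; exact hkl
      have h3 : (k : G) ∈ N ⊔ (Subgroup.center ↥L).map L.subtype :=
        hM (Subgroup.mem_subgroupOf.mp hk)
      have h4 : ((k : G))⁻¹ * l ∈ (Subgroup.center ↥L).map L.subtype :=
        ⟨k⁻¹ * ⟨l, hl⟩, h2, rfl⟩
      have h5 : l ∈ N ⊔ (Subgroup.center ↥L).map L.subtype := by
        have h6 : l = (k : G) * (((k : G))⁻¹ * l) := by group
        rw [h6]
        exact Subgroup.mul_mem _ h3 (Subgroup.mem_sup_right h4)
      exact Subgroup.mem_sup_of_normal_right.mp h5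
    have hLN : commutator ↥L ≤ N.subgroupOf L := by
      rw [commutator_def, Subgroup.commutator_le]
      intro l₁ _ l₂ _
      rw [Subgroup.mem_subgroupOf]
      obtain ⟨n₁, hn₁, z₁, hz₁, h1⟩ := hLsup l₁ l₁.2
      obtain ⟨n₂, hn₂, z₂, hz₂, h2⟩ := hLsup l₂ l₂.2
      have hn₁L : n₁ ∈ L := by
        have : n₁ = (l₁ : G) * z₁⁻¹ := by rw [← h1]; group
        rw [this]; exact L.mul_mem l₁.2 (L.inv_mem (hZL z₁ hz₁).1)
      have e1 : (l₂ : G) * z₁ = z₁ * (l₂ : G) := (hZL z₁ hz₁).2 _ l₂.2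
      have e2 : n₁⁻¹ * z₂ = z₂ * n₁⁻¹ := (hZL z₂ hz₂).2 _ (L.inv_mem hn₁L)
      rw [commutatorElement_def]
      show (l₁ : G) * (l₂ : G) * (l₁ : G)⁻¹ * (l₂ : G)⁻¹ ∈ N
      have h4 : (l₁ : G) * (l₂ : G) * (l₁ : G)⁻¹ * (l₂ : G)⁻¹ = n₁ * n₂ * n₁⁻¹ * n₂⁻¹ := by
        calc (l₁ : G) * (l₂ : G) * (l₁ : G)⁻¹ * (l₂ : G)⁻¹
            = n₁ * (z₁ * (l₂ : G)) * z₁⁻¹ * n₁⁻¹ * (l₂ : G)⁻¹ := by rw [← h1]; group
          _ = n₁ * ((l₂ : G) * z₁) * z₁⁻¹ * n₁⁻¹ * (l₂ : G)⁻¹ := by rw [e1]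
          _ = n₁ * (l₂ : G) * n₁⁻¹ * (l₂ : G)⁻¹ := by group
          _ = n₁ * n₂ * (z₂ * n₁⁻¹) * z₂⁻¹ * n₂⁻¹ := by rw [← h2]; group
          _ = n₁ * n₂ * (n₁⁻¹ * z₂) * z₂⁻¹ * n₂⁻¹ := by rw [e2]
          _ = n₁ * n₂ * n₁⁻¹ * n₂⁻¹ := by group
      rw [h4]
      exact N.mul_mem (N.mul_mem (N.mul_mem hn₁ hn₂) (N.inv_mem hn₁)) (N.inv_mem hn₂)
    intro c hc
    have hcL := (hZL c hc).1
    have h1 : (⟨c, hcL⟩ : ↥L) ∈ N.subgroupOf L := hLN (by rw [hcomm_top]; exact Subgroup.mem_top _)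
    exact Subgroup.mem_subgroupOf.mp h1

/-- S5459. -/
theorem commutingGraph_connected_lift [Finite G] (L : Subgroup G) [L.Normal]
    (hL : IsQuasisimple ↥L) (d : G) (hd : orderOf d = 2)
    (hodd : Odd (Nat.card ↥(Subgroup.center ↥L)))
    (hinv : ∀ c ∈ (Subgroup.center ↥L).map L.subtype, d * c * d⁻¹ = c⁻¹)
    [hn : ((Subgroup.center ↥L).map L.subtype).Normal]
    (hconn : (commutingGraph (conjugatesOf
      (QuotientGroup.mk d : G ⧸ (Subgroup.center ↥L).map L.subtype))).Connected) :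
    (commutingGraph (conjugatesOf d)).Connected := by
  have hd2 : d * d = 1 := by
    have := pow_orderOf_eq_one d
    rw [hd, pow_two] at this
    exact this
  have hZodd : Odd (Nat.card ↥((Subgroup.center ↥L).map L.subtype)) := by
    rw [Subgroup.card_subtype]; exact hodd
  exact commutingGraph_connected_of_quotient _ d hd2 hZodd hinv
    (fun N hN => center_le_of_cover L hL d hodd hinv N hN) hconn

end CommGraphLift

end Cfsg.Agent.Helper55
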