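import Mathlib.NumberTheory.Multiplicity
import Mathlib.GroupTheory.SpecificGroups.Cyclic
import Mathlib.FieldTheory.Finite.Basic
import Mathlib.Tactic.Ring
import Mathlib.Tactic.LinearCombination

/-!
# helper55: conjugation acting on a cyclic subgroup by a power map, and lifting-the-exponent
-/

set_option autoImplicit false

namespace Cfsg.Agent.Helper55

variable {G : Type*} [Group G]

/-- If `b c b⁻¹ = c ^ r` then conjugation by `b` raises every power of `c` to the `r`. -/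
theorem conj_zpow_of_conj_eq {b c : G} {r : ℤ} (h : b * c * b⁻¹ = c ^ r) (j : ℤ) :
    b * c ^ j * b⁻¹ = c ^ (r * j) := by
  have h1 := map_zpow (MulAut.conj b) c j
  simp only [MulAut.conj_apply] at h1
  rw [h1, h, ← zpow_mul]

/-- If `b c b⁻¹ = c ^ r` then `b ^ i c b ^ (-i) = c ^ (r ^ i)`. -/
theorem pow_conj_of_conj_eq {b c : G} {r : ℤ} (h : b * c * b⁻¹ = c ^ r) (i : ℕ) :
    b ^ i * c * (b ^ i)⁻¹ = c ^ (r ^ i) := by
  induction i with
  | zero => simp
  | succ i ih =>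
    have e : b ^ (i + 1) * c * (b ^ (i + 1))⁻¹ = b * (b ^ i * c * (b ^ i)⁻¹) * b⁻¹ := by
      rw [pow_succ']; simp [mul_assoc]
    rw [e, ih, conj_zpow_of_conj_eq h, pow_succ']

/-- Lifting the exponent, in the form used for automorphisms of order `p` of a cyclic `p`-group:
if `p` is an odd prime and `p ^ (m + 1)` divides `r ^ p - 1` (with `m ≥ 1`) then `p ^ m` divides
`r - 1`. -/
theorem int_pow_dvd_sub_one_of_pow_prime {p : ℕ} [Fact p.Prime] (hodd : p ≠ 2) {m : ℕ} {r : ℤ}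
    (h : (p : ℤ) ^ (m + 1) ∣ r ^ p - 1) : (p : ℤ) ^ m ∣ r - 1 := by
  have hp : p.Prime := Fact.out
  have hpodd : Odd p := hp.odd_of_ne_two hodd
  -- p ∣ r - 1
  have h1 : (p : ℤ) ∣ r ^ p - 1 := dvd_trans (dvd_pow_self _ (Nat.succ_ne_zero m)) h
  have h2 : (p : ℤ) ∣ r - 1 := by
    have e1 : ((r ^ p - 1 : ℤ) : ZMod p) = 0 := (ZMod.intCast_zmod_eq_zero_iff_dvd _ p).mpr h1
    have e2 : ((r - 1 : ℤ) : ZMod p) = 0 := by
      push_cast at e1 ⊢
      rw [ZMod.pow_card] at e1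
      exact e1
    exact (ZMod.intCast_zmod_eq_zero_iff_dvd _ p).mp e2
  have h3 : ¬ (p : ℤ) ∣ r := by
    intro hr
    have : (p : ℤ) ∣ 1 := by
      have := dvd_sub hr h2
      simpa using this
    have hp1 := hp.one_lt
    have := Int.le_of_dvd one_pos this
    omega
  have h4 := Int.emultiplicity_pow_sub_pow hp hpodd (x := r) (y := 1) h2 h3 p
  rw [one_pow, hp.emultiplicity_self] at h4
  by_contra hcon
  have h5 : emultiplicity (p : ℤ) (r - 1) < (m : ℕ) := emultiplicity_lt_iff_not_dvd.mpr hcon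
  have h6 : ((m + 1 : ℕ) : ℕ∞) ≤ emultiplicity (p : ℤ) (r ^ p - 1) :=
    pow_dvd_iff_le_emultiplicity.mp h
  rw [h4] at h6
  have hne : emultiplicity (p : ℤ) (r - 1) ≠ ⊤ := ne_top_of_lt h5
  lift emultiplicity (p : ℤ) (r - 1) to ℕ using hne with e he
  norm_cast at h5 h6
  omega

/-- `(1 + x) ^ j ≡ 1 + j x` modulo `x ^ 2`. -/
theorem sq_dvd_one_add_pow_sub (x : ℤ) (j : ℕ) : x ^ 2 ∣ (1 + x) ^ j - (1 + j * x) := by
  induction j with
  | zero => simp
  | succ j ih =>
    obtain ⟨t, ht⟩ := ih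
    refine ⟨t * (1 + x) + j, ?_⟩
    push_cast
    linear_combination (1 + x) * ht

end Cfsg.Agent.Helper55
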