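import Mathlib
import Cfsg.Agent.H20.CentralChar

/-!
# Group algebra tools for S4427

* `aug`: the augmentation `ℂ[G] → ℂ` as an algebra homomorphism;
* `adj`: the standard anti-linear anti-involution `∑ x_g g ↦ ∑ conj(x_g) g⁻¹`;
* `CoeffIn S x`: all coefficients of `x` lie in the subring `S ⊆ ℂ`.
-/

set_option autoImplicit false
set_option linter.unusedSectionVars false

namespace Cfsg.Agent.Helper55

open Cfsg Cfsg.Agent.H20
open scoped ComplexConjugate

universe u

variable {G : Type u} [Group G] [Fintype G]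

/-! ### Augmentation -/

/-- The augmentation map. -/
noncomputable def aug : MonoidAlgebra ℂ G →ₐ[ℂ] ℂ := MonoidAlgebra.lift ℂ ℂ G (1 : G →* ℂ)

theorem aug_apply (x : MonoidAlgebra ℂ G) : aug x = ∑ g : G, x.coeff g := by
  unfold aug
  rw [MonoidAlgebra.lift_apply]
  rw [Finsupp.sum_fintype _ _ (fun g => by simp)]
  simp

theorem aug_single (g : G) (c : ℂ) : aug (MonoidAlgebra.single g c) = c := by
  unfold aug
  rw [MonoidAlgebra.lift_single]
  simp

/-! ### The adjoint -/

/-- The adjoint `∑ x_g g ↦ ∑ conj(x_g) g⁻¹`. -/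
noncomputable def adj (x : MonoidAlgebra ℂ G) : MonoidAlgebra ℂ G :=
  ∑ g : G, MonoidAlgebra.single g (conj (x.coeff g⁻¹))

theorem coeff_adj (x : MonoidAlgebra ℂ G) (g : G) : (adj x).coeff g = conj (x.coeff g⁻¹) := by
  classical
  unfold adj
  rw [MonoidAlgebra.coeff_sum, Finsupp.finsetSum_apply]
  simp only [MonoidAlgebra.coeff_single, Finsupp.single_apply]
  rw [Finset.sum_ite_eq' Finset.univ g]
  simp

theorem adj_ext {x y : MonoidAlgebra ℂ G} (h : ∀ g, x.coeff g = y.coeff g) : x = y := by
  apply MonoidAlgebra.coeff_injective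
  ext g
  exact h g

theorem adj_add (x y : MonoidAlgebra ℂ G) : adj (x + y) = adj x + adj y := by
  apply adj_ext
  intro g
  rw [coeff_adj, MonoidAlgebra.coeff_add, MonoidAlgebra.coeff_add, Finsupp.add_apply,
    Finsupp.add_apply, coeff_adj, coeff_adj, map_add]

theorem adj_smul (c : ℂ) (x : MonoidAlgebra ℂ G) : adj (c • x) = conj c • adj x := by
  apply adj_ext
  intro g
  rw [coeff_adj, MonoidAlgebra.coeff_smul_apply, MonoidAlgebra.coeff_smul_apply, coeff_adj,
    smul_eq_mul, smul_eq_mul, map_mul]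

theorem adj_mul (x y : MonoidAlgebra ℂ G) : adj (x * y) = adj y * adj x := by
  apply adj_ext
  intro g
  rw [coeff_adj, coeff_mul_fintype, coeff_mul_fintype, map_sum,
    ← Equiv.sum_comp (Equiv.mulLeft g⁻¹)]
  apply Finset.sum_congr rfl
  intro a _
  rw [coeff_adj, coeff_adj, map_mul, Equiv.coe_mulLeft, mul_comm]
  congr 2
  · congr 1
    group
  · congr 1
    group

theorem adj_one : adj (1 : MonoidAlgebra ℂ G) = 1 := by
  classical
  apply adj_ext
  intro g
  rw [coeff_adj, MonoidAlgebra.one_def, MonoidAlgebra.coeff_single, Finsupp.single_apply,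
    Finsupp.single_apply]
  by_cases hg : g = 1
  · subst hg
    simp
  · rw [if_neg (fun h => hg (by rw [← inv_inv g, ← h, inv_one])), if_neg (fun h => hg h.symm)]
    simp

theorem adj_adj (x : MonoidAlgebra ℂ G) : adj (adj x) = x := by
  apply adj_ext
  intro g
  rw [coeff_adj, coeff_adj, inv_inv, Complex.conj_conj]

theorem adj_pow (x : MonoidAlgebra ℂ G) (n : ℕ) : adj (x ^ n) = adj x ^ n := by
  induction n with
  | zero => rw [pow_zero, pow_zero, adj_one]
  | succ n ih => rw [pow_succ, adj_mul, ih, pow_succ']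

theorem adj_zero : adj (0 : MonoidAlgebra ℂ G) = 0 := by
  apply adj_ext
  intro g
  rw [coeff_adj]
  simp

theorem adj_aeval (w : MonoidAlgebra ℂ G) (q : Polynomial ℂ) :
    adj (Polynomial.aeval w q) = Polynomial.aeval (adj w) (q.map (starRingEnd ℂ)) := by
  induction q using Polynomial.induction_on' with
  | add p q hp hq => rw [map_add, adj_add, hp, hq, Polynomial.map_add, map_add]
  | monomial n c =>
    rw [Polynomial.aeval_monomial, Polynomial.map_monomial, Polynomial.aeval_monomial,
      ← Algebra.smul_def, ← Algebra.smul_def, adj_smul, adj_pow]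

/-- `coeff 1` of `adj x * x` is the sum of the squared norms of the coefficients. -/
theorem coeff_one_adj_mul (x : MonoidAlgebra ℂ G) :
    (adj x * x).coeff 1 = ((∑ g : G, Complex.normSq (x.coeff g) : ℝ) : ℂ) := by
  rw [coeff_mul_fintype, Complex.ofReal_sum, ← Equiv.sum_comp (Equiv.inv G)]
  apply Finset.sum_congr rfl
  intro g _
  rw [coeff_adj, Equiv.inv_apply, inv_inv, mul_one, mul_comm, Complex.mul_conj]

theorem eq_zero_of_sum_normSq (x : MonoidAlgebra ℂ G)
    (h : ∑ g : G, Complex.normSq (x.coeff g) = 0) : x = 0 := by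
  apply adj_ext
  intro g
  have h1 := (Finset.sum_eq_zero_iff_of_nonneg (fun g _ => Complex.normSq_nonneg _)).mp h g
    (Finset.mem_univ g)
  rw [Complex.normSq_eq_zero.mp h1]
  simp

/-! ### Coefficients in a subring -/

/-- All coefficients lie in `S`. -/
def CoeffIn (S : Subring ℂ) (x : MonoidAlgebra ℂ G) : Prop := ∀ g, x.coeff g ∈ S

theorem coeffIn_zero (S : Subring ℂ) : CoeffIn S (0 : MonoidAlgebra ℂ G) := by
  intro g
  simp [S.zero_mem]

theorem coeffIn_single (S : Subring ℂ) (g : G) {c : ℂ} (hc : c ∈ S) :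
    CoeffIn S (MonoidAlgebra.single g c) := by
  classical
  intro h
  rw [MonoidAlgebra.coeff_single, Finsupp.single_apply]
  split_ifs
  · exact hc
  · exact S.zero_mem

theorem coeffIn_one (S : Subring ℂ) : CoeffIn S (1 : MonoidAlgebra ℂ G) := by
  rw [MonoidAlgebra.one_def]
  exact coeffIn_single S 1 S.one_mem

theorem coeffIn_add (S : Subring ℂ) {x y : MonoidAlgebra ℂ G} (hx : CoeffIn S x)
    (hy : CoeffIn S y) : CoeffIn S (x + y) := by
  intro g
  rw [MonoidAlgebra.coeff_add, Finsupp.add_apply]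
  exact S.add_mem (hx g) (hy g)

theorem coeffIn_mul (S : Subring ℂ) {x y : MonoidAlgebra ℂ G} (hx : CoeffIn S x)
    (hy : CoeffIn S y) : CoeffIn S (x * y) := by
  intro g
  rw [coeff_mul_fintype]
  exact S.sum_mem (fun a _ => S.mul_mem (hx a) (hy _))

theorem coeffIn_smul (S : Subring ℂ) {c : ℂ} (hc : c ∈ S) {x : MonoidAlgebra ℂ G}
    (hx : CoeffIn S x) : CoeffIn S (c • x) := by
  intro g
  rw [MonoidAlgebra.coeff_smul_apply, smul_eq_mul]
  exact S.mul_mem hc (hx g)

theorem coeffIn_pow (S : Subring ℂ) {x : MonoidAlgebra ℂ G} (hx : CoeffIn S x) (n : ℕ) :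
    CoeffIn S (x ^ n) := by
  induction n with
  | zero => rw [pow_zero]; exact coeffIn_one S
  | succ n ih => rw [pow_succ]; exact coeffIn_mul S ih hx

theorem coeffIn_sum (S : Subring ℂ) {ι : Type*} (s : Finset ι) (f : ι → MonoidAlgebra ℂ G)
    (h : ∀ i ∈ s, CoeffIn S (f i)) : CoeffIn S (∑ i ∈ s, f i) := by
  classical
  induction s using Finset.induction_on with
  | empty => rw [Finset.sum_empty]; exact coeffIn_zero S
  | insert a s ha ih =>
    rw [Finset.sum_insert ha]
    exact coeffIn_add S (h a (Finset.mem_insert_self a s))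
      (ih (fun i hi => h i (Finset.mem_insert_of_mem hi)))

theorem coeffIn_aeval (S : Subring ℂ) {w : MonoidAlgebra ℂ G} (hw : CoeffIn S w)
    (q : Polynomial ℂ) (hq : ∀ n, q.coeff n ∈ S) : CoeffIn S (Polynomial.aeval w q) := by
  rw [Polynomial.aeval_eq_sum_range]
  exact coeffIn_sum S _ _ (fun i _ => coeffIn_smul S (hq i) (coeffIn_pow S hw i))

/-- An element commuting with `w` commutes with every polynomial in `w`. -/
theorem commute_aeval {w y : MonoidAlgebra ℂ G} (h : y * w = w * y) (q : Polynomial ℂ) :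
    y * Polynomial.aeval w q = Polynomial.aeval w q * y := by
  induction q using Polynomial.induction_on' with
  | add p q hp hq => rw [map_add, mul_add, add_mul, hp, hq]
  | monomial n c =>
    rw [Polynomial.aeval_monomial]
    have hc : Commute y (w ^ n) := (show Commute y w from h).pow_right n
    rw [← mul_assoc, ← Algebra.commutes c y, mul_assoc, hc.eq, mul_assoc]

end Cfsg.Agent.Helper55
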