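import Mathlib
import Cfsg.Prelude.Def_Blocks
import Cfsg.Agent.H20.LocalRing
import Cfsg.Agent.H81.Rot
import Cfsg.Agent.H81.WBO
import Cfsg.Agent.Helper55.GAlg

/-!
# Idempotents with `p`-integral coefficients vanish in total on `p`-singular elements

For an idempotent `e` of `ℂ[G]` with all coefficients in the local ring at a maximal ideal `M`
of the algebraic integers containing `p`, the sum of the coefficients of `e` over the
`p`-singular elements of `G` is zero (rotation counting, `H81.classTrace_pow_mem`).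
-/

set_option autoImplicit false
set_option linter.unusedSectionVars false

namespace Cfsg.Agent.Helper55

open Cfsg Cfsg.Agent.H20 Cfsg.Agent.H81
open scoped ComplexConjugate

universe u

variable {G : Type u} [Group G] [Fintype G] [DecidableEq G]

theorem sum_psingular_eq_zero {p : ℕ} {M : Ideal AlgInt} (hM : IsPModular p M)
    (e : MonoidAlgebra ℂ G) (hee : e * e = e)
    (hS : CoeffIn (localRing M (isPrime_of_isPModular hM)) e) :
    ∑ g : G, (if p ∣ orderOf g then e.coeff g else 0) = 0 := by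
  classical
  have hp : p.Prime := hM.1
  have hMp := isPrime_of_isPModular hM
  obtain ⟨C, hCdef⟩ : ∃ C : Set G, C = {g : G | p ∣ orderOf g} := ⟨_, rfl⟩
  have hCmem : ∀ g : G, g ∈ C ↔ p ∣ orderOf g := by
    intro g
    rw [hCdef]
    rfl
  obtain ⟨v, hv⟩ : ∃ v : ℂ, v = ∑ g ∈ Finset.univ.filter (· ∈ C), e.coeff g := ⟨_, rfl⟩
  have hgoal : ∑ g : G, (if p ∣ orderOf g then e.coeff g else 0) = v := by
    rw [hv, Finset.sum_filter]
    apply Finset.sum_congr rfl
    intro g _
    by_cases hg : p ∣ orderOf g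
    · rw [if_pos hg, if_pos ((hCmem g).mpr hg)]
    · rw [if_neg hg, if_neg (fun h => hg ((hCmem g).mp h))]
  rw [hgoal]
  have hvS : MemLocalRing M v := by
    rw [hv]
    exact (localRing M hMp).sum_mem (fun g _ => hS g)
  obtain ⟨a, b, hb, hab⟩ := hvS
  have hb0 : (b : ℂ) ≠ 0 := algInt_coe_ne_zero hb
  have hav : (a : ℂ) = (b : ℂ) * v := by
    rw [← hab]
    field_simp
  obtain ⟨A, hA⟩ : ∃ A : ℕ, A = (Nat.card G).factorization p := ⟨_, rfl⟩
  have hGne : Nat.card G ≠ 0 := (Nat.card_pos (α := G)).ne'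
  have hareg : ∀ g : G, ¬ p ∣ orderOf (g ^ p ^ A) := by
    intro g hdvd
    have h1 : (g ^ p ^ A) ^ (Nat.card G / p ^ A) = 1 := by
      rw [← pow_mul, hA, Nat.ordProj_mul_ordCompl_eq_self, pow_card_eq_one']
    have h2 := orderOf_dvd_of_pow_eq_one h1
    exact Nat.not_dvd_ordCompl hp hGne (hA ▸ hdvd.trans h2)
  have hCconj : ∀ g h : G, g ∈ C → h * g * h⁻¹ ∈ C := by
    intro g h hg
    rw [hCmem] at hg ⊢
    have : orderOf (h * g * h⁻¹) = orderOf g := by
      have := orderOf_injective (MulAut.conj h).toMonoidHom (MulAut.conj h).injective g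
      simpa using this
    rw [this]
    exact hg
  have ha0 : (a : ℂ) = 0 := by
    apply eq_zero_of_forall_pow_dvd hM (a : ℂ) a.2
    intro k
    obtain ⟨r, hr, hr'⟩ := classTrace_pow_mem (localRing M hMp) e hS p hp A hareg C hCconj
      (fun g hg => (hCmem g).mp hg) k
    have hpos : 0 < p ^ A * p ^ k := Nat.mul_pos (pow_pos hp.pos A) (pow_pos hp.pos k)
    have hpow : e ^ (p ^ A * p ^ k) = e := by
      obtain ⟨m, hm⟩ := Nat.exists_eq_succ_of_ne_zero hpos.ne'
      rw [hm]
      exact IsIdempotentElem.pow_succ_eq m hee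
    rw [hpow, ← hv] at hr'
    refine ⟨(b : ℂ) * ((p : ℂ) * r), memLocalRing_mul hMp (memLocalRing_algInt hMp b)
      (memLocalRing_mul hMp (memLocalRing_natCast hMp p) hr), ?_⟩
    rw [hav, hr']
    push_cast
    ring
  rw [← hab, ha0, zero_div]

end Cfsg.Agent.Helper55
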