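import Mathlib
import Cfsg.Agent.Helper55.GAlg

/-!
# A Cauchy–Schwarz argument in the group algebra (for S4427)

Let `X` be a conjugation- and inversion-invariant subset of `G` containing `1`, and `e` a
self-adjoint idempotent of `ℂ[G]` whose coefficients on `X` sum to `1` and with
`dim (e ℂ[G] e) · |X| ≤ |G|`.  Then `e = |X|⁻¹ ∑_{x ∈ X} x`, and `X` is closed under
multiplication.
-/

set_option autoImplicit false
set_option linter.unusedSectionVars false

namespace Cfsg.Agent.Helper55

open Cfsg Cfsg.Agent.H20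
open scoped ComplexConjugate

universe u

variable {G : Type u} [Group G] [Fintype G] [DecidableEq G]

/-- The class function `g ↦ ∑_h e(h⁻¹ g⁻¹ h)` (the character of `ℂ[G] e`). -/
noncomputable def psi (e : MonoidAlgebra ℂ G) (g : G) : ℂ := ∑ h : G, e.coeff (h⁻¹ * g⁻¹ * h)

theorem psi_conj (e : MonoidAlgebra ℂ G) (k g : G) : psi e (k * g * k⁻¹) = psi e g := by
  unfold psi
  rw [← Equiv.sum_comp (Equiv.mulLeft k)]
  apply Finset.sum_congr rfl
  intro h _
  rw [Equiv.coe_mulLeft]
  congr 1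
  group

theorem coeff_inv_of_adj {e : MonoidAlgebra ℂ G} (hadj : adj e = e) (z : G) :
    e.coeff z⁻¹ = conj (e.coeff z) := by
  have h := coeff_adj e z⁻¹
  rw [hadj, inv_inv] at h
  exact h

theorem psi_star {e : MonoidAlgebra ℂ G} (hadj : adj e = e) (g : G) :
    conj (psi e g) = psi e g⁻¹ := by
  unfold psi
  rw [map_sum]
  apply Finset.sum_congr rfl
  intro h _
  rw [← coeff_inv_of_adj hadj]
  congr 1
  group

theorem sum_psi (X : Finset G) (hinv : ∀ g ∈ X, g⁻¹ ∈ X)
    (hconj : ∀ g ∈ X, ∀ h : G, h * g * h⁻¹ ∈ X) (e : MonoidAlgebra ℂ G) :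
    ∑ g ∈ X, psi e g = (Fintype.card G : ℂ) * ∑ z ∈ X, e.coeff z := by
  unfold psi
  rw [Finset.sum_comm]
  have key : ∀ h : G, ∑ g ∈ X, e.coeff (h⁻¹ * g⁻¹ * h) = ∑ z ∈ X, e.coeff z := by
    intro h
    apply Finset.sum_nbij' (fun g => h⁻¹ * g⁻¹ * h) (fun z => h * z⁻¹ * h⁻¹)
    · intro g hg
      have := hconj _ (hinv g hg) h⁻¹
      simpa using this
    · intro z hz
      exact hconj _ (hinv z hz) h
    · intro g _
      group
    · intro z _
      group
    · intro g _
      rfl
  rw [Finset.sum_congr rfl (fun h _ => key h), Finset.sum_const, Finset.card_univ, nsmul_eq_mul]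

theorem trace_formula (e : MonoidAlgebra ℂ G) :
    ∑ h : G, (e * MonoidAlgebra.single h 1 * e).coeff h = ∑ a : G, e.coeff a * psi e a := by
  unfold psi
  simp_rw [Finset.mul_sum]
  rw [Finset.sum_comm]
  apply Finset.sum_congr rfl
  intro h _
  rw [coeff_mul_fintype, ← Equiv.sum_comp (Equiv.mulRight h)]
  apply Finset.sum_congr rfl
  intro a _
  rw [MonoidAlgebra.coeff_mul_single_apply, mul_one, Equiv.coe_mulRight]
  congr 2
  · group
  · group

theorem sum_psi_mul_star {e : MonoidAlgebra ℂ G} (hadj : adj e = e) :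
    ∑ g : G, psi e g * conj (psi e g) =
      (Fintype.card G : ℂ) * ∑ a : G, e.coeff a * psi e a := by
  have h1 : ∀ g : G, conj (psi e g) = ∑ k : G, e.coeff (k⁻¹ * g * k) := by
    intro g
    rw [psi_star hadj]
    unfold psi
    simp only [inv_inv]
  simp_rw [h1, Finset.mul_sum]
  rw [Finset.sum_comm]
  have h2 : ∀ k : G, ∑ g : G, psi e g * e.coeff (k⁻¹ * g * k) =
      ∑ a : G, e.coeff a * psi e a := by
    intro k
    rw [← Equiv.sum_comp (MulAut.conj k).toEquiv]
    apply Finset.sum_congr rfl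
    intro a _
    have e1 : (MulAut.conj k).toEquiv a = k * a * k⁻¹ := rfl
    rw [e1, psi_conj, mul_comm]
    congr 2
    group
  rw [Finset.sum_congr rfl (fun k _ => h2 k), Finset.sum_const, Finset.card_univ, nsmul_eq_mul,
    Finset.mul_sum]

/-- **The Cauchy–Schwarz argument.** -/
theorem mul_mem_of_idem (X : Finset G) (h1X : (1 : G) ∈ X) (hinv : ∀ g ∈ X, g⁻¹ ∈ X)
    (hconj : ∀ g ∈ X, ∀ h : G, h * g * h⁻¹ ∈ X) (e : MonoidAlgebra ℂ G) (hee : e * e = e)
    (hadj : adj e = e) (hsum : ∑ z ∈ X, e.coeff z = 1) (d : ℕ)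
    (htr : ∑ h : G, (e * MonoidAlgebra.single h 1 * e).coeff h = (d : ℂ))
    (hd : d * X.card ≤ Fintype.card G) : ∀ y ∈ X, ∀ z ∈ X, y * z ∈ X := by
  have hXpos : 0 < X.card := Finset.card_pos.mpr ⟨1, h1X⟩
  obtain ⟨n, hn⟩ : ∃ n : ℝ, n = X.card := ⟨_, rfl⟩
  obtain ⟨N, hN⟩ : ∃ N : ℝ, N = Fintype.card G := ⟨_, rfl⟩
  have hnpos : 0 < n := by rw [hn]; exact_mod_cast hXpos
  have hNpos : 0 < N := by rw [hN]; exact_mod_cast Fintype.card_pos
  obtain ⟨c, hc⟩ : ∃ c : ℝ, c = N / n := ⟨_, rfl⟩
  have hcn : c * n = N := by rw [hc]; field_simp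
  have hdN : (d : ℝ) * n ≤ N := by rw [hn, hN]; exact_mod_cast hd
  have hdc : (d : ℝ) ≤ c := le_of_mul_le_mul_right (by rw [hcn]; exact hdN) hnpos
  -- (1) the sum of `psi` over `X`
  have hS1 : ∑ g ∈ X, psi e g = (N : ℂ) := by
    rw [sum_psi X hinv hconj, hsum, mul_one, hN]
    push_cast
    rfl
  -- (2) the square norm of `psi`
  have hS2 : ∑ g : G, Complex.normSq (psi e g) = N * d := by
    have h := sum_psi_mul_star hadj (e := e)
    rw [← trace_formula, htr] at h
    simp_rw [Complex.mul_conj] at h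
    have h' : ((∑ g : G, Complex.normSq (psi e g) : ℝ) : ℂ) = ((N * d : ℝ) : ℂ) := by
      rw [Complex.ofReal_sum, h, hN]
      push_cast
      ring
    exact_mod_cast h'
  -- (3) `psi` is constant on `X`
  have hψ : ∀ g ∈ X, psi e g = (c : ℂ) := by
    have hle : ∑ g ∈ X, Complex.normSq (psi e g - c) ≤ 0 := by
      have hexp : ∀ g : G, Complex.normSq (psi e g - c) =
          Complex.normSq (psi e g) - 2 * c * (psi e g).re + c ^ 2 := by
        intro g
        simp only [Complex.normSq_apply, Complex.sub_re, Complex.sub_im, Complex.ofReal_re,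
          Complex.ofReal_im]
        ring
      rw [Finset.sum_congr rfl (fun g _ => hexp g), Finset.sum_add_distrib,
        Finset.sum_sub_distrib, ← Finset.mul_sum, Finset.sum_const, nsmul_eq_mul, ← hn]
      have hre : ∑ g ∈ X, (psi e g).re = N := by
        have h := congrArg Complex.re hS1
        rw [Complex.re_sum] at h
        simpa using h
      have hsub : ∑ g ∈ X, Complex.normSq (psi e g) ≤ N * d := by
        rw [← hS2]
        exact Finset.sum_le_sum_of_subset_of_nonneg (Finset.subset_univ X)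
          (fun g _ _ => Complex.normSq_nonneg _)
      rw [hre]
      have h1 : n * c ^ 2 = c * N := by rw [← hcn]; ring
      have h2 : N * d ≤ N * c := mul_le_mul_of_nonneg_left hdc hNpos.le
      rw [h1]
      linarith
    intro g hg
    have h0 := (Finset.sum_eq_zero_iff_of_nonneg (fun g _ => Complex.normSq_nonneg _)).mp
      (le_antisymm hle (Finset.sum_nonneg (fun g _ => Complex.normSq_nonneg _))) g hg
    exact sub_eq_zero.mp (Complex.normSq_eq_zero.mp h0)
  -- (4) the coefficient at `1`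
  obtain ⟨σ, hσ⟩ : ∃ σ : ℝ, σ = ∑ a : G, Complex.normSq (e.coeff a) := ⟨_, rfl⟩
  have he1 : e.coeff 1 = (σ : ℂ) := by
    have h := coeff_one_adj_mul e
    rw [hadj, hee] at h
    rw [h, hσ]
  have hσN : σ * N = c := by
    have h1 : psi e 1 = (N : ℂ) * e.coeff 1 := by
      unfold psi
      simp [hN]
    have h2 := hψ 1 h1X
    rw [h1, he1] at h2
    have h3 : ((N * σ : ℝ) : ℂ) = (c : ℂ) := by
      push_cast
      exact h2
    have h4 := Complex.ofReal_injective h3
    linarith
  have hσn : σ * n = 1 := by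
    have h3 : σ * n * N = 1 * N := by
      rw [one_mul]
      calc σ * n * N = (σ * N) * n := by ring
        _ = N := by rw [hσN, hcn]
    exact mul_right_cancel₀ hNpos.ne' h3
  have hσpos : 0 < σ := by
    by_contra h
    push Not at h
    have : σ * n ≤ 0 := mul_nonpos_of_nonpos_of_nonneg h hnpos.le
    linarith
  -- (5) all coefficients are bounded by `σ`
  have hnorm : ∀ z : G, ‖e.coeff z‖ ≤ σ := by
    intro z
    have h1 : e.coeff z = ∑ a : G, e.coeff a * e.coeff (a⁻¹ * z) := by
      conv_lhs => rw [← hee]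
      exact coeff_mul_fintype e e z
    rw [h1]
    refine (norm_sum_le _ _).trans ?_
    have h2 : ∀ a : G, ‖e.coeff a * e.coeff (a⁻¹ * z)‖ ≤
        (Complex.normSq (e.coeff a) + Complex.normSq (e.coeff (a⁻¹ * z))) / 2 := by
      intro a
      rw [norm_mul, Complex.normSq_eq_norm_sq, Complex.normSq_eq_norm_sq]
      nlinarith [sq_nonneg (‖e.coeff a‖ - ‖e.coeff (a⁻¹ * z)‖)]
    refine (Finset.sum_le_sum (fun a _ => h2 a)).trans ?_
    rw [← Finset.sum_div, Finset.sum_add_distrib, ← hσ]
    have h3 : ∑ a : G, Complex.normSq (e.coeff (a⁻¹ * z)) = σ := by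
      rw [hσ]
      exact Equiv.sum_comp ((Equiv.inv G).trans (Equiv.mulRight z))
        (fun b => Complex.normSq (e.coeff b))
    rw [h3]
    linarith
  -- (6) the coefficients on `X`
  have heX : ∀ z ∈ X, e.coeff z = (σ : ℂ) := by
    intro z hz
    have h1 := hψ z⁻¹ (hinv z hz)
    unfold psi at h1
    simp only [inv_inv] at h1
    have h2 : ∑ h : G, (σ - (e.coeff (h⁻¹ * z * h)).re) = 0 := by
      rw [Finset.sum_sub_distrib, Finset.sum_const, Finset.card_univ, nsmul_eq_mul,
        ← Complex.re_sum, h1, Complex.ofReal_re, ← hN]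
      linarith
    have h3 := (Finset.sum_eq_zero_iff_of_nonneg (fun h _ =>
      sub_nonneg.mpr ((Complex.re_le_norm _).trans (hnorm _)))).mp h2 1 (Finset.mem_univ 1)
    simp only [inv_one, one_mul, mul_one] at h3
    have hre : (e.coeff z).re = σ := by linarith
    have him : (e.coeff z).im = 0 := by
      have h4 := hnorm z
      have h5 : Complex.normSq (e.coeff z) ≤ σ ^ 2 := by
        rw [Complex.normSq_eq_norm_sq]
        exact pow_le_pow_left₀ (norm_nonneg _) h4 2
      rw [Complex.normSq_apply, hre] at h5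
      have h6 : (e.coeff z).im * (e.coeff z).im ≤ 0 := by nlinarith
      exact mul_self_eq_zero.mp (le_antisymm h6 (mul_self_nonneg _))
    apply Complex.ext
    · rw [hre, Complex.ofReal_re]
    · rw [him, Complex.ofReal_im]
  -- (7) the coefficients off `X`
  have heX' : ∀ z, z ∉ X → e.coeff z = 0 := by
    intro z hz
    have h1 : ∑ a ∈ X, Complex.normSq (e.coeff a) = σ := by
      rw [Finset.sum_congr rfl (fun a ha => by rw [heX a ha, Complex.normSq_ofReal]),
        Finset.sum_const, nsmul_eq_mul, ← hn]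
      calc n * (σ * σ) = (σ * n) * σ := by ring
        _ = σ := by rw [hσn, one_mul]
    have h2 : ∑ a ∈ Finset.univ \ X, Complex.normSq (e.coeff a) = 0 := by
      have h := Finset.sum_sdiff (Finset.subset_univ X)
        (f := fun a => Complex.normSq (e.coeff a))
      rw [h1, ← hσ] at h
      linarith
    have h3 := (Finset.sum_eq_zero_iff_of_nonneg (fun a _ => Complex.normSq_nonneg _)).mp h2 z
      (by simp [hz])
    exact Complex.normSq_eq_zero.mp h3
  -- (8) closure under multiplication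
  intro y hy z hz
  by_contra hyz
  have h1 : e.coeff (y * z) = ∑ a : G, e.coeff a * e.coeff (a⁻¹ * (y * z)) := by
    conv_lhs => rw [← hee]
    exact coeff_mul_fintype e e _
  rw [heX' _ hyz] at h1
  have hval : ∀ b : G, ∃ t : ℝ, 0 ≤ t ∧ e.coeff b = (t : ℂ) := by
    intro b
    by_cases hb : b ∈ X
    · exact ⟨σ, hσpos.le, heX b hb⟩
    · exact ⟨0, le_refl _, by rw [heX' b hb]; simp⟩
  have hterm : ∀ a : G, 0 ≤ (e.coeff a * e.coeff (a⁻¹ * (y * z))).re := by
    intro a
    obtain ⟨t₁, ht₁, h₁⟩ := hval a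
    obtain ⟨t₂, ht₂, h₂⟩ := hval (a⁻¹ * (y * z))
    rw [h₁, h₂, ← Complex.ofReal_mul, Complex.ofReal_re]
    exact mul_nonneg ht₁ ht₂
  have h2 := congrArg Complex.re h1
  rw [Complex.re_sum, Complex.zero_re] at h2
  have h3 := (Finset.sum_eq_zero_iff_of_nonneg (fun a _ => hterm a)).mp h2.symm y
    (Finset.mem_univ y)
  rw [inv_mul_cancel_left, heX y hy, heX z hz, ← Complex.ofReal_mul, Complex.ofReal_re] at h3
  have : 0 < σ * σ := mul_pos hσpos hσpos
  linarith

end Cfsg.Agent.Helper55
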