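import Cfsg.Agent.Helper55.JzMax
import Cfsg.Agent.S2947

/-! If the 2-local `M ⊇ N_G(J(S))` is not strongly embedded, there is a maximal straddling
2-subgroup of `M` inside `S`. -/

set_option autoImplicit false
open Cfsg

namespace Cfsg.Agent.Helper55.JzMax

universe u

variable {G : Type u} [Group G] [Finite G]

theorem exists_maxStraddling_of_not_se (hL : IsCharacteristicTwoType G)
    (hN : ∀ N : Subgroup G, IsTwoLocal N → Group.IsSolvable ↥N)
    (hZ : ∀ S : Sylow 2 G, Subgroup.centralizer (omegaCenterOf (S : Subgroup G) : Set G) ≤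
      Subgroup.normalizer ((S : Subgroup G) : Set G)) (hO : pCore 2 G = ⊥)
    (S : Sylow 2 G) (M : Subgroup G) (hM : IsTwoLocal M)
    (hMJ : Subgroup.normalizer (thompsonSubgroupOf 2 (S : Subgroup G) : Set G) ≤ M)
    (hse : ¬ IsStronglyEmbedded M) :
    ∃ T ∈ maxStraddlingTwoSubgroups M, T ≤ (S : Subgroup G) := by
  have hne : (straddlingTwoSubgroups M).Nonempty := by
    rw [Set.nonempty_iff_ne_empty]
    intro h
    exact hse ((Cfsg.Agent.S2947.result hL hN hZ hO S M hM hMJ).mpr h)
  have hSM : (S : Subgroup G) ≤ M :=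
    (Subgroup.le_normalizer.trans
      (Cfsg.Agent.Helper55.ThJ.normalizer_le (S : Subgroup G))).trans hMJ
  exact exists_maxStraddling_le S hSM hne

end Cfsg.Agent.Helper55.JzMax
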