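import Cfsg.Agent.H64.JzDefs
import Cfsg.Agent.H26.JzAEq
import Cfsg.Agent.Helper55.J48
import Cfsg.Agent.S2946

/-! JZ-RESN (S2951, helper64's project JZ): in the residual situation (R), if `S` normalizes `K`
then clause 1 holds. -/

set_option autoImplicit false
open Cfsg

namespace Cfsg.Agent.Helper55.Jz

open Cfsg.Agent.H64.Jz Cfsg.Agent.Helper55.ThJ

universe u

variable {G : Type u} [Group G]

theorem conj_mem_closure {s : Set G} {g : G}
    (hs : ∀ x ∈ s, g * x * g⁻¹ ∈ Subgroup.closure s) {x : G} (hx : x ∈ Subgroup.closure s) :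
    g * x * g⁻¹ ∈ Subgroup.closure s := by
  induction hx using Subgroup.closure_induction with
  | mem x hx => exact hs x hx
  | one =>
    have e : g * 1 * g⁻¹ = 1 := by group
    rw [e]
    exact Subgroup.one_mem _
  | mul a b _ _ ha hb =>
    have e : g * (a * b) * g⁻¹ = (g * a * g⁻¹) * (g * b * g⁻¹) := by group
    rw [e]
    exact Subgroup.mul_mem _ ha hb
  | inv a _ ha =>
    have e : g * a⁻¹ * g⁻¹ = (g * a * g⁻¹)⁻¹ := by group
    rw [e]
    exact Subgroup.inv_mem _ ha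

theorem omegaCenterOf_le_inf' (X : Subgroup G) :
    omegaCenterOf X ≤ X ⊓ Subgroup.centralizer (X : Set G) := by
  unfold omegaCenterOf omegaOne
  rw [Subgroup.closure_le]
  intro x hx
  exact hx.1

/-- `Ω₁Z(X)` is normalized by `N_G(X)` -/
theorem conj_mem_omegaCenterOf' {X : Subgroup G} {g : G}
    (hg : g ∈ Subgroup.normalizer (X : Set G)) {y : G} (hy : y ∈ omegaCenterOf X) :
    g * y * g⁻¹ ∈ omegaCenterOf X := by
  unfold omegaCenterOf omegaOne at hy ⊢
  apply conj_mem_closure _ hy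
  rintro z ⟨hz, hz2⟩
  apply Subgroup.subset_closure
  obtain ⟨hzX, hzC⟩ := Subgroup.mem_inf.mp hz
  refine ⟨Subgroup.mem_inf.mpr ⟨(Subgroup.mem_normalizer_iff.mp hg z).mp hzX, ?_⟩, ?_⟩
  · rw [Subgroup.mem_centralizer_iff]
    intro h hh
    have h1 : g⁻¹ * h * g ∈ X := by
      apply (Subgroup.mem_normalizer_iff.mp hg _).mpr
      have e : g * (g⁻¹ * h * g) * g⁻¹ = h := by group
      rw [e]
      exact hh
    have h2 := Subgroup.mem_centralizer_iff.mp hzC _ h1
    calc h * (g * z * g⁻¹) = g * ((g⁻¹ * h * g) * z) * g⁻¹ := by group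
      _ = g * (z * (g⁻¹ * h * g)) * g⁻¹ := by rw [h2]
      _ = g * z * g⁻¹ * h := by group
  · show (g * z * g⁻¹) ^ 2 = 1
    have e : (g * z * g⁻¹) ^ 2 = g * z ^ 2 * g⁻¹ := by
      rw [pow_two, pow_two]
      group
    rw [e, hz2]
    group

/-- the elements of `Ω₁Z(X)` are involutions (or 1) -/
theorem sq_eq_one_of_mem_omegaCenterOf {X : Subgroup G} {y : G} (hy : y ∈ omegaCenterOf X) :
    y ^ 2 = 1 := by
  have hle := omegaCenterOf_le_inf' X
  have hy' : y ∈ Subgroup.closure {x : G | x ∈ X ⊓ Subgroup.centralizer (X : Set G) ∧ x ^ 2 = 1} :=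
    hy
  induction hy' using Subgroup.closure_induction with
  | mem x hx => exact hx.2
  | one => exact one_pow 2
  | mul a b ha hb iha ihb =>
    have hac : a ∈ X ⊓ Subgroup.centralizer (X : Set G) := hle ha
    have hbc : b ∈ X ⊓ Subgroup.centralizer (X : Set G) := hle hb
    have hcomm : Commute a b := Subgroup.mem_centralizer_iff.mp hbc.2 a hac.1
    rw [hcomm.mul_pow, iha ha, ihb hb, one_mul]
  | inv a ha iha => rw [inv_pow, iha ha, inv_one]

theorem conj_mem_sup {A B : Subgroup G} {s : G} (hA : ∀ a ∈ A, s * a * s⁻¹ ∈ A)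
    (hB : ∀ b ∈ B, s * b * s⁻¹ ∈ B) {g : G} (hg : g ∈ A ⊔ B) : s * g * s⁻¹ ∈ A ⊔ B := by
  have h1 : (A ⊔ B).map (MulAut.conj s).toMonoidHom ≤ A ⊔ B := by
    rw [Subgroup.map_sup]
    apply sup_le_sup
    · rintro _ ⟨a, ha, rfl⟩
      exact hA a ha
    · rintro _ ⟨b, hb, rfl⟩
      exact hB b hb
  exact h1 ⟨g, hg, rfl⟩

/-- a 2-group normalizing a nontrivial 2-group has a nontrivial fixed point on it -/
theorem exists_fixed_of_pgroup [Finite G] {W J : Subgroup G} (hJ2 : IsPGroup 2 ↥J)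
    (hW2 : IsPGroup 2 ↥W) (hW1 : W ≠ ⊥) (hn : ∀ j ∈ J, ∀ w ∈ W, j * w * j⁻¹ ∈ W) :
    ∃ u ∈ W, u ≠ 1 ∧ ∀ j ∈ J, j * u = u * j := by
  let _ : MulAction ↥J ↥W :=
    { smul := fun j w => ⟨(j : G) * (w : G) * (j : G)⁻¹, hn j j.2 w w.2⟩
      one_smul := fun w => Subtype.ext (by
        show ((1 : ↥J) : G) * (w : G) * ((1 : ↥J) : G)⁻¹ = (w : G)
        simp)
      mul_smul := fun a b w => Subtype.ext (by
        show ((a * b : ↥J) : G) * (w : G) * ((a * b : ↥J) : G)⁻¹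
          = (a : G) * ((b : G) * (w : G) * (b : G)⁻¹) * (a : G)⁻¹
        simp [mul_assoc]) }
  have : Fact (Nat.Prime 2) := ⟨Nat.prime_two⟩
  have h1 : (1 : ↥W) ∈ MulAction.fixedPoints ↥J ↥W := fun j => Subtype.ext (by
    show (j : G) * ((1 : ↥W) : G) * (j : G)⁻¹ = ((1 : ↥W) : G)
    simp)
  have hdvd : 2 ∣ Nat.card ↥W := by
    rcases hW2.card_eq_or_dvd with h | h
    · exact absurd (Subgroup.card_eq_one.mp h) hW1
    · exact h
  obtain ⟨b, hb, hne⟩ := hJ2.exists_fixed_point_of_prime_dvd_card_of_fixed_point ↥W hdvd h1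
  refine ⟨b, b.2, fun h => hne (Subtype.ext h.symm), fun j hj => ?_⟩
  have h2 := congrArg Subtype.val (hb ⟨j, hj⟩)
  have h3 : j * (b : G) * j⁻¹ = b := h2
  calc j * (b : G) = j * b * j⁻¹ * j := by group
    _ = b * j := by rw [h3]

/-- `Ω₁Z(S) ≤ Ω₁Z(J(S))` -/
theorem omegaCenterOf_le_J [Finite G] (S : Subgroup G) :
    omegaCenterOf S ≤ omegaCenterOf (thompsonSubgroupOf 2 S) := by
  obtain ⟨A, hA⟩ := gens_nonempty S
  unfold omegaCenterOf omegaOne
  apply Subgroup.closure_mono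
  rintro x ⟨hx, hx2⟩
  obtain ⟨hxS, hxC⟩ := Subgroup.mem_inf.mp hx
  have hxA : x ∈ A := Cfsg.Agent.H26.Jz.mem_gen_of_commute hA hxS
    (fun a ha => Subgroup.mem_centralizer_iff.mp hxC a (hA.1 ha)) hx2
  exact ⟨Subgroup.mem_inf.mpr ⟨gen_le_J hA hxA,
    Subgroup.centralizer_le (by exact_mod_cast J_le S) hxC⟩, hx2⟩

/-- RESN. -/
theorem resN (hZ2 : StZ2.{u}) : StResN.{u} := by
  intro G _ _ S M K L T' K' L' hR hSK
  obtain ⟨hB, -, hB', hT'S⟩ := hR
  have hcardZ : Nat.card ↥(omegaCenterOf (S : Subgroup G)) = 2 := hZ2 S L T' K' L' hB' hT'S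
  obtain ⟨⟨hL, hN, hZ⟩, -, -, hMJ, hT, -, hK, -, -⟩ := hB
  have : Fact (Nat.Prime 2) := ⟨Nat.prime_two⟩
  have hS2 : IsPGroup 2 ↥(S : Subgroup G) := S.isPGroup'
  have hS1 : (S : Subgroup G) ≠ ⊥ := hT.1.2.1
  have hKc : IsJComponent (S : Subgroup G) K := hK.1.1
  have hKM : ¬ K ≤ M := hK.2.1
  obtain ⟨h46a, h46b⟩ := Cfsg.Agent.S2946.result hL hN hZ (S : Subgroup G) hS2 hS1 K hKc _ rfl
  have hJS : thompsonSubgroupOf 2 (S : Subgroup G) ≤ S := J_le _
  have hSNJ : (S : Subgroup G) ≤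
      Subgroup.normalizer (thompsonSubgroupOf 2 (S : Subgroup G) : Set G) :=
    Subgroup.le_normalizer.trans (normalizer_le _)
  have hZZ₀ := omegaCenterOf_le_J (S : Subgroup G)
  have hZ₀le := omegaCenterOf_le_inf' (thompsonSubgroupOf 2 (S : Subgroup G))
  have hZ₁ : omegaCenterOf (thompsonSubgroupOf 2 (S : Subgroup G)) ⊓
      ((K ⊔ thompsonSubgroupOf 2 (S : Subgroup G)) ⊓
        Subgroup.centralizer ((K ⊔ thompsonSubgroupOf 2 (S : Subgroup G)) : Set G)) =
      ⊥ := by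
    by_contra hne
    have hZ₁S : omegaCenterOf (thompsonSubgroupOf 2 (S : Subgroup G)) ⊓
        ((K ⊔ thompsonSubgroupOf 2 (S : Subgroup G)) ⊓
          Subgroup.centralizer ((K ⊔ thompsonSubgroupOf 2 (S : Subgroup G)) : Set G)) ≤
        S := inf_le_left.trans ((hZ₀le.trans inf_le_left).trans hJS)
    have hnorm : ∀ s ∈ (S : Subgroup G), ∀ w ∈ omegaCenterOf (thompsonSubgroupOf 2 (S : Subgroup G)) ⊓
        ((K ⊔ thompsonSubgroupOf 2 (S : Subgroup G)) ⊓
          Subgroup.centralizer ((K ⊔ thompsonSubgroupOf 2 (S : Subgroup G)) : Set G)),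
        s * w * s⁻¹ ∈ omegaCenterOf (thompsonSubgroupOf 2 (S : Subgroup G)) ⊓
        ((K ⊔ thompsonSubgroupOf 2 (S : Subgroup G)) ⊓
          Subgroup.centralizer ((K ⊔ thompsonSubgroupOf 2 (S : Subgroup G)) : Set G)) := by
      intro s hs w hw
      obtain ⟨hw0, hw1⟩ := Subgroup.mem_inf.mp hw
      obtain ⟨hw2, hw3⟩ := Subgroup.mem_inf.mp hw1
      have hsJ := hSNJ hs
      have hsK := hSK hs
      have hsJ' := Subgroup.inv_mem _ hsJ
      have hsK' := Subgroup.inv_mem _ hsK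
      have hc1 : ∀ g ∈ K ⊔ thompsonSubgroupOf 2 (S : Subgroup G),
          s * g * s⁻¹ ∈ K ⊔ thompsonSubgroupOf 2 (S : Subgroup G) := fun g hg =>
        conj_mem_sup (fun a ha => (Subgroup.mem_normalizer_iff.mp hsK a).mp ha)
          (fun b hb => (Subgroup.mem_normalizer_iff.mp hsJ b).mp hb) hg
      refine Subgroup.mem_inf.mpr ⟨conj_mem_omegaCenterOf' hsJ hw0,
        Subgroup.mem_inf.mpr ⟨hc1 w hw2, ?_⟩⟩
      rw [Subgroup.mem_centralizer_iff]
      intro g hg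
      have hg' : s⁻¹ * g * s ∈ ((K : Set G) ∪ (thompsonSubgroupOf 2 (S : Subgroup G) : Set G)) := by
        rcases (hg : g ∈ ((K : Set G) ∪ (thompsonSubgroupOf 2 (S : Subgroup G) : Set G))) with h | h
        · left
          have h3 := (Subgroup.mem_normalizer_iff.mp hsK' g).mp h
          rw [inv_inv] at h3
          exact h3
        · right
          have h3 := (Subgroup.mem_normalizer_iff.mp hsJ' g).mp h
          rw [inv_inv] at h3
          exact h3
      have h2 := Subgroup.mem_centralizer_iff.mp hw3 _ hg'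
      calc g * (s * w * s⁻¹) = s * ((s⁻¹ * g * s) * w) * s⁻¹ := by group
        _ = s * (w * (s⁻¹ * g * s)) * s⁻¹ := by rw [h2]
        _ = s * w * s⁻¹ * g := by group
    obtain ⟨y, hy, hy1, hyS⟩ := exists_fixed_of_pgroup hS2 (hS2.to_le hZ₁S) hne hnorm
    have hyZ₀ := (Subgroup.mem_inf.mp hy).1
    have hyc := (Subgroup.mem_inf.mp (Subgroup.mem_inf.mp hy).2).2
    have hyZ : y ∈ omegaCenterOf (S : Subgroup G) := by
      unfold omegaCenterOf omegaOne
      apply Subgroup.subset_closure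
      exact ⟨Subgroup.mem_inf.mpr ⟨hZ₁S hy, Subgroup.mem_centralizer_iff.mpr hyS⟩,
        sq_eq_one_of_mem_omegaCenterOf hyZ₀⟩
    obtain ⟨b, hb, huniq⟩ := (Nat.card_eq_two_iff'
      (⟨1, Subgroup.one_mem _⟩ : ↥(omegaCenterOf (S : Subgroup G)))).mp hcardZ
    have hZy : ∀ v ∈ omegaCenterOf (S : Subgroup G), v = 1 ∨ v = y := by
      intro v hv
      by_cases hv1 : v = 1
      · exact Or.inl hv1
      · right
        have e1 := huniq ⟨v, hv⟩ (fun h => hv1 (congrArg Subtype.val h))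
        have e2 := huniq ⟨y, hyZ⟩ (fun h => hy1 (congrArg Subtype.val h))
        exact congrArg Subtype.val (e1.trans e2.symm)
    apply hKM
    have hKN : K ≤ Subgroup.normalizer ((S : Subgroup G) : Set G) := by
      refine le_trans ?_ (hZ S)
      intro k hk
      rw [Subgroup.mem_centralizer_iff]
      intro v hv
      rcases hZy v hv with rfl | rfl
      · rw [one_mul, mul_one]
      · exact (Subgroup.mem_centralizer_iff.mp hyc k
          (Set.mem_union_left _ hk : k ∈ ((K : Set G) ∪ (thompsonSubgroupOf 2 (S : Subgroup G) : Set G)))).symm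
    exact (hKN.trans (normalizer_le _)).trans hMJ
  rw [hZ₁, bot_sup_eq] at h46b
  rw [h46b] at h46a
  left
  exact ⟨Subgroup.eq_of_le_of_card_ge hZZ₀ (by rw [hcardZ, h46a]), h46a⟩

example (hZ2 : Cfsg.Agent.H64.Jz.StZ2.{u}) : Cfsg.Agent.H64.Jz.StResN.{u} := resN hZ2

end Cfsg.Agent.Helper55.Jz
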