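import Mathlib
import Cfsg.Prelude.Def_Blocks
import Cfsg.Agent.H20.LocalRing
import Cfsg.Agent.Helper55.GAlg

/-!
# A `p`-integral spectral idempotent (for S4427)

Let `w ∈ ℂ[G]` be self-adjoint, integral over `ℤ`, with coefficients in the local ring `S` at a
maximal ideal `M ∋ p` of the algebraic integers, and with augmentation a natural number prime
to `p`.  Splitting the roots of the minimal polynomial of `w` into units and non-units of `S`
gives a polynomial `q` with real coefficients in `S` such that `e = q(w)` is a self-adjoint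
idempotent with coefficients in `S`, augmentation `1`, and `e = e w c` for some `c`.
-/

set_option autoImplicit false
set_option linter.unusedSectionVars false

namespace Cfsg.Agent.Helper55

open Cfsg Cfsg.Agent.H20 Polynomial
open scoped ComplexConjugate

universe u

variable {G : Type u} [Group G] [Fintype G]

/-! ### Roots of the minimal polynomial -/

theorem isIntegral_of_root_minpoly {w : MonoidAlgebra ℂ G} (hw : IsIntegral ℤ w) {a : ℂ}
    (ha : (minpoly ℂ w).IsRoot a) : IsIntegral ℤ a := by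
  obtain ⟨f, hf, hfw⟩ := hw
  have h1 : Polynomial.aeval w (f.map (algebraMap ℤ ℂ)) = 0 := by
    rw [Polynomial.aeval_map_algebraMap]
    exact hfw
  have h2 := minpoly.dvd ℂ w h1
  have h3 : (f.map (algebraMap ℤ ℂ)).IsRoot a := ha.dvd h2
  refine ⟨f, hf, ?_⟩
  rw [Polynomial.IsRoot.def, Polynomial.eval_map] at h3
  exact h3

theorem isIntegral_complex (w : MonoidAlgebra ℂ G) : IsIntegral ℂ w := by
  haveI : Module.Finite ℂ (MonoidAlgebra ℂ G) :=
    Module.Finite.of_basis (MonoidAlgebra.basis G ℂ)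
  exact Algebra.IsIntegral.isIntegral w

theorem exists_eigen_of_root {w : MonoidAlgebra ℂ G} {a : ℂ} (ha : (minpoly ℂ w).IsRoot a) :
    ∃ x : MonoidAlgebra ℂ G, x ≠ 0 ∧ w * x = a • x := by
  have hint : IsIntegral ℂ w := isIntegral_complex w
  obtain ⟨g, hg⟩ := Polynomial.dvd_iff_isRoot.mpr ha
  have hg0 : g ≠ 0 := by
    rintro rfl
    rw [mul_zero] at hg
    exact minpoly.ne_zero hint hg
  refine ⟨Polynomial.aeval w g, ?_, ?_⟩
  · intro h0
    have hdeg := Polynomial.natDegree_le_natDegree (minpoly.degree_le_of_ne_zero ℂ w hg0 h0)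
    rw [hg, Polynomial.natDegree_mul (Polynomial.X_sub_C_ne_zero a) hg0,
      Polynomial.natDegree_X_sub_C] at hdeg
    omega
  · have h := minpoly.aeval ℂ w
    rw [hg, map_mul, map_sub, Polynomial.aeval_X, Polynomial.aeval_C, sub_mul, sub_eq_zero] at h
    rw [h, Algebra.smul_def]

theorem root_real {w : MonoidAlgebra ℂ G} (hadj : adj w = w) {a : ℂ}
    (ha : (minpoly ℂ w).IsRoot a) : conj a = a := by
  obtain ⟨x, hx0, hx⟩ := exists_eigen_of_root ha
  have hy : adj (adj x * (w * x)) = adj x * (w * x) := by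
    rw [adj_mul, adj_mul, adj_adj, hadj, mul_assoc]
  have h1 : (adj x * (w * x)).coeff 1 =
      a * ((∑ g : G, Complex.normSq (x.coeff g) : ℝ) : ℂ) := by
    rw [hx, mul_smul_comm, MonoidAlgebra.coeff_smul_apply, smul_eq_mul, coeff_one_adj_mul]
  have h2 : conj ((adj x * (w * x)).coeff 1) = (adj x * (w * x)).coeff 1 := by
    have h := coeff_adj (adj x * (w * x)) 1
    rw [hy, inv_one] at h
    exact h.symm
  rw [h1, map_mul, Complex.conj_ofReal] at h2
  have hpos : (∑ g : G, Complex.normSq (x.coeff g) : ℝ) ≠ 0 :=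
    fun h => hx0 (eq_zero_of_sum_normSq x h)
  exact mul_right_cancel₀ (by exact_mod_cast hpos) h2

/-! ### Polynomials with coefficients in a subring -/

/-- The real numbers as a subring of `ℂ`. -/
def realSub : Subring ℂ where
  carrier := {z | conj z = z}
  mul_mem' := fun {x y} hx hy => by
    show conj (x * y) = x * y
    rw [map_mul, show conj x = x from hx, show conj y = y from hy]
  one_mem' := by
    show conj (1 : ℂ) = 1
    exact map_one _
  add_mem' := fun {x y} hx hy => by
    show conj (x + y) = x + y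
    rw [map_add, show conj x = x from hx, show conj y = y from hy]
  zero_mem' := by
    show conj (0 : ℂ) = 0
    exact map_zero _
  neg_mem' := fun {x} hx => by
    show conj (-x) = -x
    rw [map_neg, show conj x = x from hx]

theorem mem_realSub {z : ℂ} : z ∈ realSub ↔ conj z = z := Iff.rfl

/-- Polynomials with all coefficients in the subring `S`. -/
def polySub (S : Subring ℂ) : Subring (Polynomial ℂ) where
  carrier := {q | ∀ n, q.coeff n ∈ S}
  mul_mem' := fun {x y} hx hy n => by
    rw [Polynomial.coeff_mul]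
    exact S.sum_mem (fun i _ => S.mul_mem (hx _) (hy _))
  one_mem' := fun n => by
    rw [Polynomial.coeff_one]
    split_ifs
    · exact S.one_mem
    · exact S.zero_mem
  add_mem' := fun {x y} hx hy n => by
    rw [Polynomial.coeff_add]
    exact S.add_mem (hx n) (hy n)
  zero_mem' := fun n => by
    rw [Polynomial.coeff_zero]
    exact S.zero_mem
  neg_mem' := fun {x} hx n => by
    rw [Polynomial.coeff_neg]
    exact S.neg_mem (hx n)

theorem mem_polySub {S : Subring ℂ} {q : Polynomial ℂ} : q ∈ polySub S ↔ ∀ n, q.coeff n ∈ S :=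
  Iff.rfl

theorem C_mem_polySub (S : Subring ℂ) {c : ℂ} (hc : c ∈ S) : (C c : Polynomial ℂ) ∈ polySub S := by
  intro n
  rw [Polynomial.coeff_C]
  split_ifs
  · exact hc
  · exact S.zero_mem

theorem X_mem_polySub (S : Subring ℂ) : (X : Polynomial ℂ) ∈ polySub S := by
  intro n
  rw [Polynomial.coeff_X]
  split_ifs
  · exact S.one_mem
  · exact S.zero_mem

/-- `u` divides `1 - ∏ (1 - c_b u)`. -/
theorem dvd_one_sub_prod (u : Polynomial ℂ) (f : ℂ → ℂ) (T : Multiset ℂ) :
    u ∣ 1 - (T.map (fun b => 1 - C (f b) * u)).prod := by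
  induction T using Multiset.induction_on with
  | empty => simp
  | cons b T ih =>
    rw [Multiset.map_cons, Multiset.prod_cons]
    obtain ⟨k, hk⟩ := ih
    refine ⟨C (f b) * (T.map (fun b => 1 - C (f b) * u)).prod + k, ?_⟩
    linear_combination hk

/-- A product of units of the local ring is a unit. -/
theorem prod_unit_localRing {M : Ideal AlgInt} (hM : M.IsPrime) (T : Multiset ℂ)
    (h : ∀ t ∈ T, MemLocalRing M t ∧ ¬ MemLocalIdeal M t) :
    MemLocalRing M T.prod ∧ ¬ MemLocalIdeal M T.prod := by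
  induction T using Multiset.induction_on with
  | empty =>
    rw [Multiset.prod_zero]
    exact ⟨memLocalRing_one hM, not_memLocalIdeal_one hM⟩
  | cons t T ih =>
    rw [Multiset.prod_cons]
    have h1 := h t (Multiset.mem_cons_self t T)
    have h2 := ih (fun s hs => h s (Multiset.mem_cons_of_mem hs))
    exact ⟨memLocalRing_mul hM h1.1 h2.1, not_memLocalIdeal_mul hM h1.1 h2.1 h1.2 h2.2⟩

theorem prod_real (T : Multiset ℂ) (h : ∀ t ∈ T, conj t = t) : conj T.prod = T.prod := by
  have : T.prod ∈ realSub := Subring.multiset_prod_mem realSub T (fun t ht => h t ht)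
  exact this

/-! ### The spectral idempotent -/

theorem exists_spectral_idem {p : ℕ} {M : Ideal AlgInt} (hM : IsPModular p M)
    (w : MonoidAlgebra ℂ G) (hwint : IsIntegral ℤ w) (hwadj : adj w = w)
    (hwS : CoeffIn (localRing M (isPrime_of_isPModular hM)) w)
    (N : ℕ) (hN : aug w = (N : ℂ)) (hpN : ¬ p ∣ N) :
    ∃ (q : Polynomial ℂ) (c : MonoidAlgebra ℂ G),
      aeval w q * aeval w q = aeval w q ∧
      CoeffIn (localRing M (isPrime_of_isPModular hM)) (aeval w q) ∧
      adj (aeval w q) = aeval w q ∧ aug (aeval w q) = 1 ∧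
      aeval w q = aeval w q * w * c := by
  classical
  have hMp := isPrime_of_isPModular hM
  have hfin : IsIntegral ℂ w := isIntegral_complex w
  obtain ⟨μ, hμdef⟩ : ∃ μ : Polynomial ℂ, μ = minpoly ℂ w := ⟨_, rfl⟩
  have hμmonic : μ.Monic := hμdef ▸ minpoly.monic hfin
  have hμw : aeval w μ = 0 := hμdef ▸ minpoly.aeval ℂ w
  have hsplit : μ = (μ.roots.map (fun a => X - C a)).prod :=
    (IsAlgClosed.splits μ).eq_prod_roots_of_monic hμmonic
  obtain ⟨U, hU⟩ : ∃ U : Multiset ℂ, U = μ.roots.filter (fun a => ¬ MemLocalIdeal M a) :=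
    ⟨_, rfl⟩
  obtain ⟨V, hV⟩ : ∃ V : Multiset ℂ, V = μ.roots.filter (fun a => MemLocalIdeal M a) :=
    ⟨_, rfl⟩
  have hUV : μ.roots = V + U := by
    rw [hU, hV]
    exact (Multiset.filter_add_not _ _).symm
  obtain ⟨u, hu⟩ : ∃ u : Polynomial ℂ, u = (U.map (fun a => X - C a)).prod := ⟨_, rfl⟩
  obtain ⟨v, hv⟩ : ∃ v : Polynomial ℂ, v = (V.map (fun a => X - C a)).prod := ⟨_, rfl⟩
  have hμuv : μ = v * u := by
    conv_lhs => rw [hsplit, hUV]
    rw [Multiset.map_add, Multiset.prod_add, hu, hv]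
  have hroot : ∀ a ∈ μ.roots, MemLocalRing M a ∧ conj a = a := by
    intro a ha
    have hr : (minpoly ℂ w).IsRoot a := by
      rw [← hμdef]
      exact (Polynomial.mem_roots hμmonic.ne_zero).mp ha
    exact ⟨memLocalRing_algInt hMp ⟨a, isIntegral_of_root_minpoly hwint hr⟩, root_real hwadj hr⟩
  obtain ⟨S', hS'⟩ : ∃ S' : Subring ℂ, S' = localRing M hMp ⊓ realSub := ⟨_, rfl⟩
  have hmemS' : ∀ z : ℂ, z ∈ S' ↔ MemLocalRing M z ∧ conj z = z := by
    intro z
    rw [hS', Subring.mem_inf, mem_localRing, mem_realSub]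
  have hU' : ∀ a ∈ U, (MemLocalRing M a ∧ conj a = a) ∧ ¬ MemLocalIdeal M a := by
    intro a ha
    rw [hU, Multiset.mem_filter] at ha
    exact ⟨hroot a ha.1, ha.2⟩
  have hV' : ∀ a ∈ V, (MemLocalRing M a ∧ conj a = a) ∧ MemLocalIdeal M a := by
    intro a ha
    rw [hV, Multiset.mem_filter] at ha
    exact ⟨hroot a ha.1, ha.2⟩
  have huS : u ∈ polySub S' := by
    rw [hu]
    apply Subring.multiset_prod_mem
    intro f hf
    obtain ⟨a, ha, rfl⟩ := Multiset.mem_map.mp hf
    exact (polySub S').sub_mem (X_mem_polySub S') (C_mem_polySub S' ((hmemS' a).mpr (hU' a ha).1))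
  -- evaluation of `u`
  have hueval : ∀ b : ℂ, u.eval b = (U.map (fun a => b - a)).prod := by
    intro b
    rw [hu, Polynomial.eval_multiset_prod, Multiset.map_map]
    congr 1
    apply Multiset.map_congr rfl
    intro a _
    simp
  have huV : ∀ b ∈ V, (MemLocalRing M (u.eval b) ∧ conj (u.eval b) = u.eval b) ∧
      ¬ MemLocalIdeal M (u.eval b) := by
    intro b hb
    rw [hueval]
    have hb' := hV' b hb
    have h1 := prod_unit_localRing hMp (U.map (fun a => b - a)) (by
      intro t ht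
      obtain ⟨a, ha, rfl⟩ := Multiset.mem_map.mp ht
      have ha' := hU' a ha
      refine ⟨memLocalRing_sub hMp hb'.1.1 ha'.1.1, fun h => ha'.2 ?_⟩
      have h2 := memLocalIdeal_sub hMp hb'.2 h
      rwa [sub_sub_cancel] at h2)
    have h2 := prod_real (U.map (fun a => b - a)) (by
      intro t ht
      obtain ⟨a, ha, rfl⟩ := Multiset.mem_map.mp ht
      rw [map_sub, hb'.1.2, (hU' a ha).1.2])
    exact ⟨⟨h1.1, h2⟩, h1.2⟩
  have huVne : ∀ b ∈ V, u.eval b ≠ 0 := by
    intro b hb h0
    exact (huV b hb).2 (h0 ▸ memLocalIdeal_zero hMp)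
  -- the polynomial `q`
  obtain ⟨q, hq⟩ : ∃ q : Polynomial ℂ,
      q = (V.map (fun b => 1 - C ((u.eval b)⁻¹) * u)).prod := ⟨_, rfl⟩
  have hqS : q ∈ polySub S' := by
    rw [hq]
    apply Subring.multiset_prod_mem
    intro f hf
    obtain ⟨b, hb, rfl⟩ := Multiset.mem_map.mp hf
    have hb' := huV b hb
    refine (polySub S').sub_mem (polySub S').one_mem
      ((polySub S').mul_mem (C_mem_polySub S' ((hmemS' _).mpr ⟨?_, ?_⟩)) huS)
    · exact memLocalRing_inv hb'.1.1 hb'.2
    · rw [map_inv₀, hb'.1.2]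
  have hvq : v ∣ q := by
    rw [hv, hq]
    apply Multiset.prod_dvd_prod_of_dvd
    intro b hb
    rw [Polynomial.dvd_iff_isRoot, Polynomial.IsRoot.def]
    simp only [Polynomial.eval_sub, Polynomial.eval_one, Polynomial.eval_mul, Polynomial.eval_C]
    rw [inv_mul_cancel₀ (huVne b hb), sub_self]
  have huq : u ∣ 1 - q := by
    rw [hq]
    exact dvd_one_sub_prod u (fun b => (u.eval b)⁻¹) V
  -- idempotency
  have hidem : aeval w q * aeval w q = aeval w q := by
    have h1 : μ ∣ q * (1 - q) := by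
      rw [hμuv]
      exact mul_dvd_mul hvq huq
    obtain ⟨k, hk⟩ := h1
    have h2 : aeval w (q * (1 - q)) = 0 := by
      rw [hk, map_mul, hμw, zero_mul]
    rw [map_mul, map_sub, map_one, mul_sub, mul_one, sub_eq_zero] at h2
    exact h2.symm
  -- `u(w) e = 0`
  have hue : aeval w (u * q) = 0 := by
    obtain ⟨k, hk⟩ := hvq
    have h1 : u * q = μ * k := by
      rw [hk, hμuv]
      ring
    rw [h1, map_mul, hμw, zero_mul]
  have hu0 : u.eval 0 ≠ 0 := by
    rw [hueval]
    apply Multiset.prod_ne_zero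
    intro h0
    obtain ⟨a, ha, h⟩ := Multiset.mem_map.mp h0
    have ha0 : a = 0 := by
      have := neg_eq_zero.mp (by rw [← h]; ring : -a = 0)
      exact this
    exact (hU' a ha).2 (ha0 ▸ memLocalIdeal_zero hMp)
  -- the augmentation
  have hNroot : (N : ℂ) ∈ U := by
    rw [hU, Multiset.mem_filter]
    refine ⟨?_, fun h => hpN ((memLocalIdeal_natCast_iff hM N).mp h)⟩
    rw [Polynomial.mem_roots hμmonic.ne_zero, Polynomial.IsRoot.def]
    have h1 : aug (aeval w μ) = 0 := by rw [hμw, map_zero]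
    rw [← Polynomial.aeval_algHom_apply, hN, Polynomial.coe_aeval_eq_eval] at h1
    exact h1
  have huN : u.eval (N : ℂ) = 0 := by
    rw [hueval]
    apply Multiset.prod_eq_zero
    exact Multiset.mem_map.mpr ⟨(N : ℂ), hNroot, sub_self _⟩
  have haug : aug (aeval w q) = 1 := by
    rw [← Polynomial.aeval_algHom_apply, hN, Polynomial.coe_aeval_eq_eval, hq,
      Polynomial.eval_multiset_prod, Multiset.map_map]
    have h1 : ∀ b ∈ V, ((Polynomial.eval (N : ℂ)) ∘ fun b => 1 - C ((u.eval b)⁻¹) * u) b =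
        (fun _ => (1 : ℂ)) b := by
      intro b _
      simp [huN]
    rw [Multiset.map_congr rfl h1, Multiset.map_const', Multiset.prod_replicate, one_pow]
  refine ⟨q, aeval w (C (-(u.eval 0)⁻¹) * u.divX), hidem, ?_, ?_, haug, ?_⟩
  · exact coeffIn_aeval _ hwS q (fun n => ((hmemS' _).mp (hqS n)).1)
  · rw [adj_aeval, hwadj]
    congr 1
    ext n
    rw [Polynomial.coeff_map]
    exact ((hmemS' _).mp (hqS n)).2
  · have hdx : u.divX * X + C (u.eval 0) = u := by
      rw [← Polynomial.coeff_zero_eq_eval_zero]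
      exact Polynomial.divX_mul_X_add u
    have hCC : (C ((u.eval 0)⁻¹) * C (u.eval 0) : Polynomial ℂ) = 1 := by
      rw [← Polynomial.C_mul, inv_mul_cancel₀ hu0, Polynomial.C_1]
    have hpoly : q - q * X * (C (-(u.eval 0)⁻¹) * u.divX) = C ((u.eval 0)⁻¹) * (u * q) := by
      rw [Polynomial.C_neg]
      linear_combination (C ((u.eval 0)⁻¹) * q) * hdx + (-q) * hCC
    have h1 : aeval w (q - q * X * (C (-(u.eval 0)⁻¹) * u.divX)) = 0 := by
      rw [hpoly, map_mul, hue, mul_zero]
    rw [map_sub, map_mul, map_mul, Polynomial.aeval_X, sub_eq_zero] at h1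
    exact h1

end Cfsg.Agent.Helper55
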