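import Mathlib
import Cfsg.Prelude.Def_Blocks
import Cfsg.Agent.H4.PSection2
import Cfsg.Agent.H20.SubgroupIdem
import Cfsg.Agent.Helper55.GAlg
import Cfsg.Agent.Helper55.IdemCS
import Cfsg.Agent.Helper55.Green
import Cfsg.Agent.Helper55.Spectral

/-!
# Counting `p`-regular elements: a case of the Frobenius conjecture (for S4427)

Let `Q`, `R` be subgroups of coprime orders prime to `p` such that `G` has exactly `|Q| |R|`
`p`-regular elements.  Then the `p`-regular elements form a (normal) subgroup.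

Proof: the element `w = (∑Q)(∑R)(∑Q)` of `ℂ[G]` is self-adjoint and integral; the spectral
idempotent `e₀` of `w` for its eigenvalues that are units at a prime above `p` has
`p`-integral coefficients, so `e = e_Q e₀` is a self-adjoint idempotent whose coefficients sum
to zero over the `p`-singular elements (Green) and to `1` in total, and
`dim e ℂ[G] e ≤ dim e_Q ℂ[G] e_R = |G| / (|Q| |R|)`.  The Cauchy–Schwarz argument of `IdemCS`
then shows that `e` is the average of the `p`-regular elements, which are therefore closed under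
multiplication.
-/

set_option autoImplicit false
set_option linter.unusedSectionVars false
set_option linter.style.haveILetI false

namespace Cfsg.Agent.Helper55

open Cfsg Cfsg.Agent.H20 Polynomial
open scoped ComplexConjugate

universe u

variable {G : Type u} [Group G] [Fintype G] [DecidableEq G]

/-! ### Generalities -/

theorem coeff_sum_single {k : Type*} [Semiring k] (f : G → k) (h : G) :
    (∑ g : G, MonoidAlgebra.single g (f g) : MonoidAlgebra k G).coeff h = f h := by
  classical
  rw [MonoidAlgebra.coeff_sum, Finsupp.finsetSum_apply]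
  simp only [MonoidAlgebra.coeff_single, Finsupp.single_apply]
  rw [Finset.sum_ite_eq' Finset.univ h]
  simp

theorem finite_monoidAlgebra : Module.Finite ℂ (MonoidAlgebra ℂ G) :=
  Module.Finite.of_basis (MonoidAlgebra.basis G ℂ)

/-- The map `x ↦ a * (x * b)`. -/
noncomputable def sandwich (a b : MonoidAlgebra ℂ G) :
    MonoidAlgebra ℂ G →ₗ[ℂ] MonoidAlgebra ℂ G :=
  (LinearMap.mulLeft ℂ a).comp (LinearMap.mulRight ℂ b)

theorem sandwich_apply (a b x : MonoidAlgebra ℂ G) : sandwich a b x = a * (x * b) := rfl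

theorem trace_sandwich (a b : MonoidAlgebra ℂ G) :
    LinearMap.trace ℂ _ (sandwich a b) =
      ∑ h : G, (a * (MonoidAlgebra.single h 1 * b)).coeff h := by
  rw [LinearMap.trace_eq_matrix_trace ℂ (MonoidAlgebra.basis G ℂ), Matrix.trace]
  apply Finset.sum_congr rfl
  intro h _
  rw [Matrix.diag_apply, LinearMap.toMatrix_apply, MonoidAlgebra.basis_apply, sandwich_apply]
  rfl

theorem sandwich_idem {a b : MonoidAlgebra ℂ G} (ha : a * a = a) (hb : b * b = b) :
    IsIdempotentElem (sandwich a b) := by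
  apply LinearMap.ext
  intro x
  show sandwich a b (sandwich a b x) = sandwich a b x
  rw [sandwich_apply, sandwich_apply]
  calc a * (a * (x * b) * b) = (a * a) * (x * (b * b)) := by simp only [mul_assoc]
    _ = a * (x * b) := by rw [ha, hb]

theorem trace_eq_finrank {f : MonoidAlgebra ℂ G →ₗ[ℂ] MonoidAlgebra ℂ G}
    (hf : IsIdempotentElem f) :
    LinearMap.trace ℂ _ f = (Module.finrank ℂ (LinearMap.range f) : ℂ) := by
  haveI : Module.Finite ℂ (MonoidAlgebra ℂ G) := finite_monoidAlgebra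
  exact (LinearMap.IsIdempotentElem.isProj_range f hf).trace

theorem finrank_sandwich_le {e f g : MonoidAlgebra ℂ G} (hfe : f * e = e)
    (hinj : ∀ x : MonoidAlgebra ℂ G, e * (x * e) * g = 0 → e * (x * e) = 0) :
    Module.finrank ℂ (LinearMap.range (sandwich e e)) ≤
      Module.finrank ℂ (LinearMap.range (sandwich f g)) := by
  haveI : Module.Finite ℂ (MonoidAlgebra ℂ G) := finite_monoidAlgebra
  obtain ⟨L, hL⟩ : ∃ L : ↥(LinearMap.range (sandwich e e)) →ₗ[ℂ] MonoidAlgebra ℂ G,
      L = (LinearMap.mulRight ℂ g).domRestrict _ := ⟨_, rfl⟩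
  have hLapp : ∀ y : ↥(LinearMap.range (sandwich e e)), L y = (y : MonoidAlgebra ℂ G) * g := by
    intro y
    rw [hL]
    rfl
  have hLinj : Function.Injective L := by
    rw [← LinearMap.ker_eq_bot, LinearMap.ker_eq_bot']
    rintro ⟨y, x, rfl⟩ hy
    apply Subtype.ext
    rw [hLapp] at hy
    exact hinj x hy
  have hrange : LinearMap.range L ≤ LinearMap.range (sandwich f g) := by
    rintro _ ⟨⟨y, x, rfl⟩, rfl⟩
    refine ⟨e * (x * e), ?_⟩
    rw [hLapp]
    show f * (e * (x * e) * g) = e * (x * e) * g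
    rw [← mul_assoc f, ← mul_assoc f, hfe]
  calc Module.finrank ℂ (LinearMap.range (sandwich e e))
      = Module.finrank ℂ (LinearMap.range L) := (LinearMap.finrank_range_of_inj hLinj).symm
    _ ≤ Module.finrank ℂ (LinearMap.range (sandwich f g)) := Submodule.finrank_mono hrange

/-! ### Subgroup averages -/

open scoped Classical in
theorem card_filter_mem (H : Subgroup G) :
    (Finset.univ.filter (fun x : G => x ∈ H)).card = Nat.card H := by
  classical
  rw [Nat.card_eq_fintype_card, Fintype.card_subtype]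

theorem adj_subgroupAvg (H : Subgroup G) : adj (subgroupAvg H) = subgroupAvg H := by
  classical
  apply adj_ext
  intro g
  rw [coeff_adj, coeff_subgroupAvg, coeff_subgroupAvg]
  by_cases hg : g ∈ H
  · rw [if_pos hg, if_pos (H.inv_mem hg), map_inv₀, map_natCast]
  · rw [if_neg hg, if_neg (fun h => hg (by simpa using H.inv_mem h)), map_zero]

theorem aug_subgroupAvg (H : Subgroup G) : aug (subgroupAvg H) = 1 := by
  classical
  rw [aug_apply]
  simp only [coeff_subgroupAvg]
  rw [← Finset.sum_filter, Finset.sum_const, card_filter_mem, nsmul_eq_mul]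
  have hN0 : (Nat.card H : ℂ) ≠ 0 := by
    exact_mod_cast (Nat.card_pos (α := H)).ne'
  exact mul_inv_cancel₀ hN0

theorem coeffIn_subgroupAvg (S : Subring ℂ) (H : Subgroup G) (hH : (Nat.card H : ℂ)⁻¹ ∈ S) :
    CoeffIn S (subgroupAvg H) := by
  classical
  intro g
  rw [coeff_subgroupAvg]
  split_ifs
  · exact hH
  · exact S.zero_mem

open scoped Classical in
/-- The integral group ring element `∑_{h ∈ H} h`. -/
noncomputable def intSum (H : Subgroup G) : MonoidAlgebra ℤ G :=
  ∑ g : G, MonoidAlgebra.single g (if g ∈ H then (1 : ℤ) else 0)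

theorem natCast_smul_subgroupAvg (H : Subgroup G) :
    (Nat.card H : ℂ) • subgroupAvg H =
      MonoidAlgebra.mapRingHom G (Int.castRingHom ℂ) (intSum H) := by
  classical
  apply adj_ext
  intro g
  have hN0 : (Nat.card H : ℂ) ≠ 0 := by
    exact_mod_cast (Nat.card_pos (α := H)).ne'
  rw [MonoidAlgebra.coeff_smul_apply, coeff_subgroupAvg, MonoidAlgebra.coeff_mapRingHom, intSum,
    coeff_sum_single]
  by_cases hg : g ∈ H
  · rw [if_pos hg, if_pos hg, smul_eq_mul, mul_inv_cancel₀ hN0]
    simp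
  · rw [if_neg hg, if_neg hg]
    simp

theorem isIntegral_mapRingHom (W : MonoidAlgebra ℤ G) :
    IsIntegral ℤ (MonoidAlgebra.mapRingHom G (Int.castRingHom ℂ) W) := by
  haveI : Module.Finite ℤ (MonoidAlgebra ℤ G) := Module.Finite.of_basis (MonoidAlgebra.basis G ℤ)
  have h : IsIntegral ℤ W := IsIntegral.of_finite ℤ W
  exact h.map (MonoidAlgebra.mapRingHom G (Int.castRingHom ℂ)).toIntAlgHom

/-- The trace of `x ↦ e_Q x e_R` for subgroups of coprime orders. -/
theorem trace_avg (Q R : Subgroup G) (hcop : (Nat.card Q).Coprime (Nat.card R)) :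
    ∑ h : G, (subgroupAvg Q * (MonoidAlgebra.single h 1 * subgroupAvg R)).coeff h =
      (Fintype.card G : ℂ) * ((Nat.card Q : ℂ)⁻¹ * (Nat.card R : ℂ)⁻¹) := by
  have key : ∀ h : G, (subgroupAvg Q * (MonoidAlgebra.single h 1 * subgroupAvg R)).coeff h =
      (Nat.card Q : ℂ)⁻¹ * (Nat.card R : ℂ)⁻¹ := by
    classical
    intro h
    rw [coeff_mul_fintype, Finset.sum_eq_single (1 : G)]
    · rw [coeff_subgroupAvg, if_pos Q.one_mem, MonoidAlgebra.coeff_single_mul_apply, one_mul,
        coeff_subgroupAvg, if_pos (by simp [R.one_mem])]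
    · intro a _ ha
      rw [coeff_subgroupAvg, MonoidAlgebra.coeff_single_mul_apply, one_mul, coeff_subgroupAvg]
      by_cases haQ : a ∈ Q
      · have hnot : h⁻¹ * (a⁻¹ * h) ∉ R := by
          intro hR
          apply ha
          have h1 : orderOf a ∣ Nat.card Q := Subgroup.orderOf_dvd_natCard Q haQ
          have h2 : orderOf (h⁻¹ * (a⁻¹ * h)) = orderOf a := by
            have h3 := orderOf_injective (MulAut.conj h⁻¹).toMonoidHom
              (MulAut.conj h⁻¹).injective a⁻¹
            rw [orderOf_inv] at h3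
            rw [← h3]
            congr 1
            simp [mul_assoc]
          have h4 : orderOf a ∣ Nat.card R := by
            rw [← h2]
            exact Subgroup.orderOf_dvd_natCard R hR
          have h5 : orderOf a = 1 := Nat.eq_one_of_dvd_coprimes hcop h1 h4
          exact orderOf_eq_one_iff.mp h5
        rw [if_neg hnot, mul_zero]
      · rw [if_neg haQ, zero_mul]
    · intro h1
      exact absurd (Finset.mem_univ _) h1
  rw [Finset.sum_congr rfl (fun h _ => key h), Finset.sum_const, Finset.card_univ, nsmul_eq_mul]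

/-! ### The main argument -/

theorem pregular_mul_closed (p : ℕ) (hp : p.Prime) (Q R : Subgroup G)
    (hcop : (Nat.card Q).Coprime (Nat.card R)) (hpQ : ¬ p ∣ Nat.card Q) (hpR : ¬ p ∣ Nat.card R)
    (X : Finset G) (hX : ∀ g, g ∈ X ↔ ¬ p ∣ orderOf g)
    (hXcard : X.card = Nat.card Q * Nat.card R) : ∀ y ∈ X, ∀ z ∈ X, y * z ∈ X := by
  obtain ⟨M, hM⟩ := Cfsg.Agent.H4.exists_isPModular hp
  have hMp := isPrime_of_isPModular hM
  obtain ⟨eQ, heQ⟩ : ∃ eQ : MonoidAlgebra ℂ G, eQ = subgroupAvg Q := ⟨_, rfl⟩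
  obtain ⟨eR, heR⟩ : ∃ eR : MonoidAlgebra ℂ G, eR = subgroupAvg R := ⟨_, rfl⟩
  have heQQ : eQ * eQ = eQ := by rw [heQ]; exact subgroupAvg_mul_self Q
  have heRR : eR * eR = eR := by rw [heR]; exact subgroupAvg_mul_self R
  obtain ⟨nQ, hnQ⟩ : ∃ nQ : ℕ, nQ = Nat.card Q := ⟨_, rfl⟩
  obtain ⟨nR, hnR⟩ : ∃ nR : ℕ, nR = Nat.card R := ⟨_, rfl⟩
  have hnQ0 : (nQ : ℂ) ≠ 0 := by
    rw [hnQ]
    exact_mod_cast (Nat.card_pos (α := Q)).ne'
  have hnR0 : (nR : ℂ) ≠ 0 := by
    rw [hnR]
    exact_mod_cast (Nat.card_pos (α := R)).ne'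
  have heQS : CoeffIn (localRing M hMp) eQ := by
    rw [heQ]
    exact coeffIn_subgroupAvg _ Q (memLocalRing_inv_natCast hM hpQ)
  have heRS : CoeffIn (localRing M hMp) eR := by
    rw [heR]
    exact coeffIn_subgroupAvg _ R (memLocalRing_inv_natCast hM hpR)
  have heQadj : adj eQ = eQ := by rw [heQ]; exact adj_subgroupAvg Q
  have heRadj : adj eR = eR := by rw [heR]; exact adj_subgroupAvg R
  have heQaug : aug eQ = 1 := by rw [heQ]; exact aug_subgroupAvg Q
  have heRaug : aug eR = 1 := by rw [heR]; exact aug_subgroupAvg R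
  -- the element `w`
  obtain ⟨w, hw⟩ : ∃ w : MonoidAlgebra ℂ G,
      w = ((nQ * nR * nQ : ℕ) : ℂ) • (eQ * eR * eQ) := ⟨_, rfl⟩
  have hwint : IsIntegral ℤ w := by
    have h1 : w = MonoidAlgebra.mapRingHom G (Int.castRingHom ℂ)
        (intSum Q * intSum R * intSum Q) := by
      rw [map_mul, map_mul, ← natCast_smul_subgroupAvg, ← natCast_smul_subgroupAvg, hw, heQ,
        heR, hnQ, hnR]
      simp only [smul_mul_assoc, mul_smul_comm, smul_smul]
      congr 1
      push_cast
      ring
    rw [h1]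
    exact isIntegral_mapRingHom _
  have hwadj : adj w = w := by
    rw [hw, adj_smul, adj_mul, adj_mul, heQadj, heRadj, map_natCast, ← mul_assoc eQ eR eQ]
  have hwS : CoeffIn (localRing M hMp) w := by
    rw [hw]
    exact coeffIn_smul _ (memLocalRing_natCast hMp _)
      (coeffIn_mul _ (coeffIn_mul _ heQS heRS) heQS)
  have hwaug : aug w = ((nQ * nR * nQ : ℕ) : ℂ) := by
    rw [hw, map_smul, map_mul, map_mul, heQaug, heRaug, mul_one, mul_one, smul_eq_mul, mul_one]
  have hpN : ¬ p ∣ nQ * nR * nQ := by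
    intro h
    rcases (Nat.Prime.dvd_mul hp).mp h with h1 | h1
    · rcases (Nat.Prime.dvd_mul hp).mp h1 with h2 | h2
      · exact hpQ (hnQ ▸ h2)
      · exact hpR (hnR ▸ h2)
    · exact hpQ (hnQ ▸ h1)
  obtain ⟨q, c, hidem, hcoef, hadj0, haug0, hfac⟩ :=
    exists_spectral_idem hM w hwint hwadj hwS _ hwaug hpN
  obtain ⟨e₀, he₀⟩ : ∃ e₀ : MonoidAlgebra ℂ G, e₀ = aeval w q := ⟨_, rfl⟩
  rw [← he₀] at hidem hcoef hadj0 haug0 hfac
  have hQw : eQ * w = w := by
    rw [hw, mul_smul_comm, ← mul_assoc, ← mul_assoc, heQQ]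
  have hwQ : w * eQ = w := by
    rw [hw, smul_mul_assoc, mul_assoc (eQ * eR) eQ eQ, heQQ]
  have hcomm : eQ * e₀ = e₀ * eQ := by
    rw [he₀]
    exact commute_aeval (by rw [hQw, hwQ]) q
  -- the idempotent `e`
  obtain ⟨e, he⟩ : ∃ e : MonoidAlgebra ℂ G, e = eQ * e₀ := ⟨_, rfl⟩
  have hee : e * e = e := by
    rw [he]
    calc eQ * e₀ * (eQ * e₀) = eQ * (e₀ * eQ) * e₀ := by simp only [mul_assoc]
      _ = eQ * (eQ * e₀) * e₀ := by rw [hcomm]
      _ = (eQ * eQ) * (e₀ * e₀) := by simp only [mul_assoc]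
      _ = eQ * e₀ := by rw [heQQ, hidem]
  have headj : adj e = e := by
    rw [he, adj_mul, hadj0, heQadj, ← hcomm]
  have heS : CoeffIn (localRing M hMp) e := by
    rw [he]
    exact coeffIn_mul _ heQS hcoef
  have heaug : aug e = 1 := by
    rw [he, map_mul, haug0, heQaug, mul_one]
  have hQe : eQ * e = e := by
    rw [he, ← mul_assoc, heQQ]
  have heQ' : e * eQ = e := by
    rw [he, mul_assoc, ← hcomm, ← mul_assoc, heQQ]
  have hefac : e = e * w * c := by
    rw [he]
    calc eQ * e₀ = eQ * (e₀ * w * c) := by rw [← hfac]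
      _ = eQ * e₀ * w * c := by simp only [mul_assoc]
  -- the coefficients of `e` over the `p`-regular elements
  have hsumX : ∑ z ∈ X, e.coeff z = 1 := by
    have h1 := sum_psingular_eq_zero hM e hee heS
    have h2 : aug e = ∑ g : G, e.coeff g := aug_apply e
    rw [heaug] at h2
    have h3 : ∑ g : G, e.coeff g = ∑ g : G, (if p ∣ orderOf g then e.coeff g else 0) +
        ∑ g ∈ X, e.coeff g := by
      rw [← Finset.sum_filter_add_sum_filter_not Finset.univ (fun g : G => p ∣ orderOf g),
        Finset.sum_filter]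
      congr 1
      apply Finset.sum_congr _ (fun _ _ => rfl)
      ext g
      rw [Finset.mem_filter, hX]
      simp
    rw [h3, h1, zero_add] at h2
    exact h2.symm
  -- the trace bound
  obtain ⟨d, hd⟩ : ∃ d : ℕ, d = Module.finrank ℂ (LinearMap.range (sandwich e e)) := ⟨_, rfl⟩
  have htr : ∑ h : G, (e * MonoidAlgebra.single h 1 * e).coeff h = (d : ℂ) := by
    have h1 := trace_sandwich e e
    rw [trace_eq_finrank (sandwich_idem hee hee)] at h1
    rw [hd, h1]
    apply Finset.sum_congr rfl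
    intro h _
    rw [mul_assoc]
  obtain ⟨d', hd'⟩ : ∃ d' : ℕ, d' = Module.finrank ℂ (LinearMap.range (sandwich eQ eR)) :=
    ⟨_, rfl⟩
  have hinj : ∀ x : MonoidAlgebra ℂ G, e * (x * e) * eR = 0 → e * (x * e) = 0 := by
    intro x hx
    obtain ⟨y, hy⟩ : ∃ y : MonoidAlgebra ℂ G, y = e * (x * e) := ⟨_, rfl⟩
    rw [← hy] at hx ⊢
    have hy1 : y * e = y := by
      rw [hy]
      calc e * (x * e) * e = e * (x * (e * e)) := by simp only [mul_assoc]
        _ = e * (x * e) := by rw [hee]
    have hy2 : y * eQ = y := by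
      calc y * eQ = y * e * eQ := by rw [hy1]
        _ = y * (e * eQ) := by rw [mul_assoc]
        _ = y := by rw [heQ', hy1]
    have hyw : y * w = 0 := by
      rw [hw, mul_smul_comm, ← mul_assoc, ← mul_assoc, hy2, hx, zero_mul, smul_zero]
    calc y = y * e := hy1.symm
      _ = y * (e * w * c) := by rw [← hefac]
      _ = (y * e) * w * c := by simp only [mul_assoc]
      _ = y * w * c := by rw [hy1]
      _ = 0 := by rw [hyw, zero_mul]
  have hdd' : d ≤ d' := by
    rw [hd, hd']
    exact finrank_sandwich_le hQe hinj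
  have hd'val : (d' : ℂ) = (Fintype.card G : ℂ) * ((nQ : ℂ)⁻¹ * (nR : ℂ)⁻¹) := by
    rw [hd', ← trace_eq_finrank (sandwich_idem heQQ heRR), trace_sandwich, heQ, heR,
      trace_avg Q R hcop, hnQ, hnR]
  have hd'n : d' * (nQ * nR) = Fintype.card G := by
    have h1 : ((d' * (nQ * nR) : ℕ) : ℂ) = ((Fintype.card G : ℕ) : ℂ) := by
      push_cast
      rw [hd'val]
      field_simp
    exact_mod_cast h1
  have hdX : d * X.card ≤ Fintype.card G := by
    rw [hXcard, ← hnQ, ← hnR, ← hd'n]
    exact Nat.mul_le_mul_right _ hdd'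
  have h1X : (1 : G) ∈ X := by
    rw [hX, orderOf_one]
    exact fun h => hp.one_lt.ne' (Nat.dvd_one.mp h)
  have hinvX : ∀ g ∈ X, g⁻¹ ∈ X := by
    intro g hg
    rw [hX] at hg ⊢
    rwa [orderOf_inv]
  have hconjX : ∀ g ∈ X, ∀ h : G, h * g * h⁻¹ ∈ X := by
    intro g hg h
    rw [hX] at hg ⊢
    have h3 := orderOf_injective (MulAut.conj h).toMonoidHom (MulAut.conj h).injective g
    have h4 : orderOf (h * g * h⁻¹) = orderOf g := by
      rw [← h3]
      rfl
    rwa [h4]
  exact mul_mem_of_idem X h1X hinvX hconjX e hee headj hsumX d htr hdX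

end Cfsg.Agent.Helper55
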