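import Mathlib
import Cfsg.Agent.Helper55.PComplCount

/-!
# S4427: groups of order `p^a q^b r^c` with exactly `q^b r^c` elements of `p'`-order
-/

set_option autoImplicit false
set_option linter.unusedSectionVars false
set_option linter.style.haveILetI false

namespace Cfsg.Agent.Helper55

universe u

theorem factorization_three_mid (p q r a b c : ℕ) (hp : p.Prime) (hq : q.Prime) (hr : r.Prime)
    (hpq : p ≠ q) (hqr : q ≠ r) : (p ^ a * q ^ b * r ^ c).factorization q = b := by
  have h1 : p ^ a ≠ 0 := pow_ne_zero _ hp.ne_zero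
  have h2 : q ^ b ≠ 0 := pow_ne_zero _ hq.ne_zero
  have h3 : r ^ c ≠ 0 := pow_ne_zero _ hr.ne_zero
  rw [Nat.factorization_mul (mul_ne_zero h1 h2) h3, Nat.factorization_mul h1 h2,
    Nat.factorization_pow, Nat.factorization_pow, Nat.factorization_pow,
    hp.factorization, hq.factorization, hr.factorization]
  simp [hpq, hqr.symm]

theorem factorization_three_last (p q r a b c : ℕ) (hp : p.Prime) (hq : q.Prime) (hr : r.Prime)
    (hpr : p ≠ r) (hqr : q ≠ r) : (p ^ a * q ^ b * r ^ c).factorization r = c := by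
  have h1 : p ^ a ≠ 0 := pow_ne_zero _ hp.ne_zero
  have h2 : q ^ b ≠ 0 := pow_ne_zero _ hq.ne_zero
  have h3 : r ^ c ≠ 0 := pow_ne_zero _ hr.ne_zero
  rw [Nat.factorization_mul (mul_ne_zero h1 h2) h3, Nat.factorization_mul h1 h2,
    Nat.factorization_pow, Nat.factorization_pow, Nat.factorization_pow,
    hp.factorization, hq.factorization, hr.factorization]
  simp [hpr, hqr]

/-- A group of order `p^a q^b r^c` with exactly `q^b r^c` elements of order prime to `p` has a
normal `p`-complement. -/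
theorem exists_normal_pcompl {G : Type u} [Group G] [Finite G] (p q r a b c : ℕ) (hp : p.Prime)
    (hq : q.Prime) (hr : r.Prime) (hpq : p ≠ q) (hpr : p ≠ r) (hqr : q ≠ r)
    (hG : Nat.card G = p ^ a * q ^ b * r ^ c)
    (hcount : Nat.card {g : G // ¬ p ∣ orderOf g} = q ^ b * r ^ c) :
    ∃ N : Subgroup G, N.Normal ∧ Nat.card N = q ^ b * r ^ c := by
  classical
  haveI : Fintype G := Fintype.ofFinite G
  haveI : Fact q.Prime := ⟨hq⟩
  haveI : Fact r.Prime := ⟨hr⟩
  obtain ⟨Q⟩ : Nonempty (Sylow q G) := inferInstance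
  obtain ⟨R⟩ : Nonempty (Sylow r G) := inferInstance
  have hQ : Nat.card (Q : Subgroup G) = q ^ b := by
    rw [Sylow.card_eq_multiplicity, hG, factorization_three_mid p q r a b c hp hq hr hpq hqr]
  have hR : Nat.card (R : Subgroup G) = r ^ c := by
    rw [Sylow.card_eq_multiplicity, hG, factorization_three_last p q r a b c hp hq hr hpr hqr]
  obtain ⟨X, hXdef⟩ : ∃ X : Finset G, X = Finset.univ.filter (fun g => ¬ p ∣ orderOf g) :=
    ⟨_, rfl⟩
  have hX : ∀ g, g ∈ X ↔ ¬ p ∣ orderOf g := by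
    intro g
    rw [hXdef]
    simp
  have hXcard : X.card = Nat.card (Q : Subgroup G) * Nat.card (R : Subgroup G) := by
    rw [hQ, hR, ← hcount, Nat.card_eq_fintype_card, Fintype.card_subtype, hXdef]
  have hcop : (Nat.card (Q : Subgroup G)).Coprime (Nat.card (R : Subgroup G)) := by
    rw [hQ, hR]
    exact Nat.Coprime.pow _ _ ((Nat.coprime_primes hq hr).mpr hqr)
  have hpQ : ¬ p ∣ Nat.card (Q : Subgroup G) := by
    rw [hQ]
    intro h
    exact hpq ((Nat.prime_dvd_prime_iff_eq hp hq).mp (hp.dvd_of_dvd_pow h))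
  have hpR : ¬ p ∣ Nat.card (R : Subgroup G) := by
    rw [hR]
    intro h
    exact hpr ((Nat.prime_dvd_prime_iff_eq hp hr).mp (hp.dvd_of_dvd_pow h))
  have hmul := pregular_mul_closed p hp (Q : Subgroup G) (R : Subgroup G) hcop hpQ hpR X hX hXcard
  refine ⟨{ carrier := {g | ¬ p ∣ orderOf g}, mul_mem' := ?_, one_mem' := ?_, inv_mem' := ?_ },
    ?_, ?_⟩
  · intro y z hy hz
    exact (hX _).mp (hmul y ((hX y).mpr hy) z ((hX z).mpr hz))
  · show ¬ p ∣ orderOf (1 : G)
    rw [orderOf_one]
    exact fun h => hp.one_lt.ne' (Nat.dvd_one.mp h)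
  · intro g hg
    show ¬ p ∣ orderOf g⁻¹
    rw [orderOf_inv]
    exact hg
  · constructor
    intro n hn g
    show ¬ p ∣ orderOf (g * n * g⁻¹)
    have h3 := orderOf_injective (MulAut.conj g).toMonoidHom (MulAut.conj g).injective n
    have h4 : orderOf (g * n * g⁻¹) = orderOf n := by
      rw [← h3]
      rfl
    rw [h4]
    exact hn
  · rw [← hcount]
    rfl

end Cfsg.Agent.Helper55
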