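import Mathlib
import Cfsg.Agent.Helper55.PSingA

/-!
# The prime graph on class sizes of `p`-singular elements (S4321)

If `p ∤ |Z(G)|`, the graph on the primes dividing class sizes of `p`-singular elements (two
primes adjacent when their product divides such a class size) is connected of diameter `≤ 3`.
-/

set_option autoImplicit false

namespace Cfsg.Agent.Helper55

variable {G : Type*} [Group G]

/-- Linking two `p`-elements of coprime class sizes, the first one `p`-central. -/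
theorem psing_link [Finite G] (p : ℕ) [Fact p.Prime] (a b : G)
    (ha : ∃ j : ℕ, orderOf a = p ^ j) (hb : ∃ j : ℕ, orderOf b = p ^ j)
    (hac : a ∉ Subgroup.center G) (hbc : b ∉ Subgroup.center G)
    (hcop : (csz a).Coprime (csz b)) (hpa : ¬ p ∣ csz a) :
    (∃ w : G, p ∣ orderOf w ∧ ∃ t u : ℕ, t.Prime ∧ u.Prime ∧ t ∣ csz a ∧ u ∣ csz b ∧
        t ∣ csz w ∧ u ∣ csz w) ∨
    (p ∣ csz b ∧ ∃ b' : G, (∃ j : ℕ, orderOf b' = p ^ j) ∧ csz b' = csz b ∧ Commute a b' ∧
        ∀ u v : G, Commute (u * a * u⁻¹) (v * a * v⁻¹)) := by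
  obtain ⟨ja, hja⟩ := ha
  obtain ⟨jb, hjb⟩ := hb
  obtain ⟨Q, hQ⟩ := H72.exists_sylow_le_of_not_dvd_index p _ hpa
  obtain ⟨c, -, hcb⟩ := H72.exists_conj_mem_sylow_of_le Q ⊤ le_top b (Subgroup.mem_top b) jb hjb
  obtain ⟨b', hb'⟩ : ∃ b' : G, b' = c * b * c⁻¹ := ⟨_, rfl⟩
  rw [← hb'] at hcb
  have hb'c : Commute a b' := (mem_cen_iff.mp (hQ hcb)).symm
  have hcsz : csz b' = csz b := by rw [hb']; exact csz_conj c b
  have hb'ord : orderOf b' = p ^ jb := by rw [hb', orderOf_conj_eq]; exact hjb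
  have hb'cen : b' ∉ Subgroup.center G := by
    rw [← csz_eq_one_iff, hcsz, csz_eq_one_iff]
    exact hbc
  have hcop' : (csz a).Coprime (csz b') := by rw [hcsz]; exact hcop
  have hw1 : a * b' ≠ 1 := by
    intro h1
    have h2 : b' = a⁻¹ := eq_inv_of_mul_eq_one_right h1
    have h3 : csz a = 1 := by
      have h4 := hcop'
      rw [h2, csz_inv] at h4
      exact Nat.coprime_self _ |>.mp h4
    exact hac ((csz_eq_one_iff a).mp h3)
  have hwp : (a * b') ^ (p ^ (ja + jb)) = 1 := by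
    have h1 : a ^ (p ^ (ja + jb)) = 1 := by
      rw [pow_add, pow_mul, ← hja, pow_orderOf_eq_one, one_pow]
    have h2 : b' ^ (p ^ (ja + jb)) = 1 := by
      rw [pow_add, mul_comm, pow_mul, ← hb'ord, pow_orderOf_eq_one, one_pow]
    rw [hb'c.mul_pow, h1, h2, one_mul]
  have hpw : p ∣ orderOf (a * b') := dvd_orderOf_of_pow_eq_one hwp hw1
  by_cases h1 : (csz (a * b')).Coprime (csz b')
  · obtain ⟨R, hRn, hRd, hRc, hR⟩ := lemmaA a b' hcop' h1
    exact absurd (dvd_csz_of_lemmaA hRn hRd hRc hR ⟨jb, hb'ord⟩ hb'cen) hpa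
  · by_cases h2 : (csz (a * b')).Coprime (csz a)
    · have hw' : b' * a = a * b' := hb'c.symm.eq
      obtain ⟨R, hRn, hRd, hRc, hR⟩ := lemmaA b' a hcop'.symm (by rw [hw']; exact h2)
      right
      refine ⟨?_, b', ⟨jb, hb'ord⟩, hcsz, hb'c, conj_commute_of_lemmaA hRn hRc hR⟩
      rw [← hcsz]
      exact dvd_csz_of_lemmaA hRn hRd hRc hR ⟨ja, hja⟩ hac
    · left
      obtain ⟨u, hu, huw, hub⟩ := Nat.Prime.not_coprime_iff_dvd.mp h1
      obtain ⟨t, ht, htw, hta⟩ := Nat.Prime.not_coprime_iff_dvd.mp h2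
      rw [hcsz] at hub
      exact ⟨a * b', hpw, t, u, ht, hu, hta, hub, htw, huw⟩

/-- If every `p'`-element of `C(a)` has class size in `C(a)` prime to `p`, then the `p`-elements
of `C(a)` form a `p`-subgroup centralized by the `p'`-elements of `C(a)`. -/
theorem exists_psub_of_centralizer [Finite G] (p : ℕ) [Fact p.Prime] (a : G)
    (hD : ∀ c : G, Commute c a → (orderOf c).Coprime p →
      ¬ p ∣ (Subgroup.centralizer ({c} : Set G)).relIndex (Subgroup.centralizer ({a} : Set G))) :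
    ∃ P : Subgroup G, IsPGroup p P ∧ P ≤ Subgroup.centralizer ({a} : Set G) ∧
      (∀ x : G, Commute x a → (∃ k : ℕ, x ^ (p ^ k) = 1) → x ∈ P) ∧
      (∀ c : G, Commute c a → (orderOf c).Coprime p → ∀ u ∈ P, Commute c u) := by
  obtain ⟨C, hC⟩ : ∃ C : Subgroup G, C = Subgroup.centralizer ({a} : Set G) := ⟨_, rfl⟩
  rw [← hC] at hD ⊢
  have hCmem : ∀ x : G, x ∈ C ↔ Commute x a := fun x => by rw [hC]; exact mem_cen_iff
  have hcen : ∀ y : C, Subgroup.centralizer ({y} : Set C)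
      = (Subgroup.centralizer ({(y : G)} : Set G)).subgroupOf C := by
    intro y
    ext z
    rw [Subgroup.mem_subgroupOf, mem_cen_iff, mem_cen_iff]
    constructor
    · intro hz
      exact congrArg Subtype.val hz.eq
    · intro hz
      exact Subtype.ext hz.eq
  have hD' : ∀ y : C, (orderOf y).Coprime p →
      ¬ p ∣ (Subgroup.centralizer ({y} : Set C)).index := by
    intro y hy
    rw [hcen y]
    have := hD (y : G) ((hCmem _).mp y.2) (by rw [Subgroup.orderOf_coe]; exact hy)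
    exact this
  obtain ⟨P₀⟩ : Nonempty (Sylow p C) := inferInstance
  have hsup := sylow_sup_centralizer_eq_top p hD' P₀
  have hP₀n : (P₀ : Subgroup C).Normal := by
    rw [← Subgroup.normalizer_eq_top_iff, eq_top_iff, ← hsup]
    exact sup_le Subgroup.le_normalizer (Subgroup.centralizer_le_normalizer _)
  refine ⟨(P₀ : Subgroup C).map C.subtype, P₀.isPGroup'.map _, Subgroup.map_subtype_le _, ?_, ?_⟩
  · intro x hx hxp
    obtain ⟨k, hk⟩ := hxp
    have hxC : x ∈ C := (hCmem x).mpr hx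
    obtain ⟨j, hj⟩ := exists_orderOf_eq_of_pow_eq_one hk
    have hj' : orderOf (⟨x, hxC⟩ : C) = p ^ j := by
      rw [← Subgroup.orderOf_coe]
      exact hj
    obtain ⟨c, -, hc⟩ := H72.exists_conj_mem_sylow_of_le P₀ ⊤ le_top (⟨x, hxC⟩ : C)
      (Subgroup.mem_top _) j hj'
    have h1 := hP₀n.conj_mem _ hc c⁻¹
    have e : c⁻¹ * (c * (⟨x, hxC⟩ : C) * c⁻¹) * c⁻¹⁻¹ = ⟨x, hxC⟩ := by group
    rw [e] at h1
    exact Subgroup.mem_map.mpr ⟨⟨x, hxC⟩, h1, rfl⟩
  · intro c hc hco u hu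
    obtain ⟨u', hu', rfl⟩ := Subgroup.mem_map.mp hu
    have hcC : c ∈ C := (hCmem c).mpr hc
    have hco' : (orderOf (⟨c, hcC⟩ : C)).Coprime p := by
      rw [← Subgroup.orderOf_coe]
      exact hco
    obtain ⟨S, hS⟩ := H72.exists_sylow_le_of_not_dvd_index p _ (hD' ⟨c, hcC⟩ hco')
    obtain ⟨g, hg⟩ := MulAction.exists_smul_eq C P₀ S
    haveI : (P₀ : Subgroup C).Normal := hP₀n
    rw [Sylow.smul_eq_of_normal] at hg
    rw [← hg] at hS
    have h1 : Commute u' (⟨c, hcC⟩ : C) := mem_cen_iff.mp (hS hu')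
    have h2 : (u' : G) * c = c * (u' : G) := congrArg Subtype.val h1.eq
    exact h2.symm

/-- Core step: a `p`-central `p`-element `a` whose conjugates commute pairwise and a non-`p`-central
`p`-element `b` of coprime class size: some `p`-singular class size is divisible by `p` and by a
prime divisor of `csz a`. -/
theorem psing_core [Finite G] (p : ℕ) [Fact p.Prime] (a b : G)
    (ha : ∃ j : ℕ, orderOf a = p ^ j) (hb : ∃ j : ℕ, orderOf b = p ^ j)
    (hac : a ∉ Subgroup.center G)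
    (hcop : (csz a).Coprime (csz b)) (hpa : ¬ p ∣ csz a) (hpb : p ∣ csz b)
    (hab : Commute a b)
    (hconj : ∀ u v : G, Commute (u * a * u⁻¹) (v * a * v⁻¹)) :
    ∃ w : G, p ∣ orderOf w ∧ p ∣ csz w ∧ ∃ t : ℕ, t.Prime ∧ t ∣ csz a ∧ t ∣ csz w := by
  by_contra hcon
  have h3 : ∀ w : G, p ∣ orderOf w → p ∣ csz w →
      ∀ t : ℕ, t.Prime → t ∣ csz a → ¬ t ∣ csz w := by
    intro w h1 h2 t ht hta htw
    exact hcon ⟨w, h1, h2, t, ht, hta, htw⟩
  have hpp : p.Prime := Fact.out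
  obtain ⟨ja, hja⟩ := ha
  obtain ⟨jb, hjb⟩ := hb
  have hapow : a ^ (p ^ ja) = 1 := by rw [← hja]; exact pow_orderOf_eq_one a
  have hbpow : b ^ (p ^ jb) = 1 := by rw [← hjb]; exact pow_orderOf_eq_one b
  have ha1 : a ≠ 1 := fun h => hac (h ▸ Subgroup.one_mem _)
  have hpa_ord : p ∣ orderOf a := dvd_orderOf_of_pow_eq_one hapow ha1
  have hcsza : csz a ≠ 1 := fun h => hac ((csz_eq_one_iff a).mp h)
  obtain ⟨t₀, ht₀, ht₀a⟩ := Nat.exists_prime_and_dvd hcsza
  have ht₀p : t₀ ≠ p := fun h => hpa (h ▸ ht₀a)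
  haveI : Fact t₀.Prime := ⟨ht₀⟩
  have hcopw : ∀ w : G, p ∣ orderOf w → p ∣ csz w → (csz a).Coprime (csz w) := by
    intro w h1 h2
    exact Nat.coprime_of_dvd (fun k hk hka hkw => h3 w h1 h2 k hk hka hkw)
  -- the `p`-elements of `C(a)` form a subgroup `P`
  have hD : ∀ c : G, Commute c a → (orderOf c).Coprime p →
      ¬ p ∣ (Subgroup.centralizer ({c} : Set G)).relIndex
        (Subgroup.centralizer ({a} : Set G)) := by
    intro c hc hco hdiv
    have hco' : (orderOf a).Coprime (orderOf c) := by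
      rw [hja]
      exact Nat.Coprime.pow_left _ hco.symm
    have hord : orderOf (a * c) = orderOf a * orderOf c :=
      hc.symm.orderOf_mul_eq_mul_orderOf_of_coprime hco'
    have h1 : p ∣ orderOf (a * c) := by
      rw [hord]
      exact hpa_ord.mul_right _
    have h2 : csz (a * c) = (Subgroup.centralizer ({c} : Set G)).relIndex
        (Subgroup.centralizer ({a} : Set G)) * csz a := by
      unfold csz
      rw [cen_mul_eq_inf hc.symm hco', ← Subgroup.inf_relIndex_left,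
        Subgroup.relIndex_mul_index inf_le_left]
    have h4 : p ∣ csz (a * c) := by
      rw [h2]
      exact hdiv.mul_right _
    have h5 : t₀ ∣ csz (a * c) := by
      rw [h2]
      exact ht₀a.mul_left _
    exact h3 _ h1 h4 t₀ ht₀ ht₀a h5
  obtain ⟨P, hPp, hPC, hPall, hPcent⟩ := exists_psub_of_centralizer p a hD
  have haP : a ∈ P := hPall a (Commute.refl a) ⟨ja, hapow⟩
  have hbP : b ∈ P := hPall b hab.symm ⟨jb, hbpow⟩
  have haZ : ∀ u ∈ P, Commute u a := fun u hu => mem_cen_iff.mp (hPC hu)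
  have hPpow : ∀ w ∈ P, ∃ k : ℕ, w ^ (p ^ k) = 1 := fun w hw => exists_pow_eq_one_of_mem hPp hw
  -- the normal closure of `a` is a normal `p`-subgroup
  have hMp : IsPGroup p (Subgroup.normalClosure ({a} : Set G)) :=
    isPGroup_normalClosure_of_commute hapow hconj
  have hMn : (Subgroup.normalClosure ({a} : Set G)).Normal := Subgroup.normalClosure_normal
  have hconjM : ∀ v : G, v * a * v⁻¹ ∈ Subgroup.normalClosure ({a} : Set G) := fun v =>
    hMn.conj_mem a (Subgroup.subset_normalClosure (Set.mem_singleton a)) v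
  have hw1_of : ∀ w : G, p ∣ csz w → w ≠ 1 := by
    rintro w hw rfl
    have h1 : csz (1 : G) = 1 := (csz_eq_one_iff 1).mpr (Subgroup.one_mem _)
    rw [h1] at hw
    exact hpp.one_lt.ne' (Nat.dvd_one.mp hw)
  -- every element of `P` commutes with every conjugate of `a`
  have hPcomm : ∀ w ∈ P, ∀ v : G, Commute w (v * a * v⁻¹) := by
    intro w hw v
    by_cases hpw : p ∣ csz w
    · obtain ⟨k, hk⟩ := hPpow w hw
      have hpo : p ∣ orderOf w := dvd_orderOf_of_pow_eq_one hk (hw1_of w hpw)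
      have hco := hcopw w hpo hpw
      obtain ⟨c₁, hc₁, c₂, hc₂, hv⟩ := (H1.coprime_index _ _ hco.symm).2 v
      rw [mem_cen_iff] at hc₁ hc₂
      have e : v * a * v⁻¹ = c₁ * a * c₁⁻¹ := by
        have h1 : c₂ * a * c₂⁻¹ = a := by
          rw [hc₂.eq]
          group
        calc v * a * v⁻¹ = c₁ * (c₂ * a * c₂⁻¹) * c₁⁻¹ := by
              rw [hv]
              group
          _ = c₁ * a * c₁⁻¹ := by rw [h1]
      rw [e]
      have hwa : Commute w a := haZ w hw
      have h1 : w * c₁ = c₁ * w := hc₁.eq.symm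
      show w * (c₁ * a * c₁⁻¹) = c₁ * a * c₁⁻¹ * w
      calc w * (c₁ * a * c₁⁻¹) = (w * c₁) * a * c₁⁻¹ := by group
        _ = c₁ * (w * a) * c₁⁻¹ := by
            rw [h1]
            group
        _ = c₁ * (a * w) * c₁⁻¹ := by rw [hwa.eq]
        _ = c₁ * a * (c₁⁻¹ * (c₁ * w) * c₁⁻¹) := by group
        _ = c₁ * a * (c₁⁻¹ * (w * c₁) * c₁⁻¹) := by rw [h1]
        _ = c₁ * a * c₁⁻¹ * w := by group
    · obtain ⟨Q, hQ⟩ := H72.exists_sylow_le_of_not_dvd_index p _ hpw
      have h1 := hQ (le_sylow_of_normal_isPGroup hMn hMp Q (hconjM v))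
      exact (mem_cen_iff.mp h1).symm
  have hPn : P.Normal := by
    refine ⟨fun w hw g => ?_⟩
    apply hPall
    · have h1 := hPcomm w hw g⁻¹
      have h2 : w * (g⁻¹ * a * g) = g⁻¹ * a * g * w := by simpa using h1.eq
      show g * w * g⁻¹ * a = a * (g * w * g⁻¹)
      calc g * w * g⁻¹ * a = g * (w * (g⁻¹ * a * g)) * g⁻¹ := by group
        _ = g * (g⁻¹ * a * g * w) * g⁻¹ := by rw [h2]
        _ = a * (g * w * g⁻¹) := by group
    · obtain ⟨k, hk⟩ := hPpow w hw
      exact ⟨k, by rw [conj_pow, hk]; group⟩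
  have hcentral : ∀ w ∈ P, ¬ p ∣ csz w → ∀ u ∈ P, Commute w u := by
    intro w hw hpw u hu
    obtain ⟨Q, hQ⟩ := H72.exists_sylow_le_of_not_dvd_index p _ hpw
    have h1 := hQ (le_sylow_of_normal_isPGroup hPn hPp Q hu)
    exact (mem_cen_iff.mp h1).symm
  have hclass : ∀ w ∈ P, (∃ u ∈ P, ¬ Commute w u) →
      ∀ g : G, ∃ u ∈ P, g * w * g⁻¹ = u * w * u⁻¹ := by
    intro w hw hnc g
    have hpw : p ∣ csz w := by
      by_contra hh
      obtain ⟨u, hu, hcu⟩ := hnc
      exact hcu (hcentral w hw hh u hu)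
    obtain ⟨k, hk⟩ := hPpow w hw
    have hpo : p ∣ orderOf w := dvd_orderOf_of_pow_eq_one hk (hw1_of w hpw)
    have hco := hcopw w hpo hpw
    obtain ⟨c₁, hc₁, c₂, hc₂, hg⟩ := (H1.coprime_index _ _ hco).2 g
    rw [mem_cen_iff] at hc₁ hc₂
    obtain ⟨α, β, hαβ, ⟨j, hj⟩, hβ⟩ := H72.exists_pparts p hpp c₁
    have hαa : Commute (c₁ ^ α) a := hc₁.pow_left α
    have hβa : Commute (c₁ ^ β) a := hc₁.pow_left β
    have hαP : c₁ ^ α ∈ P := hPall _ hαa ⟨j, by rw [← hj]; exact pow_orderOf_eq_one _⟩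
    have hβw : Commute (c₁ ^ β) w := hPcent _ hβa hβ w hw
    refine ⟨c₁ ^ α, hαP, ?_⟩
    have h1 : c₂ * w * c₂⁻¹ = w := by
      rw [hc₂.eq]
      group
    have h2 : c₁ ^ β * w * (c₁ ^ β)⁻¹ = w := by
      rw [hβw.eq]
      group
    calc g * w * g⁻¹ = c₁ * (c₂ * w * c₂⁻¹) * c₁⁻¹ := by
          rw [hg]
          group
      _ = c₁ * w * c₁⁻¹ := by rw [h1]
      _ = (c₁ ^ α * c₁ ^ β) * w * (c₁ ^ α * c₁ ^ β)⁻¹ := by rw [hαβ]
      _ = c₁ ^ α * (c₁ ^ β * w * (c₁ ^ β)⁻¹) * (c₁ ^ α)⁻¹ := by group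
      _ = c₁ ^ α * w * (c₁ ^ α)⁻¹ := by rw [h2]
  -- `b * a` is not central in `P`
  have hba_nc : ∃ u ∈ P, ¬ Commute (b * a) u := by
    by_contra hh
    push Not at hh
    obtain ⟨Q, hQ⟩ := H72.exists_sylow_le_of_not_dvd_index p _ hpa
    have hQb : (Q : Subgroup G) ≤ Subgroup.centralizer ({b} : Set G) := by
      intro q hq
      obtain ⟨k, hk⟩ := exists_pow_eq_one_of_mem Q.isPGroup' hq
      have hqP : q ∈ P := hPall q (mem_cen_iff.mp (hQ hq)) ⟨k, hk⟩
      rw [mem_cen_iff]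
      have h1 : Commute (b * a) q := hh q hqP
      have h2 : Commute a q := (haZ q hqP).symm
      have h3 : Commute (b * a * a⁻¹) q := h1.mul_left h2.inv_left
      rw [mul_inv_cancel_right] at h3
      exact h3.symm
    exact Q.not_dvd_index (hpb.trans (Subgroup.index_dvd_of_le hQb))
  -- a Sylow `t₀`-subgroup centralizes `a`
  obtain ⟨T⟩ : Nonempty (Sylow t₀ G) := inferInstance
  have hT : (T : Subgroup G) ≤ Subgroup.centralizer ({a} : Set G) := by
    intro τ hτ
    obtain ⟨i, hτi⟩ := exists_pow_eq_one_of_mem T.isPGroup' hτ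
    have hV := commute_commutator_of_class_fixing ht₀p P hPn hPp τ i hτi
      (fun w hw hnc => hclass w hw hnc τ)
    obtain ⟨x, hx⟩ := conj_mul_conj_eq (g := b) (h := a) hcop.symm 1 τ
    obtain ⟨u, hu, hxu⟩ := hclass (b * a) (P.mul_mem hbP haP) hba_nc x
    obtain ⟨k, hk⟩ : ∃ k : G, k = b⁻¹ * u * b⁻¹⁻¹ * u⁻¹ := ⟨_, rfl⟩
    have hkτ : Commute τ k := hk ▸ hV b⁻¹ (P.inv_mem hbP) u hu
    have hkP : k ∈ P := by
      rw [hk]
      exact P.mul_mem (P.mul_mem (P.mul_mem (P.inv_mem hbP) hu) (P.inv_mem (P.inv_mem hbP)))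
        (P.inv_mem hu)
    have hka : Commute k a := haZ k hkP
    have hua : u * a * u⁻¹ = a := by
      rw [(haZ u hu).eq]
      group
    have hτa : τ * a * τ⁻¹ = k * a := by
      have h1 : b * (τ * a * τ⁻¹) = u * (b * a) * u⁻¹ := by
        rw [← hxu, ← hx]
        group
      calc τ * a * τ⁻¹ = b⁻¹ * (b * (τ * a * τ⁻¹)) := by group
        _ = b⁻¹ * (u * (b * a) * u⁻¹) := by rw [h1]
        _ = b⁻¹ * u * b * u⁻¹ * (u * a * u⁻¹) := by group
        _ = k * a := by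
            rw [hua, hk]
            group
    have hpow : ∀ n : ℕ, τ ^ n * a * (τ ^ n)⁻¹ = k ^ n * a := by
      intro n
      induction n with
      | zero => simp
      | succ n ih =>
        have hkn : τ * k ^ n * τ⁻¹ = k ^ n := by
          rw [(hkτ.pow_right n).eq]
          group
        calc τ ^ (n + 1) * a * (τ ^ (n + 1))⁻¹ = τ * (τ ^ n * a * (τ ^ n)⁻¹) * τ⁻¹ := by
              rw [pow_succ']
              group
          _ = τ * (k ^ n * a) * τ⁻¹ := by rw [ih]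
          _ = (τ * k ^ n * τ⁻¹) * (τ * a * τ⁻¹) := by group
          _ = k ^ n * (k * a) := by rw [hkn, hτa]
          _ = k ^ (n + 1) * a := by
              rw [pow_succ]
              group
    have hk1 : k ^ (t₀ ^ i) = 1 := by
      have h1 := hpow (t₀ ^ i)
      rw [hτi] at h1
      simp only [one_mul, inv_one, mul_one] at h1
      exact (mul_eq_right.mp h1.symm)
    obtain ⟨m, hm⟩ := hPpow k hkP
    have hk_one : k = 1 := by
      rw [← orderOf_eq_one_iff]
      have hcop2 : (t₀ ^ i).Coprime (p ^ m) :=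
        Nat.Coprime.pow _ _ ((Nat.coprime_primes ht₀ hpp).mpr ht₀p)
      exact Nat.eq_one_of_dvd_coprimes hcop2 (orderOf_dvd_of_pow_eq_one hk1)
        (orderOf_dvd_of_pow_eq_one hm)
    rw [hk_one, one_mul] at hτa
    rw [mem_cen_iff]
    show τ * a = a * τ
    calc τ * a = τ * a * τ⁻¹ * τ := by group
      _ = a * τ := by rw [hτa]
  exact T.not_dvd_index (ht₀a.trans (Subgroup.index_dvd_of_le hT))

end Cfsg.Agent.Helper55
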