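import Mathlib
import Cfsg.Agent.Helper55.PSingB

/-!
# The prime graph on class sizes of `p`-singular elements: diameter at most 3 (S4321)
-/

set_option autoImplicit false

namespace Cfsg.Agent.Helper55

variable {G : Type*} [Group G]

/-- Assembling a path of length at most three from weak links. -/
theorem path3 {V : ℕ → Prop} {E : ℕ → ℕ → Prop} {r s t u : ℕ} (hrs : r ≠ s)
    (ht : V t) (hu : V u)
    (h1 : r ≠ t → E r t) (h2 : t ≠ u → E t u) (h3 : u ≠ s → E u s) :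
    E r s ∨ (∃ t, V t ∧ t ≠ r ∧ t ≠ s ∧ E r t ∧ E t s) ∨
      (∃ t u, V t ∧ V u ∧ t ≠ r ∧ u ≠ s ∧ t ≠ u ∧ E r t ∧ E t u ∧ E u s) := by
  by_cases hrt : r = t
  · subst hrt
    by_cases htu : r = u
    · subst htu
      exact Or.inl (h3 hrs)
    · by_cases hus : u = s
      · subst hus
        exact Or.inl (h2 htu)
      · exact Or.inr (Or.inl ⟨u, hu, fun h => htu h.symm, hus, h2 htu, h3 hus⟩)
  · by_cases htu : t = u
    · subst htu
      by_cases hus : t = s
      · subst hus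
        exact Or.inl (h1 hrt)
      · exact Or.inr (Or.inl ⟨t, ht, fun h => hrt h.symm, hus, h1 hrt, h3 hus⟩)
    · by_cases hus : u = s
      · subst hus
        exact Or.inr (Or.inl ⟨t, ht, fun h => hrt h.symm, htu, h1 hrt, h2 htu⟩)
      · exact Or.inr (Or.inr ⟨t, u, ht, hu, fun h => hrt h.symm, hus, htu, h1 hrt, h2 htu,
          h3 hus⟩)

/-- A `p`-singular element has a power of order `p`, which is noncentral if `p ∤ |Z(G)|`. -/
theorem exists_pelt_of_psingular [Finite G] (p : ℕ) [Fact p.Prime]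
    (hZ : ¬ p ∣ Nat.card ↥(Subgroup.center G)) (x : G) (hx : p ∣ orderOf x) :
    ∃ a : G, orderOf a = p ∧ a ∉ Subgroup.center G ∧ csz a ∣ csz x := by
  refine ⟨x ^ (orderOf x / p), orderOf_pow_orderOf_div (orderOf_pos x).ne' hx, ?_,
    csz_pow_dvd x _⟩
  intro hc
  apply hZ
  have h1 := Subgroup.orderOf_dvd_natCard (Subgroup.center G) hc
  rwa [orderOf_pow_orderOf_div (orderOf_pos x).ne' hx] at h1

/-- **S4321.** If `p ∤ |Z(G)|`, the prime graph on the class sizes of `p`-singular elements is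
connected of diameter at most 3. -/
theorem psing_diam [Finite G] (p : ℕ) [Fact p.Prime]
    (hZ : ¬ p ∣ Nat.card ↥(Subgroup.center G)) (r s : ℕ)
    (hr : r.Prime ∧ ∃ x : G, p ∣ orderOf x ∧ r ∣ csz x)
    (hs : s.Prime ∧ ∃ x : G, p ∣ orderOf x ∧ s ∣ csz x) (hrs : r ≠ s) :
    (∃ x : G, p ∣ orderOf x ∧ r * s ∣ csz x) ∨
      (∃ t : ℕ, (t.Prime ∧ ∃ x : G, p ∣ orderOf x ∧ t ∣ csz x) ∧ t ≠ r ∧ t ≠ s ∧
        (∃ x : G, p ∣ orderOf x ∧ r * t ∣ csz x) ∧ (∃ x : G, p ∣ orderOf x ∧ t * s ∣ csz x)) ∨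
      (∃ t u : ℕ, (t.Prime ∧ ∃ x : G, p ∣ orderOf x ∧ t ∣ csz x) ∧
        (u.Prime ∧ ∃ x : G, p ∣ orderOf x ∧ u ∣ csz x) ∧ t ≠ r ∧ u ≠ s ∧ t ≠ u ∧
        (∃ x : G, p ∣ orderOf x ∧ r * t ∣ csz x) ∧ (∃ x : G, p ∣ orderOf x ∧ t * u ∣ csz x) ∧
        (∃ x : G, p ∣ orderOf x ∧ u * s ∣ csz x)) := by
  have hpp : p.Prime := Fact.out
  obtain ⟨hrp, x, hxp, hrx⟩ := hr
  obtain ⟨hsp, y, hyp, hsy⟩ := hs
  have edge : ∀ {q q' : ℕ}, q.Prime → q'.Prime → q ≠ q' → ∀ w : G, p ∣ orderOf w →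
      q ∣ csz w → q' ∣ csz w → ∃ x : G, p ∣ orderOf x ∧ q * q' ∣ csz x := by
    intro q q' hq hq' hne w hw h1 h2
    exact ⟨w, hw, ((Nat.coprime_primes hq hq').mpr hne).mul_dvd_of_dvd_of_dvd h1 h2⟩
  suffices hsuff : ∃ t u : ℕ, (t.Prime ∧ ∃ x : G, p ∣ orderOf x ∧ t ∣ csz x) ∧
      (u.Prime ∧ ∃ x : G, p ∣ orderOf x ∧ u ∣ csz x) ∧
      (r ≠ t → ∃ x : G, p ∣ orderOf x ∧ r * t ∣ csz x) ∧
      (t ≠ u → ∃ x : G, p ∣ orderOf x ∧ t * u ∣ csz x) ∧
      (u ≠ s → ∃ x : G, p ∣ orderOf x ∧ u * s ∣ csz x) by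
    obtain ⟨t, u, ht, hu, h1, h2, h3⟩ := hsuff
    exact path3 (V := fun q => q.Prime ∧ ∃ x : G, p ∣ orderOf x ∧ q ∣ csz x)
      (E := fun q q' => ∃ x : G, p ∣ orderOf x ∧ q * q' ∣ csz x) hrs ht hu h1 h2 h3
  obtain ⟨a, hao, hac, hax⟩ := exists_pelt_of_psingular p hZ x hxp
  obtain ⟨b, hbo, hbc, hby⟩ := exists_pelt_of_psingular p hZ y hyp
  have ha : ∃ j : ℕ, orderOf a = p ^ j := ⟨1, by rw [hao, pow_one]⟩
  have hb : ∃ j : ℕ, orderOf b = p ^ j := ⟨1, by rw [hbo, pow_one]⟩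
  by_cases hcop : (csz a).Coprime (csz b)
  · by_cases hpa : p ∣ csz a
    · have hpb : ¬ p ∣ csz b := fun h =>
        hpp.one_lt.ne' (Nat.eq_one_of_dvd_coprimes hcop hpa h)
      rcases psing_link p b a hb ha hbc hac hcop.symm hpb with
        ⟨w, hw, t, u, ht, hu, htb, hua, htw, huw⟩ | ⟨-, a', ha', hcsza', hba', hconj⟩
      · refine ⟨u, t, ⟨hu, x, hxp, hua.trans hax⟩, ⟨ht, y, hyp, htb.trans hby⟩, ?_, ?_, ?_⟩
        · intro hne
          exact edge hrp hu hne x hxp hrx (hua.trans hax)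
        · intro hne
          exact edge hu ht hne w hw huw htw
        · intro hne
          exact edge ht hsp hne y hyp (htb.trans hby) hsy
      · have hcop' : (csz b).Coprime (csz a') := by
          rw [hcsza']
          exact hcop.symm
        have hpa' : p ∣ csz a' := by
          rw [hcsza']
          exact hpa
        obtain ⟨w, hw, hpw, t, ht, htb, htw⟩ :=
          psing_core p b a' hb ha' hbc hcop' hpb hpa' hba' hconj
        refine ⟨p, t, ⟨hpp, x, hxp, hpa.trans hax⟩, ⟨ht, y, hyp, htb.trans hby⟩, ?_, ?_, ?_⟩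
        · intro hne
          exact edge hrp hpp hne x hxp hrx (hpa.trans hax)
        · intro hne
          exact edge hpp ht hne w hw hpw htw
        · intro hne
          exact edge ht hsp hne y hyp (htb.trans hby) hsy
    · rcases psing_link p a b ha hb hac hbc hcop hpa with
        ⟨w, hw, t, u, ht, hu, hta, hub, htw, huw⟩ | ⟨hpb, b', hb', hcszb', hab', hconj⟩
      · refine ⟨t, u, ⟨ht, x, hxp, hta.trans hax⟩, ⟨hu, y, hyp, hub.trans hby⟩, ?_, ?_, ?_⟩
        · intro hne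
          exact edge hrp ht hne x hxp hrx (hta.trans hax)
        · intro hne
          exact edge ht hu hne w hw htw huw
        · intro hne
          exact edge hu hsp hne y hyp (hub.trans hby) hsy
      · have hcop' : (csz a).Coprime (csz b') := by
          rw [hcszb']
          exact hcop
        have hpb' : p ∣ csz b' := by
          rw [hcszb']
          exact hpb
        obtain ⟨w, hw, hpw, t, ht, hta, htw⟩ :=
          psing_core p a b' ha hb' hac hcop' hpa hpb' hab' hconj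
        refine ⟨t, p, ⟨ht, x, hxp, hta.trans hax⟩, ⟨hpp, y, hyp, hpb.trans hby⟩, ?_, ?_, ?_⟩
        · intro hne
          exact edge hrp ht hne x hxp hrx (hta.trans hax)
        · intro hne
          exact edge ht hpp hne w hw htw hpw
        · intro hne
          exact edge hpp hsp hne y hyp (hpb.trans hby) hsy
  · obtain ⟨q, hq, hqa, hqb⟩ := Nat.Prime.not_coprime_iff_dvd.mp hcop
    refine ⟨q, q, ⟨hq, x, hxp, hqa.trans hax⟩, ⟨hq, y, hyp, hqb.trans hby⟩, ?_, ?_, ?_⟩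
    · intro hne
      exact edge hrp hq hne x hxp hrx (hqa.trans hax)
    · intro hne
      exact absurd rfl hne
    · intro hne
      exact edge hq hsp hne y hyp (hqb.trans hby) hsy

end Cfsg.Agent.Helper55
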