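import Cfsg.Agent.H77.TmDefs2

/-!
# S5987 team project (helper77): pieces S5987-CNTP and S5987-CNT

From the number of independent orthogonal singular `m`-tuples (`StTuplesM`) and the fibre count
(`StFibM`) we get `NM * ∏ (q^(m-j) - 1) = ∏ (q^(k+1-j)+1) (q^(k-j)-1)`; so `NM` is prime to `p`
and every prime divisor of `NM` divides one of the factors on the right.
-/

set_option autoImplicit false
open scoped MatrixGroups
open scoped Matrix

namespace Cfsg.Agent.Helper55.Tm

open Cfsg.Agent.H45 Cfsg.Agent.H42.Spd Cfsg.Agent.H42.Ti Cfsg.Agent.H77.Tq Cfsg.Agent.H77.Tm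
  Module Polynomial

universe u

/-- `∏_{j<m} (q^m - q^j) = (∏ q^j) * ∏ (q^(m-j) - 1)`. -/
theorem prod_split (q m : ℕ) :
    ∏ j ∈ Finset.range m, (q ^ m - q ^ j)
      = (∏ j ∈ Finset.range m, q ^ j) * ∏ j ∈ Finset.range m, (q ^ (m - j) - 1) := by
  rw [← Finset.prod_mul_distrib]
  apply Finset.prod_congr rfl
  intro j hj
  have hj' : j < m := Finset.mem_range.mp hj
  rw [Nat.mul_sub, mul_one, ← pow_add, Nat.add_sub_cancel' hj'.le]

/-- The count identity after cancelling the powers of `q`. -/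
theorem nm_cancel (hT : StTuplesM.{u}) (hF : StFibM.{u}) (F : Type u) [Field F] [Fintype F]
    (k m : ℕ) (a b : F) (hab : Aniso a b) (hm : m ≤ k) :
    NM F k a b m * ∏ j ∈ Finset.range m, (Fintype.card F ^ (m - j) - 1)
      = ∏ j ∈ Finset.range m,
          ((Fintype.card F ^ (k + 1 - j) + 1) * (Fintype.card F ^ (k - j) - 1)) := by
  have h1 : NM F k a b m * ∏ j ∈ Finset.range m, (Fintype.card F ^ m - Fintype.card F ^ j) =
      ∏ j ∈ Finset.range m, (Fintype.card F ^ j *
        ((Fintype.card F ^ (k + 1 - j) + 1) * (Fintype.card F ^ (k - j) - 1))) := by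
    rw [← hF F k m a b, hT F k m a b hab hm]
  rw [prod_split, Finset.prod_mul_distrib] at h1
  have hq : 0 < Fintype.card F := Fintype.card_pos
  have hA : 0 < ∏ j ∈ Finset.range m, Fintype.card F ^ j :=
    Finset.prod_pos fun j _ => pow_pos hq j
  apply Nat.eq_of_mul_eq_mul_left hA
  rw [← h1]
  ring

/-- S5987-CNTP. -/
theorem cntP (hT : StTuplesM.{u}) (hF : StFibM.{u}) : StCntP.{u} := by
  intro F _ _ p _ _ k a b m hab hm hdvd
  have hp : p.Prime := Fact.out
  obtain ⟨n, -, hn⟩ := FiniteField.card F p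
  have hpq : p ∣ Fintype.card F := by
    rw [hn]
    exact dvd_pow_self p n.ne_zero
  have hq : 0 < Fintype.card F := Fintype.card_pos
  have h1 := nm_cancel hT hF F k m a b hab hm
  have h2 : p ∣ ∏ j ∈ Finset.range m,
      ((Fintype.card F ^ (k + 1 - j) + 1) * (Fintype.card F ^ (k - j) - 1)) := by
    rw [← h1]
    exact Dvd.dvd.mul_right hdvd _
  obtain ⟨j, hj, hjd⟩ := (Nat.Prime.prime hp).exists_mem_finset_dvd h2
  have hj' : j < m := Finset.mem_range.mp hj
  rcases (Nat.Prime.dvd_mul hp).mp hjd with h | h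
  · have h3 : p ∣ Fintype.card F ^ (k + 1 - j) := dvd_pow hpq (by omega)
    have h4 : p ∣ 1 := (Nat.dvd_add_right h3).mp h
    exact hp.one_lt.ne' (Nat.dvd_one.mp h4)
  · have h3 : p ∣ Fintype.card F ^ (k - j) := dvd_pow hpq (by omega)
    have h5 : 0 < Fintype.card F ^ (k - j) := pow_pos hq _
    have h6 : Fintype.card F ^ (k - j) = (Fintype.card F ^ (k - j) - 1) + 1 := by omega
    rw [h6] at h3
    have h4 : p ∣ 1 := (Nat.dvd_add_right h).mp h3
    exact hp.one_lt.ne' (Nat.dvd_one.mp h4)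

/-- S5987-CNT. -/
theorem cnt (hT : StTuplesM.{u}) (hF : StFibM.{u}) : Cfsg.Agent.H77.Tm.StCnt.{u} := by
  intro F _ _ p _ _ k a b m r hab hm hr _ hdvd
  have h1 := nm_cancel hT hF F k m a b hab hm
  have h2 : r ∣ ∏ j ∈ Finset.range m,
      ((Fintype.card F ^ (k + 1 - j) + 1) * (Fintype.card F ^ (k - j) - 1)) := by
    rw [← h1]
    exact Dvd.dvd.mul_right hdvd _
  obtain ⟨j, hj, hjd⟩ := (Nat.Prime.prime hr).exists_mem_finset_dvd h2
  exact ⟨j, Finset.mem_range.mp hj, (Nat.Prime.dvd_mul hr).mp hjd⟩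

example (hT : StTuplesM.{u}) (hF : StFibM.{u}) : StCntP.{u} := cntP hT hF
example (hT : StTuplesM.{u}) (hF : StFibM.{u}) : Cfsg.Agent.H77.Tm.StCnt.{u} := cnt hT hF

end Cfsg.Agent.Helper55.Tm
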