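import Cfsg.Agent.H77.TmDefs2

/-!
# S5987 team project (helper77): piece S5987-TWO (the case `r = 2 ≠ p`, assembly)
-/

set_option autoImplicit false
open scoped MatrixGroups
open scoped Matrix

namespace Cfsg.Agent.Helper55.Tm

open Cfsg.Agent.H45 Cfsg.Agent.H42.Spd Cfsg.Agent.H42.Ti Cfsg.Agent.H77.Tq Cfsg.Agent.H77.Tm
  Module Polynomial

universe u

/-- `Ω(Q)` (inside `GL`) consists of isometries. -/
theorem omegaGL_le_isom {ι : Type} [Fintype ι] [DecidableEq ι] {F : Type u} [Field F]
    (Q : (ι → F) → F) : Cfsg.Geo.omegaGL Q ≤ Cfsg.isometryGroup F Q := by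
  intro x hx
  obtain ⟨y, -, rfl⟩ := hx
  exact y.2

/-- S5987-TWO. -/
theorem two (hScal : StScal.{u}) (hI : StInvOne.{u}) (hE : StNegEven.{u}) (hO : StNegOdd.{u})
    (hM : StNegMem.{u}) (hX : StNegEx.{u}) : StTwo.{u} := by
  intro F _ _ k a b m h2 hab hk hm1 hmk
  constructor
  · intro hall
    by_contra hcon
    push Not at hcon
    obtain ⟨hk1, hmo, hq⟩ := hcon
    have hk1' : Odd (k + 1) := Nat.not_even_iff_odd.mp hk1
    obtain ⟨x, hxO, hxx⟩ := hX F k a b h2 hab hk1' hq
    have hxI := omegaGL_le_isom _ hxO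
    have hfix : FixM k a b m x := by
      apply hall x hxO
      · refine ⟨-1, ?_⟩
        rw [pow_two, Units.val_mul, hxx]
        simp
      · intro z hz
        have hzz := hScal F k a b x z hxI hz
        rw [hz] at hxx
        have h1 : (1 : Matrix (MI k) (MI k) F) = -1 := by
          rw [← hxx, smul_mul_smul_comm, hzz, one_smul, one_mul]
        have h3 := congrFun (congrFun h1 (Sum.inr 0)) (Sum.inr 0)
        simp at h3
        apply h2
        linear_combination h3
    obtain ⟨W, ⟨hWd, -⟩, hWinv⟩ := hfix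
    have h4 := hO F k a b h2 hab x hxI hxx W hWinv
    rw [hWd] at h4
    exact hmo h4
  · intro hcond x hxO hz hns
    obtain ⟨z, hz⟩ := hz
    have hxI := omegaGL_le_isom _ hxO
    have hx2I : x ^ 2 ∈ Cfsg.isometryGroup F (Cfsg.quadFormMinus k F a b) :=
      Subgroup.pow_mem _ hxI 2
    have hzz := hScal F k a b (x ^ 2) z hx2I hz
    have hz1 : z = 1 ∨ z = -1 := by
      have h5 : (z - 1) * (z + 1) = 0 := by linear_combination hzz
      rcases mul_eq_zero.mp h5 with h | h
      · left
        linear_combination h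
      · right
        linear_combination h
    rcases hz1 with rfl | rfl
    · apply hI F k a b m h2 hab hmk x hxI
      apply Units.ext
      rw [← pow_two, hz, one_smul]
      rfl
    · have hxx : (x : Matrix (MI k) (MI k) F) * (x : Matrix (MI k) (MI k) F) = -1 := by
        rw [← Units.val_mul, ← pow_two, hz]
        simp
      obtain ⟨hk1, hq⟩ := hM F k a b h2 hab x hxO hxx
      have hme : Even m := by
        rcases hcond with h | h | h
        · exact absurd hk1 (Nat.not_odd_iff_even.mpr h)
        · exact h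
        · exact absurd hq h
      exact hE F k a b m h2 hab hmk hme x hxI hxx

example (hScal : StScal.{u}) (hI : StInvOne.{u}) (hE : StNegEven.{u}) (hO : StNegOdd.{u})
    (hM : StNegMem.{u}) (hX : StNegEx.{u}) : StTwo.{u} := two hScal hI hE hO hM hX

end Cfsg.Agent.Helper55.Tm
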